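import Mathlib
import Cfsg.Agent.Helper8.S4504Defs
import Cfsg.Agent.Helper14.S4504BDefs
import Cfsg.Agent.Helper76.CentralChar

/-!
Piece ZF of the sub-CALL S4504B (helper14; piece BOUND of helper8's CALL S4504):
Fourier inversion on the centre.
-/

set_option autoImplicit false
open Cfsg Cfsg.Agent.Helper8 Cfsg.Agent.Helper14.S4504B
open scoped ComplexConjugate

universe u

namespace Cfsg.Agent.Helper9.S4504BZF

theorem s4504b_zf {H : Type u} [Group H] [Finite H] [Fintype (Subgroup.center H)]
    (ξ : Cfsg.IrrCharacter H) (μ : Subgroup.center H → ℂ)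
    (hmul : ∀ z w, μ (z * w) = μ z * μ w) (hnorm : ∀ z, μ z * conj (μ z) = 1) (g : H) :
    (HasCC (ξ : H → ℂ) μ → ∑ c : Subgroup.center H, μ c * conj ((ξ : H → ℂ) (g * (c : H)))
        = (Nat.card (Subgroup.center H) : ℂ) * conj ((ξ : H → ℂ) g)) ∧
    (¬ HasCC (ξ : H → ℂ) μ →
      ∑ c : Subgroup.center H, μ c * conj ((ξ : H → ℂ) (g * (c : H))) = 0) := by
  obtain ⟨c, hc⟩ := Helper76.exists_central_scalar (Subgroup.center H).subtype
    (fun z => z.2) ξ
  have hξ1 : (ξ : H → ℂ) 1 ≠ 0 := Helper76.irr_one_ne_zero ξ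
  obtain ⟨hc1, hcmul⟩ := Helper76.scalar_mul (Subgroup.center H).subtype (ξ : H → ℂ) hξ1 c hc
  have hcn := Helper76.scalar_norm c hc1 hcmul
  have hval : ∀ z : Subgroup.center H, (ξ : H → ℂ) (z : H) = c z * (ξ : H → ℂ) 1 := by
    intro z
    have h := hc z 1
    rw [one_mul] at h
    exact h
  have hsum : ∑ z : Subgroup.center H, μ z * conj ((ξ : H → ℂ) (g * (z : H)))
      = conj ((ξ : H → ℂ) g) * ∑ z : Subgroup.center H, μ z * conj (c z) := by
    rw [Finset.mul_sum]
    apply Finset.sum_congr rfl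
    intro z _
    have h := hc z g
    simp only [Subgroup.coe_subtype] at h
    rw [h, map_mul]
    ring
  constructor
  · intro hcc
    have heq : ∀ z, c z = μ z := by
      intro z
      have h1 := hcc z
      rw [hval z] at h1
      exact mul_right_cancel₀ hξ1 h1
    rw [hsum]
    have h2 : ∑ z : Subgroup.center H, μ z * conj (c z) = (Nat.card (Subgroup.center H) : ℂ) := by
      rw [Finset.sum_congr rfl (fun z _ => by rw [heq z, hnorm z] :
        ∀ z ∈ Finset.univ, μ z * conj (c z) = (1 : ℂ))]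
      rw [Finset.sum_const, Finset.card_univ, Nat.card_eq_fintype_card]
      simp
    rw [h2, mul_comm]
  · intro hcc
    rw [hsum]
    rcases Helper76.sum_scalar_dichotomy μ c hmul hcmul hcn with h0 | hall
    · rw [h0, mul_zero]
    · exfalso
      apply hcc
      intro z
      rw [hval z, hall z]

end Cfsg.Agent.Helper9.S4504BZF
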