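import Mathlib
import Cfsg.Agent.Helper8.S4504Defs
import Cfsg.Agent.Helper14.S4504BDefs
import Cfsg.Agent.Helper67.BRK1
import Cfsg.Agent.Helper76.CentralChar
import Cfsg.Agent.Helper9.S4504BZF

/-!
Piece FOUR of the sub-CALL S4504B (helper14; piece BOUND of helper8's CALL S4504):
the weighted class-algebra count, Fourier-inverted on the centre.
-/

set_option autoImplicit false
open Cfsg Cfsg.Agent.Helper8 Cfsg.Agent.Helper14.S4504B
open scoped ComplexConjugate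

universe u

namespace Cfsg.Agent.Helper9.S4504BFOUR

theorem s4504b_four {H : Type u} [Group H] [Fintype H] [Fintype (Subgroup.center H)]
    [Fintype (Cfsg.IrrCharacter H)] (p : ℕ) (x g : H) (μ : Subgroup.center H → ℂ)
    (hmul : ∀ z w, μ (z * w) = μ z * μ w) (hnorm : ∀ z, μ z * conj (μ z) = 1) (w : ℕ → ℂ)
    (S : Finset (Cfsg.IrrCharacter H))
    (hS : ∀ ξ : Cfsg.IrrCharacter H, ξ ∈ S ↔ HasCC (ξ : H → ℂ) μ) :
    ∑ c : Subgroup.center H, ∑ b ∈ bset p, μ c * w b *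
        (Nat.card {gh : H × H // gh.1 * x * gh.1⁻¹ * (gh.2 * x ^ b * gh.2⁻¹) = g * (c : H)} : ℂ)
      = (Nat.card H : ℂ) * (Nat.card (Subgroup.center H) : ℂ)
          * ∑ ξ ∈ S, term p x g w (ξ : H → ℂ) := by
  classical
  have hcc : ∀ (b : ℕ) (c : Subgroup.center H),
      (Nat.card {gh : H × H // gh.1 * x * gh.1⁻¹ * (gh.2 * x ^ b * gh.2⁻¹) = g * (c : H)} : ℂ)
      = (Nat.card H : ℂ) * ∑ ξ : Cfsg.IrrCharacter H,
          (ξ : H → ℂ) x * (ξ : H → ℂ) (x ^ b) * conj ((ξ : H → ℂ) (g * (c : H)))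
            / (ξ : H → ℂ) 1 := by
    intro b c
    rw [Helper67.br_class_const, finsum_eq_sum_of_fintype]
  set F : Cfsg.IrrCharacter H → Subgroup.center H → ℕ → ℂ := fun ξ c b =>
    μ c * w b * ((ξ : H → ℂ) x * (ξ : H → ℂ) (x ^ b) * conj ((ξ : H → ℂ) (g * (c : H)))
      / (ξ : H → ℂ) 1) with hF
  have step1 : ∀ (c : Subgroup.center H) (b : ℕ), μ c * w b *
      (Nat.card {gh : H × H // gh.1 * x * gh.1⁻¹ * (gh.2 * x ^ b * gh.2⁻¹) = g * (c : H)} : ℂ)
      = (Nat.card H : ℂ) * ∑ ξ : Cfsg.IrrCharacter H, F ξ c b := by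
    intro c b
    rw [hcc b c, Finset.mul_sum, Finset.mul_sum, Finset.mul_sum]
    apply Finset.sum_congr rfl
    intro ξ _
    simp only [hF]
    ring
  have step2 : ∑ c : Subgroup.center H, ∑ b ∈ bset p, ∑ ξ : Cfsg.IrrCharacter H, F ξ c b
      = ∑ ξ : Cfsg.IrrCharacter H, ∑ c : Subgroup.center H, ∑ b ∈ bset p, F ξ c b := by
    calc ∑ c : Subgroup.center H, ∑ b ∈ bset p, ∑ ξ : Cfsg.IrrCharacter H, F ξ c b
        = ∑ c : Subgroup.center H, ∑ ξ : Cfsg.IrrCharacter H, ∑ b ∈ bset p, F ξ c b :=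
          Finset.sum_congr rfl (fun c _ => Finset.sum_comm)
      _ = ∑ ξ : Cfsg.IrrCharacter H, ∑ c : Subgroup.center H, ∑ b ∈ bset p, F ξ c b :=
          Finset.sum_comm
  have hterm : ∀ ξ : Cfsg.IrrCharacter H,
      ∑ c : Subgroup.center H, ∑ b ∈ bset p, F ξ c b
      = if ξ ∈ S then (Nat.card (Subgroup.center H) : ℂ) * term p x g w (ξ : H → ℂ) else 0 := by
    intro ξ
    have h1 : ∑ c : Subgroup.center H, ∑ b ∈ bset p, F ξ c b
        = ((ξ : H → ℂ) x * (∑ b ∈ bset p, w b * (ξ : H → ℂ) (x ^ b)) / (ξ : H → ℂ) 1)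
          * ∑ c : Subgroup.center H, μ c * conj ((ξ : H → ℂ) (g * (c : H))) := by
      rw [Finset.mul_sum]
      apply Finset.sum_congr rfl
      intro c _
      rw [Finset.mul_sum, Finset.sum_div, Finset.sum_mul]
      apply Finset.sum_congr rfl
      intro b _
      simp only [hF]
      ring
    rw [h1]
    obtain ⟨hz1, hz2⟩ := S4504BZF.s4504b_zf ξ μ hmul hnorm g
    by_cases hξ : ξ ∈ S
    · rw [if_pos hξ, hz1 ((hS ξ).1 hξ)]
      unfold term
      ring
    · rw [if_neg hξ, hz2 (fun hcc' => hξ ((hS ξ).2 hcc')), mul_zero]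
  calc ∑ c : Subgroup.center H, ∑ b ∈ bset p, μ c * w b *
        (Nat.card {gh : H × H // gh.1 * x * gh.1⁻¹ * (gh.2 * x ^ b * gh.2⁻¹) = g * (c : H)} : ℂ)
      = ∑ c : Subgroup.center H, ∑ b ∈ bset p,
          (Nat.card H : ℂ) * ∑ ξ : Cfsg.IrrCharacter H, F ξ c b :=
        Finset.sum_congr rfl (fun c _ => Finset.sum_congr rfl (fun b _ => step1 c b))
    _ = (Nat.card H : ℂ) * ∑ c : Subgroup.center H, ∑ b ∈ bset p,
          ∑ ξ : Cfsg.IrrCharacter H, F ξ c b := by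
        rw [Finset.mul_sum]
        apply Finset.sum_congr rfl
        intro c _
        rw [Finset.mul_sum]
    _ = (Nat.card H : ℂ) * ∑ ξ : Cfsg.IrrCharacter H,
          (if ξ ∈ S then (Nat.card (Subgroup.center H) : ℂ) * term p x g w (ξ : H → ℂ)
            else 0) := by
        rw [step2]
        congr 1
        exact Finset.sum_congr rfl (fun ξ _ => hterm ξ)
    _ = (Nat.card H : ℂ) * (Nat.card (Subgroup.center H) : ℂ)
          * ∑ ξ ∈ S, term p x g w (ξ : H → ℂ) := by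
        rw [Finset.sum_ite_mem, Finset.univ_inter, ← Finset.mul_sum, mul_assoc]

end Cfsg.Agent.Helper9.S4504BFOUR
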