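import Mathlib
import Cfsg.Agent.Helper1.Tools2
import Cfsg.Prelude.Def_SolvableStructure

set_option autoImplicit false

namespace Cfsg.Agent.Helper9

open Subgroup
open scoped Pointwise

universe u

section basics

variable {G : Type*} [Group G]

theorem conj_smul_eq_self_of_mem {H : Subgroup G} {g : G} (hg : g ∈ H) :
    MulAut.conj g • H = H :=
  Cfsg.Agent.Helper1.mem_normalizer_iff_conj_smul_eq.mp (Subgroup.le_normalizer hg)

theorem conj_smul_eq_self_of_mem_normalizer {H : Subgroup G} {g : G}
    (hg : g ∈ Subgroup.normalizer (H : Set G)) : MulAut.conj g • H = H :=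
  Cfsg.Agent.Helper1.mem_normalizer_iff_conj_smul_eq.mp hg

theorem index_conj_smul [Finite G] (g : G) (H : Subgroup G) :
    (MulAut.conj g • H).index = H.index := by
  have h1 := (MulAut.conj g • H).card_mul_index
  have h2 := H.card_mul_index
  rw [Cfsg.Agent.Helper1.card_conj_smul] at h1
  exact Nat.eq_of_mul_eq_mul_left Nat.card_pos (h1.trans h2.symm)

theorem relIndex_mul_card_inf (H K : Subgroup G) :
    H.relIndex K * Nat.card (H ⊓ K : Subgroup G) = Nat.card K := by
  have h1 := (H.subgroupOf K).index_mul_card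
  have h2 : Nat.card (H.subgroupOf K) = Nat.card (H ⊓ K : Subgroup G) := by
    rw [← Subgroup.inf_subgroupOf_right]
    exact Nat.card_congr (Subgroup.subgroupOfEquivOfLe inf_le_right).toEquiv
  rw [h2] at h1
  exact h1

/-- Second isomorphism theorem for indices. -/
theorem relIndex_eq_relIndex_sup_of_normal [Finite G] (K N : Subgroup G) [N.Normal] :
    K.relIndex N = K.relIndex (N ⊔ K) := by
  have h1 := relIndex_mul_card_inf K N
  have h2 := relIndex_mul_card_inf N (N ⊔ K)
  have h3 := relIndex_mul_card_inf N K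
  have h4 := relIndex_mul_card_inf K (N ⊔ K)
  rw [inf_of_le_left (le_sup_left : N ≤ N ⊔ K), Subgroup.relIndex_sup_left] at h2
  rw [inf_of_le_left (le_sup_right : K ≤ N ⊔ K)] at h4
  rw [inf_comm] at h3
  have hpos1 : 0 < Nat.card (K ⊓ N : Subgroup G) := Nat.card_pos
  have hpos2 : 0 < N.relIndex K := by
    rcases Nat.eq_zero_or_pos (N.relIndex K) with h | h
    · rw [h, zero_mul] at h3
      exact absurd h3.symm (Nat.card_pos (α := K)).ne'
    · exact h
  have key : K.relIndex N * (N.relIndex K * Nat.card (K ⊓ N : Subgroup G)) =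
      K.relIndex (N ⊔ K) * (N.relIndex K * Nat.card (K ⊓ N : Subgroup G)) := by
    calc K.relIndex N * (N.relIndex K * Nat.card (K ⊓ N : Subgroup G))
        = N.relIndex K * (K.relIndex N * Nat.card (K ⊓ N : Subgroup G)) := by ring
      _ = N.relIndex K * Nat.card N := by rw [h1]
      _ = Nat.card (N ⊔ K : Subgroup G) := h2
      _ = K.relIndex (N ⊔ K) * Nat.card K := h4.symm
      _ = K.relIndex (N ⊔ K) * (N.relIndex K * Nat.card (K ⊓ N : Subgroup G)) := by rw [h3]
  exact Nat.eq_of_mul_eq_mul_right (Nat.mul_pos hpos2 hpos1) key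

theorem relIndex_dvd_index_of_normal_right [Finite G] (K N : Subgroup G) [N.Normal] :
    K.relIndex N ∣ K.index := by
  rw [relIndex_eq_relIndex_sup_of_normal]
  exact Subgroup.relIndex_dvd_index_of_le le_sup_right

theorem relIndex_pos' [Finite G] (A N : Subgroup G) : 0 < A.relIndex N :=
  Nat.pos_of_dvd_of_pos (Subgroup.relIndex_dvd_card A N) Nat.card_pos

theorem relIndex_inf_of_coprime [Finite G] (N A B : Subgroup G)
    (hcop : (A.relIndex N).Coprime (B.relIndex N)) :
    (A ⊓ B).relIndex N = A.relIndex N * B.relIndex N := by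
  apply le_antisymm Subgroup.relIndex_inf_le
  apply Nat.le_of_dvd
  · exact relIndex_pos' _ _
  · exact Nat.Coprime.mul_dvd_of_dvd_of_dvd hcop
      (Subgroup.relIndex_dvd_of_le_left N inf_le_left)
      (Subgroup.relIndex_dvd_of_le_left N inf_le_right)

/-- If `A, B ≤ N` have coprime indices in `N` then `N = A * B`. -/
theorem exists_mul_of_coprime_relIndex [Finite G] (N A B : Subgroup G) (hA : A ≤ N) (hB : B ≤ N)
    (hcop : (A.relIndex N).Coprime (B.relIndex N)) (x : G) (hx : x ∈ N) :
    ∃ a ∈ A, ∃ b ∈ B, x = a * b := by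
  -- B.relIndex A = B.relIndex N
  have h1 : (A ⊓ B).relIndex A * A.relIndex N = (A ⊓ B).relIndex N :=
    Subgroup.relIndex_mul_relIndex _ _ _ inf_le_left hA
  rw [Subgroup.inf_relIndex_left, relIndex_inf_of_coprime N A B hcop, mul_comm] at h1
  have h2 : B.relIndex A = B.relIndex N :=
    Nat.eq_of_mul_eq_mul_left (relIndex_pos' A N) h1
  have hbij : Function.Bijective (Subgroup.quotientSubgroupOfEmbeddingOfLE B hA) := by
    rw [Nat.bijective_iff_injective_and_card]
    exact ⟨(Subgroup.quotientSubgroupOfEmbeddingOfLE B hA).injective, h2⟩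
  obtain ⟨q, hq⟩ := hbij.2 (QuotientGroup.mk (⟨x, hx⟩ : N))
  induction q using QuotientGroup.induction_on with
  | H a =>
    rw [Subgroup.quotientSubgroupOfEmbeddingOfLE_apply_mk, QuotientGroup.eq,
      Subgroup.mem_subgroupOf] at hq
    refine ⟨a, a.2, (a : G)⁻¹ * x, ?_, by group⟩
    simpa using hq

end basics

section system

variable {G : Type u} [Group G] [Finite G]

theorem cs_card_mul {K : Nat.Primes → Subgroup G} (hK : IsComplementSystem K)
    (p : Nat.Primes) :
    Nat.card (K p) * (p : ℕ) ^ (Nat.card G).factorization p = Nat.card G := by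
  rw [← hK p]; exact (K p).card_mul_index

theorem cs_card_coprime {K : Nat.Primes → Subgroup G}
    (hK : IsComplementSystem K) (p : Nat.Primes) : (Nat.card (K p)).Coprime p := by
  rw [Nat.coprime_comm, Nat.Prime.coprime_iff_not_dvd p.2]
  intro hdvd
  have h := cs_card_mul hK p
  have h' : (p : ℕ) ^ ((Nat.card G).factorization p + 1) ∣ Nat.card G := by
    rw [pow_succ, mul_comm]
    calc (p : ℕ) * (p : ℕ) ^ (Nat.card G).factorization p
        ∣ Nat.card (K p) * (p : ℕ) ^ (Nat.card G).factorization p := Nat.mul_dvd_mul_right hdvd _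
      _ = Nat.card G := h
  exact Nat.pow_succ_factorization_not_dvd (Nat.card_pos (α := G)).ne' p.2 h'

theorem cs_card_eq {K L : Nat.Primes → Subgroup G} (hK : IsComplementSystem K)
    (hL : IsComplementSystem L) (p : Nat.Primes) : Nat.card (K p) = Nat.card (L p) := by
  have h1 := cs_card_mul hK p
  have h2 := cs_card_mul hL p
  exact Nat.eq_of_mul_eq_mul_right (pow_pos p.2.pos _) (h1.trans h2.symm)

theorem cs_conj {K : Nat.Primes → Subgroup G} (hK : IsComplementSystem K)
    (g : G) : IsComplementSystem (fun p => MulAut.conj g • K p) := by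
  intro p
  rw [index_conj_smul]; exact hK p

/-- Step (a): Hall `p'`-subgroups with the same join with `N` are conjugate under `N`. -/
theorem cs_exists_conj_of_sup_eq [Group.IsSolvable G] (N : Subgroup G) [N.Normal]
    {K L : Nat.Primes → Subgroup G} (hK : IsComplementSystem K) (hL : IsComplementSystem L)
    (p : Nat.Primes) (hsup : K p ⊔ N = L p ⊔ N) : ∃ y ∈ N, MulAut.conj y • K p = L p := by
  have hKM : K p ≤ K p ⊔ N := le_sup_left
  have hLM : L p ≤ K p ⊔ N := hsup ▸ le_sup_left
  have hcardK : Nat.card ((K p).subgroupOf (K p ⊔ N)) = Nat.card (K p) :=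
    Cfsg.Agent.Helper1.card_subgroupOf_of_le hKM
  have hcardL : Nat.card ((L p).subgroupOf (K p ⊔ N)) = Nat.card (K p) := by
    rw [Cfsg.Agent.Helper1.card_subgroupOf_of_le hLM, cs_card_eq hK hL p]
  have hcard : Nat.card (K p ⊔ N : Subgroup G) = Nat.card (K p) * (K p).relIndex (K p ⊔ N) := by
    have := ((K p).subgroupOf (K p ⊔ N)).card_mul_index
    rw [hcardK] at this
    exact this.symm
  have hcop : (Nat.card (K p)).Coprime ((K p).relIndex (K p ⊔ N)) := by
    have h1 : (K p).relIndex (K p ⊔ N) ∣ (p : ℕ) ^ (Nat.card G).factorization p :=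
      hK p ▸ Subgroup.relIndex_dvd_index_of_le hKM
    exact Nat.Coprime.coprime_dvd_right h1 (Nat.Coprime.pow_right _ (cs_card_coprime hK p))
  obtain ⟨l, hl⟩ := Cfsg.Agent.Helper1.hall_conj_aux _ (K p ⊔ N : Subgroup G) _ _ rfl hcard hcop
    _ _ hcardK hcardL
  have hconj := Cfsg.Agent.Helper1.conj_of_subgroupOf_conj hKM hLM l hl
  have hlmem : (l : G) ∈ N ⊔ K p := by rw [sup_comm]; exact l.2
  rw [← SetLike.mem_coe, Subgroup.normal_mul] at hlmem
  obtain ⟨y, hy, k, hk, hyk⟩ := hlmem
  refine ⟨y, hy, ?_⟩
  rw [← hconj, ← hyk]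
  change MulAut.conj y • K p = MulAut.conj (y * k) • K p
  rw [map_mul, mul_smul, conj_smul_eq_self_of_mem hk]

theorem cs_relIndex_normalizer_dvd (N : Subgroup G) [N.Normal]
    {L : Nat.Primes → Subgroup G} (hL : IsComplementSystem L) (q : Nat.Primes) :
    (N ⊓ Subgroup.normalizer (L q : Set G)).relIndex N ∣
      (q : ℕ) ^ (Nat.card G).factorization q := by
  rw [Subgroup.inf_relIndex_left, ← hL q]
  exact (Subgroup.relIndex_dvd_of_le_left N Subgroup.le_normalizer).trans
    (relIndex_dvd_index_of_normal_right (L q) N)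

theorem cs_not_dvd_relIndex_inf (N : Subgroup G) [N.Normal]
    {L : Nat.Primes → Subgroup G} (hL : IsComplementSystem L) (T : Finset Nat.Primes) :
    ∀ r : ℕ, r.Prime → (∀ p ∈ T, (p : ℕ) ≠ r) →
      ¬ r ∣ (N ⊓ T.inf (fun p => Subgroup.normalizer (L p : Set G))).relIndex N := by
  induction T using Finset.induction_on with
  | empty =>
    intro r hr _
    rw [Finset.inf_empty, inf_top_eq, Subgroup.relIndex_self]
    exact hr.one_lt.ne' ∘ Nat.dvd_one.mp
  | insert q T hqT ih =>
    intro r hr hrT
    have hrq : (q : ℕ) ≠ r := hrT q (Finset.mem_insert_self q T)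
    have hrT' : ∀ p ∈ T, (p : ℕ) ≠ r := fun p hp => hrT p (Finset.mem_insert_of_mem hp)
    have heq : N ⊓ (insert q T).inf (fun p => Subgroup.normalizer (L p : Set G)) =
        (N ⊓ Subgroup.normalizer (L q : Set G)) ⊓
          (N ⊓ T.inf (fun p => Subgroup.normalizer (L p : Set G))) := by
      rw [Finset.inf_insert, ← inf_inf_distrib_left]
    have hq1 := cs_relIndex_normalizer_dvd N hL q
    have hq2 := ih q q.2 (fun p hp h => hqT (Subtype.ext h ▸ hp))
    have hcop : ((N ⊓ Subgroup.normalizer (L q : Set G)).relIndex N).Coprime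
        ((N ⊓ T.inf (fun p => Subgroup.normalizer (L p : Set G))).relIndex N) :=
      Nat.Coprime.coprime_dvd_left hq1
        (Nat.Coprime.pow_left _ ((Nat.Prime.coprime_iff_not_dvd q.2).mpr hq2))
    rw [heq, relIndex_inf_of_coprime N _ _ hcop, Nat.Prime.dvd_mul hr]
    rintro (h | h)
    · have := hr.dvd_of_dvd_pow (h.trans hq1)
      exact hrq ((Nat.prime_dvd_prime_iff_eq hr q.2).mp this).symm
    · exact ih r hr hrT' h

theorem cs_exists_conj_finset [Group.IsSolvable G] (N : Subgroup G) [N.Normal]
    {K L : Nat.Primes → Subgroup G} (hK : IsComplementSystem K) (hL : IsComplementSystem L)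
    (hsup : ∀ p, K p ⊔ N = L p ⊔ N) (T : Finset Nat.Primes) :
    ∃ n ∈ N, ∀ p ∈ T, MulAut.conj n • K p = L p := by
  induction T using Finset.induction_on with
  | empty => exact ⟨1, N.one_mem, fun p hp => absurd hp (Finset.notMem_empty p)⟩
  | insert q T hqT ih =>
    obtain ⟨n, hn, hnT⟩ := ih
    obtain ⟨y₀, hy₀, hy₀q⟩ := cs_exists_conj_of_sup_eq N hK hL q (hsup q)
    have hq1 := cs_relIndex_normalizer_dvd N hL q
    have hq2 := cs_not_dvd_relIndex_inf N hL T q q.2 (fun p hp h => hqT (Subtype.ext h ▸ hp))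
    have hcop : ((N ⊓ Subgroup.normalizer (L q : Set G)).relIndex N).Coprime
        ((N ⊓ T.inf (fun p => Subgroup.normalizer (L p : Set G))).relIndex N) :=
      Nat.Coprime.coprime_dvd_left hq1
        (Nat.Coprime.pow_left _ ((Nat.Prime.coprime_iff_not_dvd q.2).mpr hq2))
    obtain ⟨a, ha, d, hd, had⟩ := exists_mul_of_coprime_relIndex N _ _ inf_le_left inf_le_left
      hcop (y₀ * n⁻¹) (N.mul_mem hy₀ (N.inv_mem hn))
    refine ⟨d * n, N.mul_mem hd.1 hn, ?_⟩
    intro p hp
    rw [map_mul, mul_smul]
    rcases Finset.mem_insert.mp hp with rfl | hpT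
    · -- conj d • conj n • K p = L p
      have h1 : MulAut.conj (y₀ * n⁻¹) • MulAut.conj n • K p = L p := by
        rw [← mul_smul, ← map_mul, inv_mul_cancel_right]; exact hy₀q
      rw [had, map_mul, mul_smul] at h1
      have h2 : MulAut.conj a⁻¹ • L p = L p :=
        conj_smul_eq_self_of_mem_normalizer (Subgroup.inv_mem _ ha.2)
      have h3 : MulAut.conj a⁻¹ • (MulAut.conj a • MulAut.conj d • MulAut.conj n • K p) =
          MulAut.conj a⁻¹ • L p := by rw [h1]
      rw [h2, map_inv, inv_smul_smul] at h3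
      exact h3
    · rw [hnT p hpT]
      apply conj_smul_eq_self_of_mem_normalizer
      have : T.inf (fun p => Subgroup.normalizer (L p : Set G)) ≤
          Subgroup.normalizer (L p : Set G) := Finset.inf_le hpT
      exact this hd.2

/-- Lemma C: two complement systems with the same image modulo `N` are conjugate under `N`. -/
theorem cs_exists_conj_of_forall_sup_eq [Group.IsSolvable G] (N : Subgroup G)
    [N.Normal] {K L : Nat.Primes → Subgroup G} (hK : IsComplementSystem K)
    (hL : IsComplementSystem L) (hsup : ∀ p, K p ⊔ N = L p ⊔ N) :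
    ∃ n ∈ N, ∀ p, MulAut.conj n • K p = L p := by
  obtain ⟨n, hn, hnT⟩ := cs_exists_conj_finset N hK hL hsup
    (Finset.subtype Nat.Prime (Nat.card G).primeFactors)
  refine ⟨n, hn, fun p => ?_⟩
  by_cases hp : (p : ℕ) ∣ Nat.card G
  · exact hnT p (Finset.mem_subtype.mpr
      (Nat.mem_primeFactors.mpr ⟨p.2, hp, (Nat.card_pos (α := G)).ne'⟩))
  · have h0 : (Nat.card G).factorization p = 0 := Nat.factorization_eq_zero_of_not_dvd hp
    have hKt : K p = ⊤ := by
      rw [← Subgroup.index_eq_one, hK p, h0, pow_zero]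
    have hLt : L p = ⊤ := by
      rw [← Subgroup.index_eq_one, hL p, h0, pow_zero]
    rw [hKt, hLt]
    exact Subgroup.Normal.conj_smul_eq_self n ⊤

/-- Any two Hall complement systems of a finite solvable group are conjugate. -/
theorem cs_exists_conj [Group.IsSolvable G]
    {K L : Nat.Primes → Subgroup G} (hK : IsComplementSystem K) (hL : IsComplementSystem L) :
    ∃ g : G, ∀ p : Nat.Primes, MulAut.conj g • K p = L p := by
  obtain ⟨n, -, hn⟩ := cs_exists_conj_of_forall_sup_eq ⊤ hK hL
    (fun p => by rw [sup_top_eq, sup_top_eq])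
  exact ⟨n, hn⟩

end system

theorem mem_systemNormalizer {G : Type u} [Group G] {K : Nat.Primes → Subgroup G} {g : G} :
    g ∈ systemNormalizer K ↔ ∀ p : Nat.Primes, g ∈ Subgroup.normalizer (K p : Set G) := by
  unfold systemNormalizer
  exact Subgroup.mem_iInf

section quotient

variable {G : Type u} [Group G] [Finite G]

/-- The image of a complement system in a quotient is a complement system. -/
theorem cs_map {K : Nat.Primes → Subgroup G} (hK : IsComplementSystem K) (N : Subgroup G)
    [N.Normal] : IsComplementSystem (fun p => (K p).map (QuotientGroup.mk' N)) := by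
  intro p
  have hidx : ((K p).map (QuotientGroup.mk' N)).index = (K p ⊔ N).index := by
    rw [Subgroup.index_map, QuotientGroup.ker_mk',
      MonoidHom.range_eq_top.mpr (QuotientGroup.mk'_surjective N), Subgroup.index_top, mul_one]
  have hdvd : (K p ⊔ N).index ∣ (p : ℕ) ^ (Nat.card G).factorization p :=
    hK p ▸ Subgroup.index_dvd_of_le le_sup_left
  obtain ⟨b, -, hb'⟩ := (Nat.dvd_prime_pow p.2).mp hdvd
  have hcard := ((K p).map (QuotientGroup.mk' N)).card_mul_index
  rw [hidx, hb'] at hcard
  have hcop : ¬ (p : ℕ) ∣ Nat.card ((K p).map (QuotientGroup.mk' N)) := by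
    intro h
    have h2 : (p : ℕ) ∣ Nat.card (K p) := h.trans (Subgroup.card_map_dvd _ _)
    exact (Nat.Prime.coprime_iff_not_dvd p.2).mp (cs_card_coprime hK p).symm h2
  change ((K p).map (QuotientGroup.mk' N)).index = (p : ℕ) ^ (Nat.card (G ⧸ N)).factorization p
  rw [hidx, hb', ← hcard, Nat.factorization_mul (Nat.card_pos).ne' (pow_pos p.2.pos b).ne',
    Finsupp.add_apply, Nat.factorization_eq_zero_of_not_dvd hcop, zero_add,
    Nat.Prime.factorization_pow p.2, Finsupp.single_eq_same]

/-- The system normalizer of the image system is the image of the system normalizer. -/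
theorem cs_systemNormalizer_map [Group.IsSolvable G] {K : Nat.Primes → Subgroup G}
    (hK : IsComplementSystem K) (N : Subgroup G) [N.Normal] :
    systemNormalizer (fun p => (K p).map (QuotientGroup.mk' N)) =
      (systemNormalizer K).map (QuotientGroup.mk' N) := by
  apply le_antisymm
  · intro gbar hg
    obtain ⟨g, rfl⟩ := QuotientGroup.mk'_surjective N gbar
    rw [mem_systemNormalizer] at hg
    have hsup : ∀ p, MulAut.conj g • K p ⊔ N = K p ⊔ N := by
      intro p
      rw [← Cfsg.Agent.Helper1.comap_map_mk', ← Cfsg.Agent.Helper1.comap_map_mk',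
        Cfsg.Agent.Helper1.map_conj_smul, conj_smul_eq_self_of_mem_normalizer (hg p)]
    obtain ⟨n, hn, hnp⟩ := cs_exists_conj_of_forall_sup_eq N (cs_conj hK g) hK hsup
    refine ⟨n * g, ?_, ?_⟩
    · rw [SetLike.mem_coe, mem_systemNormalizer]
      intro p
      rw [Cfsg.Agent.Helper1.mem_normalizer_iff_conj_smul_eq, map_mul, mul_smul]
      exact hnp p
    · rw [map_mul]
      have : QuotientGroup.mk' N n = 1 := by
        rw [← MonoidHom.mem_ker, QuotientGroup.ker_mk']; exact hn
      rw [this, one_mul]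
  · rw [Subgroup.map_le_iff_le_comap]
    intro d hd
    rw [Subgroup.mem_comap, mem_systemNormalizer]
    intro p
    exact Subgroup.le_normalizer_map _
      (Subgroup.mem_map_of_mem _ ((mem_systemNormalizer.mp hd) p))

/-- The normal closure of a system normalizer is the whole group. -/
theorem cs_normalClosure_systemNormalizer [Group.IsSolvable G] {K : Nat.Primes → Subgroup G}
    (hK : IsComplementSystem K) :
    Subgroup.normalClosure ((systemNormalizer K : Subgroup G) : Set G) = ⊤ := by
  have hK' := cs_map hK (Subgroup.normalClosure ((systemNormalizer K : Subgroup G) : Set G))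
  have hD' : systemNormalizer (fun p => (K p).map (QuotientGroup.mk'
      (Subgroup.normalClosure ((systemNormalizer K : Subgroup G) : Set G)))) = ⊥ := by
    rw [cs_systemNormalizer_map hK, eq_bot_iff]
    calc (systemNormalizer K).map (QuotientGroup.mk' _)
        ≤ (Subgroup.normalClosure ((systemNormalizer K : Subgroup G) : Set G)).map
            (QuotientGroup.mk' _) := Subgroup.map_mono Subgroup.le_normalClosure
      _ = ⊥ := QuotientGroup.map_mk'_self _
  by_contra hne
  have hnt : Nontrivial
      (G ⧸ Subgroup.normalClosure ((systemNormalizer K : Subgroup G) : Set G)) := by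
    by_contra h
    rw [not_nontrivial_iff_subsingleton] at h
    exact hne (QuotientGroup.subgroup_eq_top_of_subsingleton _ h)
  have hlt := Group.IsSolvable.commutator_lt_top_of_nontrivial
    (G ⧸ Subgroup.normalClosure ((systemNormalizer K : Subgroup G) : Set G))
  have hD'' := cs_systemNormalizer_map hK' (commutator
    (G ⧸ Subgroup.normalClosure ((systemNormalizer K : Subgroup G) : Set G)))
  rw [hD', Subgroup.map_bot] at hD''
  have hc : IsMulCommutative
      ((G ⧸ Subgroup.normalClosure ((systemNormalizer K : Subgroup G) : Set G)) ⧸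
        commutator (G ⧸ Subgroup.normalClosure ((systemNormalizer K : Subgroup G) : Set G))) :=
    Subgroup.Normal.quotient_commutative_iff_commutator_le.mpr le_rfl
  have hx : ∀ x : G ⧸ Subgroup.normalClosure ((systemNormalizer K : Subgroup G) : Set G),
      x ∈ commutator (G ⧸ Subgroup.normalClosure ((systemNormalizer K : Subgroup G) : Set G)) := by
    intro x
    have h1 : QuotientGroup.mk' (commutator
        (G ⧸ Subgroup.normalClosure ((systemNormalizer K : Subgroup G) : Set G))) x ∈
        systemNormalizer (fun p => ((K p).map (QuotientGroup.mk'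
          (Subgroup.normalClosure ((systemNormalizer K : Subgroup G) : Set G)))).map
          (QuotientGroup.mk' (commutator
            (G ⧸ Subgroup.normalClosure ((systemNormalizer K : Subgroup G) : Set G))))) := by
      rw [mem_systemNormalizer]
      intro p
      rw [Subgroup.mem_normalizer_iff]
      intro h
      have : QuotientGroup.mk' _ x * h * (QuotientGroup.mk' _ x)⁻¹ = h := by
        rw [hc.is_comm.comm (QuotientGroup.mk' _ x) h, mul_inv_cancel_right]
      rw [this]
    rw [hD'', Subgroup.mem_bot, ← MonoidHom.mem_ker, QuotientGroup.ker_mk'] at h1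
    exact h1
  exact hlt.ne ((Subgroup.eq_top_iff' _).mpr hx)

/-- An element of the normalizer of `K q` whose order is a power of `p ≠ q` lies in `K q`. -/
theorem cs_mem_of_pow_eq_one {K : Nat.Primes → Subgroup G} (hK : IsComplementSystem K)
    (q : Nat.Primes) (p : ℕ) (hp : p.Prime) (hpq : p ≠ q) (x : G)
    (hx : x ∈ Subgroup.normalizer (K q : Set G)) (k : ℕ) (hxk : x ^ p ^ k = 1) : x ∈ K q := by
  have hcard : Nat.card (Subgroup.normalizer (K q : Set G) ⧸
      (K q).subgroupOf (Subgroup.normalizer (K q : Set G))) ∣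
      (q : ℕ) ^ (Nat.card G).factorization q := by
    rw [← Subgroup.index_eq_card, ← hK q]
    exact Subgroup.relIndex_dvd_index_of_le Subgroup.le_normalizer
  have h1 : (QuotientGroup.mk' ((K q).subgroupOf (Subgroup.normalizer (K q : Set G)))
      ⟨x, hx⟩) ^ (p ^ k) = 1 := by
    rw [← map_pow]
    have : (⟨x, hx⟩ : Subgroup.normalizer (K q : Set G)) ^ p ^ k = 1 := Subtype.ext hxk
    rw [this, map_one]
  have h2 : (QuotientGroup.mk' ((K q).subgroupOf (Subgroup.normalizer (K q : Set G)))
      ⟨x, hx⟩) ^ ((q : ℕ) ^ (Nat.card G).factorization q) = 1 := by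
    obtain ⟨c, hc⟩ := hcard
    rw [hc, pow_mul, pow_card_eq_one', one_pow]
  have hcop : Nat.Coprime (p ^ k) ((q : ℕ) ^ (Nat.card G).factorization q) :=
    Nat.Coprime.pow _ _ ((Nat.coprime_primes hp q.2).mpr hpq)
  have h3 := pow_gcd_eq_one.mpr ⟨h1, h2⟩
  rw [hcop.gcd_eq_one, pow_one] at h3
  have h4 := (QuotientGroup.eq_one_iff _).mp h3
  exact Subgroup.mem_subgroupOf.mp h4

/-- The system normalizer of a complement system is nilpotent. -/
theorem cs_systemNormalizer_nilpotent {K : Nat.Primes → Subgroup G}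
    (hK : IsComplementSystem K) : Group.IsNilpotent (systemNormalizer K) := by
  apply ((Group.isNilpotent_of_finite_tfae (G := systemNormalizer K)).out 3 0).mp
  intro p hp P
  have hDle : ∀ q : Nat.Primes, systemNormalizer K ≤ Subgroup.normalizer (K q : Set G) :=
    fun q x hx => mem_systemNormalizer.mp hx q
  have hMn : (⨅ (q : Nat.Primes) (_ : (q : ℕ) ≠ p),
      (K q).subgroupOf (systemNormalizer K)).Normal := by
    apply Subgroup.normal_iInf_normal
    intro q
    apply Subgroup.normal_iInf_normal
    intro _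
    exact Subgroup.normal_subgroupOf_of_le_normalizer (hDle q)
  have hMp : IsPGroup p (⨅ (q : Nat.Primes) (_ : (q : ℕ) ≠ p),
      (K q).subgroupOf (systemNormalizer K) : Subgroup (systemNormalizer K)) := by
    rw [IsPGroup.iff_orderOf]
    rintro ⟨x, hx⟩
    have hx' : ∀ q : Nat.Primes, (q : ℕ) ≠ p → (x : G) ∈ K q := by
      intro q hq
      have := Subgroup.mem_iInf.mp (Subgroup.mem_iInf.mp hx q) hq
      exact Subgroup.mem_subgroupOf.mp this
    have ho : orderOf (⟨x, hx⟩ : (⨅ (q : Nat.Primes) (_ : (q : ℕ) ≠ p),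
        (K q).subgroupOf (systemNormalizer K) : Subgroup (systemNormalizer K))) =
        orderOf (x : G) := by
      rw [← Subgroup.orderOf_coe, ← Subgroup.orderOf_coe]
    rw [ho]
    refine ⟨_, Nat.eq_prime_pow_of_unique_prime_dvd (orderOf_pos (x : G)).ne' ?_⟩
    intro r hr hrd
    by_contra hrp
    have hxr : (x : G) ∈ K ⟨r, hr⟩ := hx' ⟨r, hr⟩ hrp
    have h1 : orderOf (x : G) ∣ Nat.card (K ⟨r, hr⟩) := by
      have := orderOf_dvd_natCard (⟨(x : G), hxr⟩ : K ⟨r, hr⟩)
      rwa [← Subgroup.orderOf_coe] at this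
    exact (Nat.Prime.coprime_iff_not_dvd hr).mp (cs_card_coprime hK ⟨r, hr⟩).symm (hrd.trans h1)
  have hPM : (P : Subgroup (systemNormalizer K)) ≤ ⨅ (q : Nat.Primes) (_ : (q : ℕ) ≠ p),
      (K q).subgroupOf (systemNormalizer K) := by
    intro x hx
    rw [Subgroup.mem_iInf]
    intro q
    rw [Subgroup.mem_iInf]
    intro hq
    rw [Subgroup.mem_subgroupOf]
    obtain ⟨k, hk⟩ := P.isPGroup' ⟨x, hx⟩
    have hk' : (x : G) ^ p ^ k = 1 := by
      have := congrArg Subtype.val (congrArg Subtype.val hk)
      simpa using this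
    exact cs_mem_of_pow_eq_one hK q p hp.out (fun h => hq h.symm) x (hDle q x.2) k hk'
  have := P.3 hMp hPM
  rw [← this]; exact hMn

end quotient

end Cfsg.Agent.Helper9
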