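import Mathlib
import Cfsg.Agent.Helper9.BRDefs
import Cfsg.Agent.Helper81.CharBasic

/-!
# Piece T11A of CALL S4429 (helper8): arithmetic of the principal 11-block in order 7920 (helper9)
-/

set_option autoImplicit false
set_option linter.style.haveILetI false
set_option maxHeartbeats 1000000
open Cfsg
open scoped ComplexConjugate

universe u

namespace Cfsg.Agent.Helper9

/-- The divisors of `7920` that are at most `88`. -/
theorem d7920_divisors_le (d : ℕ) (hd : d ∣ 7920) (hle : d ≤ 88) :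
    d = 1 ∨ d = 2 ∨ d = 3 ∨ d = 4 ∨ d = 5 ∨ d = 6 ∨ d = 8 ∨ d = 9 ∨ d = 10 ∨ d = 11 ∨
    d = 12 ∨ d = 15 ∨ d = 16 ∨ d = 18 ∨ d = 20 ∨ d = 22 ∨ d = 24 ∨ d = 30 ∨ d = 33 ∨
    d = 36 ∨ d = 40 ∨ d = 44 ∨ d = 45 ∨ d = 48 ∨ d = 55 ∨ d = 60 ∨ d = 66 ∨ d = 72 ∨
    d = 80 ∨ d = 88 := by
  have h0 : 0 < d := Nat.pos_of_dvd_of_pos hd (by norm_num)
  interval_cases d <;> omega

/-- A degree whose square is a term of a sum equal to `7920` is at most `88`. -/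
theorem d7920_degree_le {I : Type*} [Fintype I] (d : I → ℕ) (hsq : ∑ χ, d χ ^ 2 = 7920)
    (χ : I) : d χ ≤ 88 := by
  have h1 : d χ ^ 2 ≤ 7920 := by
    rw [← hsq]
    exact Finset.single_le_sum (f := fun χ : I => d χ ^ 2) (fun _ _ => Nat.zero_le _)
      (Finset.mem_univ χ)
  by_contra hcon
  rw [not_le] at hcon
  have h2 : 89 ^ 2 ≤ d χ ^ 2 := Nat.pow_le_pow_left hcon 2
  omega

/-- PIECE T11A. -/
theorem o7920_eleven_arith {G : Type u} [Group G] [Fintype G] [Fintype (Cfsg.IrrCharacter G)]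
    {M : Ideal Cfsg.AlgInt} (P : Sylow 11 G) (T : Cfsg.Agent.Helper9.BRTab 11 M P 5)
    (hdvd : ∀ χ : Cfsg.IrrCharacter G, Cfsg.charDegree (χ : G → ℂ) ∣ 7920)
    (h2 : ∀ χ : Cfsg.IrrCharacter G, χ ≠ Helper81.trivIrr G →
      2 ≤ Cfsg.charDegree (χ : G → ℂ))
    (hsq : ∑ χ : Cfsg.IrrCharacter G, Cfsg.charDegree (χ : G → ℂ) ^ 2 = 7920) :
    (T.X1.card = 1 ∧ T.X2.card = 3 ∧ T.Y.card = 2 ∧
      (∀ χ ∈ T.X1, Cfsg.charDegree (χ : G → ℂ) = 45) ∧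
      (∀ χ ∈ T.X2, Cfsg.charDegree (χ : G → ℂ) = 10) ∧
      (∀ χ ∈ T.Y, Cfsg.charDegree (χ : G → ℂ) = 16)) ∨
    (T.X1.card = 2 ∧ T.X2.card = 2 ∧ T.Y.card = 2 ∧
      (∀ χ ∈ T.X1, Cfsg.charDegree (χ : G → ℂ) = 12) ∧
      (∀ χ ∈ T.X2, Cfsg.charDegree (χ : G → ℂ) = 10) ∧
      (∀ χ ∈ T.Y, Cfsg.charDegree (χ : G → ℂ) = 5)) := by
  classical
  have hD : ∀ χ : Cfsg.IrrCharacter G, _ := fun χ =>
    d7920_divisors_le _ (hdvd χ)
      (d7920_degree_le (fun χ : Cfsg.IrrCharacter G => Cfsg.charDegree (χ : G → ℂ)) hsq χ)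
  have hX1d : ∀ χ ∈ T.X1, Cfsg.charDegree (χ : G → ℂ) = 12 ∨
      Cfsg.charDegree (χ : G → ℂ) = 45 := by
    intro χ hχ
    have hne : χ ≠ Helper81.trivIrr G := fun e => T.h1X1 (e ▸ hχ)
    have h2' := h2 χ hne
    have hmem := hD χ
    have hmod := (T.hX1 χ hχ).1
    unfold Int.ModEq at hmod
    omega
  have hX2d : ∀ χ ∈ T.X2, Cfsg.charDegree (χ : G → ℂ) = 10 := by
    intro χ hχ
    have hne : χ ≠ Helper81.trivIrr G := fun e => T.h1X2 (e ▸ hχ)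
    have h2' := h2 χ hne
    have hmem := hD χ
    have hmod := (T.hX2 χ hχ).1
    unfold Int.ModEq at hmod
    omega
  have hYd : ∀ θ ∈ T.Y, (T.ε = 1 ∧ (Cfsg.charDegree (θ : G → ℂ) = 5 ∨
      Cfsg.charDegree (θ : G → ℂ) = 16 ∨ Cfsg.charDegree (θ : G → ℂ) = 60)) ∨
      (T.ε = -1 ∧ (Cfsg.charDegree (θ : G → ℂ) = 6 ∨ Cfsg.charDegree (θ : G → ℂ) = 72)) := by
    intro θ hθ
    have hmem := hD θ
    have hmod := T.hYdeg θ hθ
    unfold Int.ModEq at hmod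
    rcases T.hε with he | he
    · left
      refine ⟨he, ?_⟩
      rw [he] at hmod
      push_cast at hmod
      omega
    · right
      refine ⟨he, ?_⟩
      rw [he] at hmod
      push_cast at hmod
      omega
  have hrelZ : ∀ θ ∈ T.Y, T.ε * (Cfsg.charDegree (θ : G → ℂ) : ℤ) =
      1 + ((∑ χ ∈ T.X1, Cfsg.charDegree (χ : G → ℂ) : ℕ) : ℤ)
        - ((∑ χ ∈ T.X2, Cfsg.charDegree (χ : G → ℂ) : ℕ) : ℤ) := by
    intro θ hθ
    have h := T.hrel θ hθ 1 (by rw [orderOf_one]; norm_num)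
    simp only [Helper81.irr_one_eq_charDegree] at h
    have h' : ((T.ε * (Cfsg.charDegree (θ : G → ℂ) : ℤ) : ℤ) : ℂ) =
        ((1 + ((∑ χ ∈ T.X1, Cfsg.charDegree (χ : G → ℂ) : ℕ) : ℤ)
        - ((∑ χ ∈ T.X2, Cfsg.charDegree (χ : G → ℂ) : ℕ) : ℤ) : ℤ) : ℂ) := by
      push_cast; exact h
    exact_mod_cast h'
  -- all characters of `Y` have the same degree
  have hYsame : ∀ θ ∈ T.Y, ∀ θ' ∈ T.Y,
      Cfsg.charDegree (θ : G → ℂ) = Cfsg.charDegree (θ' : G → ℂ) := by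
    intro θ hθ θ' hθ'
    have h := T.hYreg θ hθ θ' hθ' 1 (by rw [orderOf_one]; norm_num)
    simp only [Helper81.irr_one_eq_charDegree] at h
    exact_mod_cast h
  generalize hS1 : ∑ χ ∈ T.X1, Cfsg.charDegree (χ : G → ℂ) = S1 at hrelZ
  generalize hS2 : ∑ χ ∈ T.X2, Cfsg.charDegree (χ : G → ℂ) = S2 at hrelZ
  have hS2v : S2 = 10 * T.X2.card := by
    rw [← hS2, Finset.sum_congr rfl hX2d, Finset.sum_const, smul_eq_mul, mul_comm]
  -- the number of characters of degree 45 in `X1`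
  obtain ⟨a, ha⟩ : ∃ a : ℕ, a = ∑ χ ∈ T.X1,
      (if Cfsg.charDegree (χ : G → ℂ) = 45 then 1 else 0) := ⟨_, rfl⟩
  have hS1v : S1 = 12 * T.X1.card + 33 * a := by
    have e1 : ∑ χ ∈ T.X1, Cfsg.charDegree (χ : G → ℂ) = ∑ χ ∈ T.X1,
        (12 + 33 * (if Cfsg.charDegree (χ : G → ℂ) = 45 then 1 else 0)) := by
      refine Finset.sum_congr rfl (fun χ hχ => ?_)
      rcases hX1d χ hχ with h | h
      · rw [h]; norm_num
      · rw [h]; norm_num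
    rw [← hS1, e1, Finset.sum_add_distrib, Finset.sum_const, smul_eq_mul, ← Finset.mul_sum,
      ← ha]
    ring
  have hale : a ≤ T.X1.card := by
    rw [ha]
    have := Finset.sum_le_card_nsmul T.X1
      (fun χ : Cfsg.IrrCharacter G => if Cfsg.charDegree (χ : G → ℂ) = 45 then 1 else 0) 1
      (fun χ _ => by split_ifs <;> omega)
    simpa using this
  have ha0 : a = 0 → ∀ χ ∈ T.X1, Cfsg.charDegree (χ : G → ℂ) = 12 := by
    intro h0 χ hχ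
    rw [ha] at h0
    have := (Finset.sum_eq_zero_iff.mp h0) χ hχ
    rcases hX1d χ hχ with h | h
    · exact h
    · rw [if_pos h] at this
      omega
  have hapos : a ≠ 0 → ∃ χ ∈ T.X1, Cfsg.charDegree (χ : G → ℂ) = 45 := by
    intro hne
    by_contra hcon
    simp only [not_exists, not_and] at hcon
    apply hne
    rw [ha]
    exact Finset.sum_eq_zero (fun χ hχ => if_neg (hcon χ hχ))
  have hcard := T.hcard
  have hY2 : T.Y.card = 2 := by rw [T.hcardY]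
  obtain ⟨θ1, θ2, hne12, hYeq⟩ := Finset.card_eq_two.mp hY2
  have hθ1 : θ1 ∈ T.Y := by rw [hYeq]; simp
  have hθ2 : θ2 ∈ T.Y := by rw [hYeq]; simp
  have hr := hrelZ θ1 hθ1
  have hm := hYd θ1 hθ1
  -- the three arithmetic solutions
  have hsol : (T.X1.card = 1 ∧ a = 1 ∧ Cfsg.charDegree (θ1 : G → ℂ) = 16) ∨
      (T.X1.card = 2 ∧ a = 0 ∧ Cfsg.charDegree (θ1 : G → ℂ) = 5) ∨
      (T.X1.card = 3 ∧ a = 1 ∧ Cfsg.charDegree (θ1 : G → ℂ) = 60) := by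
    rcases hm with ⟨he, hm⟩ | ⟨he, hm⟩
    · rw [he] at hr
      omega
    · rw [he] at hr
      omega
  rcases hsol with ⟨hk, ha1, ht⟩ | ⟨hk, ha1, ht⟩ | ⟨hk, ha1, ht⟩
  · left
    refine ⟨hk, by omega, hY2, ?_, hX2d, fun θ hθ => (hYsame θ hθ θ1 hθ1).trans ht⟩
    intro χ hχ
    obtain ⟨χ0, hχ0⟩ := hapos (by omega)
    obtain ⟨χ1, hX1eq⟩ := Finset.card_eq_one.mp hk
    rw [hX1eq, Finset.mem_singleton] at hχ hχ0
    rw [hχ, ← hχ0.1]
    exact hχ0.2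
  · right
    exact ⟨hk, by omega, hY2, ha0 ha1, hX2d, fun θ hθ => (hYsame θ hθ θ1 hθ1).trans ht⟩
  · exfalso
    obtain ⟨χ0, hχ0, hχ0d⟩ := hapos (by omega)
    have ht2 : Cfsg.charDegree (θ2 : G → ℂ) = 60 := (hYsame θ2 hθ2 θ1 hθ1).trans ht
    have hχθ1 : χ0 ≠ θ1 := fun e => (Finset.disjoint_left.mp T.hX1Y hχ0) (e ▸ hθ1)
    have hχθ2 : χ0 ≠ θ2 := fun e => (Finset.disjoint_left.mp T.hX1Y hχ0) (e ▸ hθ2)
    have hsub : ∑ χ ∈ ({χ0, θ1, θ2} : Finset (Cfsg.IrrCharacter G)),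
        Cfsg.charDegree (χ : G → ℂ) ^ 2 ≤
        ∑ χ : Cfsg.IrrCharacter G, Cfsg.charDegree (χ : G → ℂ) ^ 2 :=
      Finset.sum_le_sum_of_subset (Finset.subset_univ _)
    rw [hsq, Finset.sum_insert (by simp [hχθ1, hχθ2]), Finset.sum_insert (by simp [hne12]),
      Finset.sum_singleton, hχ0d, ht, ht2] at hsub
    omega

end Cfsg.Agent.Helper9
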