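/-
helper9: CALL BG83 (helper25, row S1383) piece SL2B (double): `bg83_sl2_semiregular`.
Pure group theory (Mathlib only).
-/
import Cfsg.Statements.S1383

set_option autoImplicit false

namespace Cfsg.Agent.Helper9

open Cfsg Subgroup

universe u

/-- A free action of a finite group `A` on a finite type `X`: `|A|` divides `|X|`. -/
theorem sl2b9_card_dvd_of_free {A : Type*} {X : Type*} [Group A] [MulAction A X] [Finite A]
    [Finite X] (hfree : ∀ (a : A) (x : X), a • x = x → a = 1) : Nat.card A ∣ Nat.card X := by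
  classical
  haveI := Fintype.ofFinite (MulAction.orbitRel.Quotient A X)
  rw [Nat.card_congr (MulAction.selfEquivSigmaOrbits A X), Nat.card_sigma]
  refine Finset.dvd_sum fun ω _ => ?_
  have hinj : Function.Injective (fun a : A => a • (Quotient.out ω : X)) := by
    intro a b hab
    have h1 : (b⁻¹ * a) • (Quotient.out ω : X) = Quotient.out ω := by
      have hab' : a • (Quotient.out ω : X) = b • (Quotient.out ω : X) := hab
      rw [mul_smul, hab', inv_smul_smul]
    exact (inv_mul_eq_one.mp (hfree _ _ h1)).symm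
  have h2 : Nat.card (MulAction.orbit A (Quotient.out ω : X)) = Nat.card A :=
    Nat.card_congr (Equiv.ofInjective _ hinj).symm
  rw [h2]

/-- A nonabelian group of order `p ^ 3`: the derived subgroup has order `p` and is central. -/
theorem sl2b9_center {H : Type*} [Group H] [Finite H] (p : ℕ) [Fact p.Prime]
    (hcard : Nat.card H = p ^ 3) (hnab : commutator H ≠ ⊥) :
    Nat.card (commutator H) = p ∧ commutator H ≤ Subgroup.center H := by
  have hp : p.Prime := Fact.out
  have hP : IsPGroup p H := IsPGroup.of_card hcard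
  have hnt : Nontrivial H := by
    rw [← Finite.one_lt_card_iff_nontrivial, hcard]
    exact Nat.one_lt_pow (by norm_num) hp.one_lt
  have hZnt : Nontrivial (Subgroup.center H) := hP.center_nontrivial
  have hZd : Nat.card (Subgroup.center H) ∣ p ^ 3 := hcard ▸ Subgroup.card_subgroup_dvd_card _
  obtain ⟨k, hk3, hk⟩ := (Nat.dvd_prime_pow hp).mp hZd
  have hnc : ¬ ∀ a b : H, a * b = b * a := by
    intro hc
    apply hnab
    rw [commutator_def, Subgroup.commutator_eq_bot_iff_le_centralizer]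
    intro a _
    rw [Subgroup.mem_centralizer_iff]
    intro b _
    exact hc b a
  have hquot : Nat.card H = Nat.card (H ⧸ Subgroup.center H) * Nat.card (Subgroup.center H) :=
    Subgroup.card_eq_card_quotient_mul_card_subgroup _
  have hk1 : k = 1 := by
    interval_cases k
    · exfalso
      have := Finite.one_lt_card_iff_nontrivial.mpr hZnt
      rw [hk] at this
      simp at this
    · rfl
    · exfalso
      have hq : Nat.card (H ⧸ Subgroup.center H) = p := by
        rw [hcard, hk] at hquot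
        have hp2pos : 0 < p ^ 2 := pow_pos hp.pos 2
        have h3 : p * p ^ 2 = Nat.card (H ⧸ Subgroup.center H) * p ^ 2 := by
          rw [← hquot]; ring
        exact (Nat.eq_of_mul_eq_mul_right hp2pos h3).symm
      haveI : IsCyclic (H ⧸ Subgroup.center H) := isCyclic_of_prime_card hq
      exact hnc (commutative_of_cyclic_center_quotient (QuotientGroup.mk' (Subgroup.center H))
        (by rw [QuotientGroup.ker_mk']))
    · exfalso
      have htop : Subgroup.center H = ⊤ := Subgroup.eq_top_of_card_eq _ (by rw [hk, hcard])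
      apply hnc
      intro a b
      have hb : b ∈ Subgroup.center H := htop ▸ Subgroup.mem_top b
      exact Subgroup.mem_center_iff.mp hb a
  subst hk1
  rw [pow_one] at hk
  have hq : Nat.card (H ⧸ Subgroup.center H) = p ^ 2 := by
    rw [hcard, hk] at hquot
    have h3 : p ^ 2 * p = Nat.card (H ⧸ Subgroup.center H) * p := by rw [← hquot]; ring
    exact (Nat.eq_of_mul_eq_mul_right hp.pos h3).symm
  have hqc : ∀ a b : H ⧸ Subgroup.center H, a * b = b * a :=
    (IsPGroup.isMulCommutative_of_card_eq_prime_sq hq).is_comm.comm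
  have hle : commutator H ≤ Subgroup.center H := by
    rw [commutator_def, Subgroup.commutator_le]
    intro a _ b _
    rw [← QuotientGroup.eq_one_iff, commutatorElement_def]
    simp only [QuotientGroup.mk_mul, QuotientGroup.mk_inv]
    rw [hqc (a : H ⧸ Subgroup.center H) b]
    group
  refine ⟨?_, hle⟩
  have hd : Nat.card (commutator H) ∣ p := hk ▸ Subgroup.card_dvd_of_le hle
  rcases (Nat.dvd_prime hp).mp hd with h1 | h1
  · exact absurd (Subgroup.card_eq_one.mp h1) hnab
  · exact h1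

variable {G : Type u} [Group G] [Finite G]

/-- The same for a subgroup `P` of `G`. -/
theorem sl2b9_derived (p : ℕ) [Fact p.Prime] (P : Subgroup G)
    (hcard : Nat.card ↥P = p ^ 3) (hnab : ⁅P, P⁆ ≠ ⊥) :
    Nat.card ↥⁅P, P⁆ = p ∧ (∀ d ∈ ⁅P, P⁆, ∀ x ∈ P, d * x = x * d) ∧ ⁅P, P⁆ ≤ P := by
  have hmap : (commutator ↥P).map P.subtype = ⁅P, P⁆ := Subgroup.map_subtype_commutator P
  have hnab' : commutator ↥P ≠ ⊥ := by
    intro h
    apply hnab
    rw [← hmap, h, Subgroup.map_bot]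
  obtain ⟨h1, h2⟩ := sl2b9_center p hcard hnab'
  refine ⟨?_, ?_, ?_⟩
  · rw [← hmap, Subgroup.card_map_of_injective P.subtype_injective]
    exact h1
  · intro d hd x hx
    rw [← hmap] at hd
    obtain ⟨d', hd', rfl⟩ := Subgroup.mem_map.mp hd
    have := Subgroup.mem_center_iff.mp (h2 hd') ⟨x, hx⟩
    exact (congrArg Subtype.val this).symm
  · rw [← hmap]
    exact Subgroup.map_subtype_le _

/-- The line through `x`. -/
theorem sl2b9_line (p : ℕ) [Fact p.Prime] (P : Subgroup G)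
    (hcard : Nat.card ↥P = p ^ 3) (hnab : ⁅P, P⁆ ≠ ⊥) (hD : Nat.card ↥⁅P, P⁆ = p)
    (hDc : ∀ d ∈ ⁅P, P⁆, ∀ x ∈ P, d * x = x * d) (hDP : ⁅P, P⁆ ≤ P) {x : G} (hx : x ∈ P)
    (hxD : x ∉ ⁅P, P⁆) : Nat.card ↥(⁅P, P⁆ ⊔ zpowers x) = p ^ 2 := by
  have hp : p.Prime := Fact.out
  have hQP : ⁅P, P⁆ ⊔ zpowers x ≤ P := sup_le hDP (zpowers_le.mpr hx)
  have hdvd : Nat.card ↥(⁅P, P⁆ ⊔ zpowers x) ∣ p ^ 3 := hcard ▸ Subgroup.card_dvd_of_le hQP
  obtain ⟨k, hk3, hk⟩ := (Nat.dvd_prime_pow hp).mp hdvd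
  have hxQ : x ∈ ⁅P, P⁆ ⊔ zpowers x := (le_sup_right : zpowers x ≤ _) (mem_zpowers x)
  have hDQ : ⁅P, P⁆ ≤ ⁅P, P⁆ ⊔ zpowers x := le_sup_left
  have hpd := Subgroup.card_dvd_of_le hDQ
  rw [hD, hk] at hpd
  interval_cases k
  · exfalso
    rw [pow_zero, Nat.dvd_one] at hpd
    exact hp.one_lt.ne' hpd
  · exfalso
    apply hxD
    have h1 : ⁅P, P⁆ = ⁅P, P⁆ ⊔ zpowers x :=
      Subgroup.eq_of_le_of_card_ge hDQ (by rw [hk, hD, pow_one])
    exact h1.ge hxQ
  · exact hk
  · exfalso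
    have hQeq : ⁅P, P⁆ ⊔ zpowers x = P :=
      Subgroup.eq_of_le_of_card_ge hQP (by rw [hk, hcard])
    apply hnab
    rw [Subgroup.commutator_eq_bot_iff_le_centralizer]
    have hle : ⁅P, P⁆ ⊔ zpowers x ≤ centralizer ({x} : Set G) := by
      refine sup_le ?_ ?_
      · intro d hd
        rw [mem_centralizer_iff]
        intro h hh
        rw [Set.mem_singleton_iff] at hh
        subst hh
        exact (hDc d hd h hx).symm
      · rw [zpowers_le, mem_centralizer_iff]
        intro h hh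
        rw [Set.mem_singleton_iff] at hh
        subst hh
        rfl
    have hxc : ∀ y ∈ P, y * x = x * y := by
      intro y hy
      exact (mem_centralizer_iff.mp (hle (hQeq.ge hy)) x (Set.mem_singleton x)).symm
    have hle2 : ⁅P, P⁆ ⊔ zpowers x ≤ centralizer (P : Set G) := by
      refine sup_le ?_ ?_
      · intro d hd
        rw [mem_centralizer_iff]
        intro h hh
        exact (hDc d hd h hh).symm
      · rw [zpowers_le, mem_centralizer_iff]
        intro h hh
        exact hxc h hh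
    exact hQeq.ge.trans hle2

/-- The conjugation action of `K` on a `K`-invariant set of subgroups. -/
def sl2b9Act (K : Subgroup G) (S : Set (Subgroup G))
    (hinv : ∀ k ∈ K, ∀ L ∈ S, L.map (MulAut.conj k).toMonoidHom ∈ S) : MulAction ↥K ↥S where
  smul k L := ⟨L.1.map (MulAut.conj (k : G)).toMonoidHom, hinv k.1 k.2 L.1 L.2⟩
  one_smul L := by
    apply Subtype.ext
    show L.1.map (MulAut.conj ((1 : ↥K) : G)).toMonoidHom = L.1
    ext y
    simp [Subgroup.mem_map]
  mul_smul k₁ k₂ L := by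
    apply Subtype.ext
    show L.1.map (MulAut.conj ((k₁ * k₂ : ↥K) : G)).toMonoidHom =
      (L.1.map (MulAut.conj (k₂ : G)).toMonoidHom).map (MulAut.conj (k₁ : G)).toMonoidHom
    ext y
    simp [Subgroup.mem_map, mul_assoc]

/-- SL2B (pure). `K` acts semiregularly on the `p + 1` subgroups of order `p²` of `P` that
contain `P'`: orbit counting. -/
theorem bg83_sl2_semiregular (p : ℕ) [Fact p.Prime] (hp2 : p ≠ 2) (P K : Subgroup G)
    (hcard : Nat.card ↥P = p ^ 3) (hnab : ⁅P, P⁆ ≠ ⊥) (hKP : K ≤ normalizer (P : Set G))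
    (hsr : ∀ k ∈ K, k ≠ 1 → ∀ L : Subgroup G, ⁅P, P⁆ ≤ L → L ≤ P → Nat.card ↥L = p ^ 2 →
      k ∉ normalizer (L : Set G)) : Nat.card K ∣ p + 1 := by
  classical
  have hp : p.Prime := Fact.out
  obtain ⟨hD, hDc, hDP⟩ := sl2b9_derived p P hcard hnab
  haveI : Fintype G := Fintype.ofFinite G
  haveI : Fintype (Subgroup G) := Fintype.ofFinite _
  let 𝓛 : Finset (Subgroup G) :=
    Finset.univ.filter (fun L => ⁅P, P⁆ ≤ L ∧ L ≤ P ∧ Nat.card ↥L = p ^ 2)
  have h𝓛 : ∀ L, L ∈ 𝓛 ↔ (⁅P, P⁆ ≤ L ∧ L ≤ P ∧ Nat.card ↥L = p ^ 2) := fun L => by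
    simp [𝓛]
  -- conjugation by `k ∈ K` fixes `P` and `P'`
  have hmapP : ∀ k ∈ K, P.map (MulAut.conj k).toMonoidHom = P := by
    intro k hk
    have hkn := hKP hk
    rw [mem_normalizer_iff] at hkn
    ext y
    rw [Subgroup.mem_map]
    constructor
    · rintro ⟨x, hx, rfl⟩
      exact (hkn x).mp hx
    · intro hy
      refine ⟨k⁻¹ * y * k, ?_, ?_⟩
      · rw [hkn]
        have : k * (k⁻¹ * y * k) * k⁻¹ = y := by group
        rw [this]
        exact hy
      · show k * (k⁻¹ * y * k) * k⁻¹ = y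
        group
  have hmapD : ∀ k ∈ K, (⁅P, P⁆).map (MulAut.conj k).toMonoidHom = ⁅P, P⁆ := by
    intro k hk
    rw [Subgroup.map_commutator, hmapP k hk]
  have hinv : ∀ k ∈ K, ∀ L ∈ (𝓛 : Set (Subgroup G)),
      L.map (MulAut.conj k).toMonoidHom ∈ (𝓛 : Set (Subgroup G)) := by
    intro k hk L hL
    rw [Finset.mem_coe, h𝓛] at hL ⊢
    obtain ⟨h1, h2, h3⟩ := hL
    refine ⟨?_, ?_, ?_⟩
    · rw [← hmapD k hk]
      exact Subgroup.map_mono h1
    · rw [← hmapP k hk]
      exact Subgroup.map_mono h2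
    · rw [Subgroup.card_map_of_injective (MulAut.conj k).injective]
      exact h3
  letI := sl2b9Act K (𝓛 : Set (Subgroup G)) hinv
  have hdvd : Nat.card K ∣ Nat.card ↥(𝓛 : Set (Subgroup G)) := by
    refine sl2b9_card_dvd_of_free (fun k L hkL => ?_)
    by_contra hk1
    have hk1' : (k : G) ≠ 1 := fun h => hk1 (Subtype.ext h)
    have hL := (h𝓛 L.1).mp (Finset.mem_coe.mp L.2)
    have hmapL : L.1.map (MulAut.conj (k : G)).toMonoidHom = L.1 := congrArg Subtype.val hkL
    apply hsr k k.2 hk1' L.1 hL.1 hL.2.1 hL.2.2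
    rw [mem_normalizer_iff]
    intro h
    constructor
    · intro hh
      rw [← hmapL]
      exact Subgroup.mem_map.mpr ⟨h, hh, rfl⟩
    · intro hh
      rw [← hmapL] at hh
      obtain ⟨y, hy, hyh⟩ := Subgroup.mem_map.mp hh
      have hyh' : (k : G) * y * (k : G)⁻¹ = (k : G) * h * (k : G)⁻¹ := hyh
      have : y = h := by
        have := mul_right_cancel hyh'
        exact mul_left_cancel this
      exact this ▸ hy
  have hcL : Nat.card ↥(𝓛 : Set (Subgroup G)) = 𝓛.card := by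
    rw [Nat.card_coe_set_eq, Set.ncard_coe_finset]
  rw [hcL] at hdvd
  -- counting the lines
  have hcardF : ∀ L : Subgroup G, (Finset.univ.filter (fun x => x ∈ L)).card = Nat.card ↥L :=
    fun L => ((Nat.card_eq_fintype_card).trans (Fintype.card_subtype (fun x => x ∈ L))).symm
  let T : Finset G := Finset.univ.filter (fun x => x ∈ P ∧ x ∉ ⁅P, P⁆)
  have hT : ∀ x, x ∈ T ↔ (x ∈ P ∧ x ∉ ⁅P, P⁆) := fun x => by simp [T]
  have hmaps : ∀ x ∈ T, ⁅P, P⁆ ⊔ zpowers x ∈ 𝓛 := by
    intro x hx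
    rw [hT] at hx
    rw [h𝓛]
    exact ⟨le_sup_left, sup_le hDP (zpowers_le.mpr hx.1),
      sl2b9_line p P hcard hnab hD hDc hDP hx.1 hx.2⟩
  have hsum := Finset.card_eq_sum_card_fiberwise hmaps
  have hsd : ∀ L : Subgroup G, ⁅P, P⁆ ≤ L →
      ((Finset.univ.filter (fun x => x ∈ L)) \ (Finset.univ.filter (fun x => x ∈ ⁅P, P⁆))).card
        = Nat.card ↥L - p := by
    intro L hDL
    rw [Finset.card_sdiff_of_subset, hcardF, hcardF, hD]
    intro x hx
    rw [Finset.mem_filter] at hx ⊢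
    exact ⟨hx.1, hDL hx.2⟩
  have hfib : ∀ L ∈ 𝓛, (T.filter (fun x => ⁅P, P⁆ ⊔ zpowers x = L)).card = p ^ 2 - p := by
    intro L hL
    rw [h𝓛] at hL
    obtain ⟨h1, h2, h3⟩ := hL
    rw [← h3, ← hsd L h1]
    congr 1
    ext x
    simp only [Finset.mem_filter, Finset.mem_sdiff, Finset.mem_univ, true_and, hT]
    constructor
    · rintro ⟨⟨-, hxD⟩, hxL⟩
      refine ⟨?_, hxD⟩
      rw [← hxL]
      exact (le_sup_right : zpowers x ≤ _) (mem_zpowers x)
    · rintro ⟨hxL, hxD⟩
      refine ⟨⟨h2 hxL, hxD⟩, ?_⟩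
      refine Subgroup.eq_of_le_of_card_ge (sup_le h1 (zpowers_le.mpr hxL)) ?_
      rw [h3, sl2b9_line p P hcard hnab hD hDc hDP (h2 hxL) hxD]
  rw [Finset.sum_congr rfl hfib, Finset.sum_const, smul_eq_mul] at hsum
  have hTc : T.card = p ^ 3 - p := by
    have h4 := hsd P hDP
    rw [hcard] at h4
    rw [← h4]
    congr 1
    ext x
    simp only [Finset.mem_filter, Finset.mem_sdiff, Finset.mem_univ, true_and, hT]
  rw [hTc] at hsum
  -- `p ^ 3 - p = |𝓛| * (p ^ 2 - p)`
  have h2le : 2 ≤ p := hp.two_le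
  have hple2 : p ≤ p ^ 2 := by nlinarith
  have hple3 : p ≤ p ^ 3 := by nlinarith [pow_pos hp.pos 2, pow_succ p 2]
  obtain ⟨a, ha⟩ : ∃ a, p ^ 2 = a + p := ⟨p ^ 2 - p, (Nat.sub_add_cancel hple2).symm⟩
  obtain ⟨b, hb⟩ : ∃ b, p ^ 3 = b + p := ⟨p ^ 3 - p, (Nat.sub_add_cancel hple3).symm⟩
  have ha' : p ^ 2 - p = a := by omega
  have hb' : p ^ 3 - p = b := by omega
  rw [ha', hb'] at hsum
  have hapos : 0 < a := by nlinarith
  have h5 : 𝓛.card * a = (p + 1) * a := by
    have h6 : p ^ 3 = p * p ^ 2 := by ring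
    nlinarith
  have h7 : 𝓛.card = p + 1 := Nat.eq_of_mul_eq_mul_right hapos h5
  rw [h7] at hdvd
  exact hdvd

end Cfsg.Agent.Helper9
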