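import Cfsg.Agent.Helper9.BrauerP2
import Cfsg.Agent.Helper79.Induced

set_option autoImplicit false
set_option linter.style.haveILetI false
set_option maxHeartbeats 1000000

/-!
# Brauer's data for a self-centralizing Sylow subgroup of prime order with `|N(P)| = 2p` (helper9)

* `BrauerP.TwoData p P χ₂ η₀ Y ε v`: the irreducible characters of a finite simple group `G`
  not vanishing on `P ∖ 1` are the trivial character, `χ₂` (value `ε = ±1` on `P ∖ 1`) and the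
  `(p-1)/2` exceptional characters in `Y`, which agree with `η₀ ∈ Y` on `p`-regular elements and
  whose sum is `-v` on `P ∖ 1`, `v = ±1`; on `p`-regular elements `v η₀ = 1 + ε χ₂`.
* `BrauerP.exists_twoData`: existence, for `p ≥ 5`, `|P| = |C(P)| = p`, `|N(P)| = 2p`.
* `BrauerP.TwoData.decomp`: the decomposition of a character vanishing on the `p`-singular
  elements.
-/

namespace Cfsg.Agent.Helper9

namespace BrauerP

open Subgroup Cfsg

open scoped ComplexConjugate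

universe u

variable {G : Type u} [Group G]

/-- Brauer's data for `|N(P)| = 2 |C(P)| = 2 p`. -/
structure TwoData (p : ℕ) (P : Sylow p G) (χ₂ η₀ : IrrCharacter G)
    (Y : Finset (IrrCharacter G)) (ε v : ℤ) : Prop where
  ne_triv : χ₂ ≠ Helper81.trivIrr G
  triv_nmem : Helper81.trivIrr G ∉ Y
  nmem : χ₂ ∉ Y
  mem : η₀ ∈ Y
  card : Y.card * 2 = p - 1
  eps : ε = 1 ∨ ε = -1
  sgn : v = 1 ∨ v = -1
  val₂ : ∀ w ∈ (P : Subgroup G), w ≠ 1 → (χ₂ : G → ℂ) w = (ε : ℂ)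
  sumY : ∀ w ∈ (P : Subgroup G), w ≠ 1 → ∑ η ∈ Y, (η : G → ℂ) w = -(v : ℂ)
  vanish : ∀ w ∈ (P : Subgroup G), w ≠ 1 → ∀ χ : IrrCharacter G, χ ≠ Helper81.trivIrr G →
    χ ≠ χ₂ → χ ∉ Y → (χ : G → ℂ) w = 0
  agree : ∀ η ∈ Y, ∀ g : G, ¬ p ∣ orderOf g → (η : G → ℂ) g = (η₀ : G → ℂ) g
  rel : ∀ g : G, ¬ p ∣ orderOf g →
    (v : ℂ) * (η₀ : G → ℂ) g = 1 + (ε : ℂ) * (χ₂ : G → ℂ) g

/-- Existence of Brauer's data. -/
theorem exists_twoData [Finite G] [IsSimpleGroup G] {p : ℕ} [Fact p.Prime] (P : Sylow p G)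
    (hP : Nat.card (P : Subgroup G) = p) (hlt : p < Nat.card G) (hp5 : 5 ≤ p)
    (hC : Nat.card (centralizer ((P : Subgroup G) : Set G)) = p)
    (hN : Nat.card (normalizer ((P : Subgroup G) : Set G)) = 2 * p) :
    ∃ (χ₂ η₀ : IrrCharacter G) (Y : Finset (IrrCharacter G)) (ε v : ℤ),
      TwoData p P χ₂ η₀ Y ε v := by
  have hp0 : p.Prime := Fact.out
  obtain ⟨z, hz, hz1⟩ : ∃ z : G, z ∈ (P : Subgroup G) ∧ z ≠ 1 := by
    haveI : Finite (P : Subgroup G) := inferInstance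
    have h1 : 1 < Nat.card (P : Subgroup G) := by rw [hP]; exact hp0.one_lt
    haveI := Finite.one_lt_card_iff_nontrivial.mp h1
    obtain ⟨x, hx⟩ := exists_ne (1 : (P : Subgroup G))
    exact ⟨x.1, x.2, fun h => hx (Subtype.ext h)⟩
  classical
  have hp : p.Prime := Fact.out
  have hna := exists_not_comm P (by rw [hP]; exact hp.one_lt) (by rw [hP]; exact hlt)
  haveI : Fintype G := Fintype.ofFinite G
  haveI : Fintype (P : Subgroup G) := Fintype.ofFinite _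
  haveI : Finite ((P : Subgroup G) →* ℂˣ) := Helper80.finite_hom
  haveI : Fintype ((P : Subgroup G) →* ℂˣ) := Fintype.ofFinite _
  haveI : Fintype (IrrCharacter G) := Fintype.ofFinite _
  haveI : Fintype (normalizer ((P : Subgroup G) : Set G)) := Fintype.ofFinite _
  obtain ⟨M, hM⟩ := Helper78.exists_isPModular p hp
  haveI hMp : M.IsPrime := Helper81.isPrime_of_isPModular hM
  have hcent := OrdTools.le_centralizer_of_prime P hP
  have hcommA : ∀ x y : (P : Subgroup G), x * y = y * x := fun x y =>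
    Subtype.ext (Subgroup.mem_centralizer_iff.mp (hcent y.2) x x.2)
  have hab : IsMulCommutative (P : Subgroup G) := ⟨⟨hcommA⟩⟩
  have hfrob : ∀ y : G, y ∈ (P : Subgroup G) → y ≠ 1 → centralizer ({y} : Set G)
      ⊓ normalizer ((P : Subgroup G) : Set G) = centralizer ((P : Subgroup G) : Set G) := by
    intro y hy hy1
    rw [OrdTools.centralizer_singleton_eq (OrdTools.zpowers_eq_sylow P hP hy hy1)]
    exact inf_eq_left.mpr (Subgroup.centralizer_le_normalizer _)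
  have hcardP : Fintype.card (P : Subgroup G) = p := by
    rw [← Nat.card_eq_fintype_card, hP]
  have hCN : (centralizer ((P : Subgroup G) : Set G)).relIndex
      (normalizer ((P : Subgroup G) : Set G)) = 2 := relIndex_of_card _ (by rw [hN, hC])
  obtain ⟨T, δ, d, a, ζ, hT, hδ, hζT, hζR, had, hval, hnorm, hpreg, hagree, hζtriv, -⟩ :=
    Helper82.excFinal_data hM P hab hfrob 2 (by rw [hP]; omega) hCN
  have hcardHom : Fintype.card ((P : Subgroup G) →* ℂˣ) = p := by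
    rw [← Nat.card_eq_fintype_card, Helper82.excHom_card hcommA, hcardP]
  obtain ⟨ψ₀, hψ₀⟩ := Fintype.exists_ne_of_one_lt_card (by rw [hcardHom]; exact hp.one_lt)
    (1 : (P : Subgroup G) →* ℂˣ)
  have hreg1 : ¬ p ∣ orderOf (1 : G) := by
    rw [orderOf_one]
    exact hp.one_lt.ne' ∘ Nat.dvd_one.mp
  -- the fibres of `ζ`
  have hSf : ∀ ψ₁ : (P : Subgroup G) →* ℂˣ, ψ₁ ≠ 1 →
      (Finset.univ.filter (fun ψ : (P : Subgroup G) →* ℂˣ => ψ ≠ 1 ∧ ζ ψ = ζ ψ₁)).card = 2 := by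
    intro ψ₁ h₁
    have := Helper82.excMain_card_orbit P hfrob 2 hCN ψ₁ h₁
    rw [← this]
    congr 1
    ext ψ
    simp only [Finset.mem_filter, Finset.mem_univ, true_and, Finset.mem_image]
    constructor
    · rintro ⟨hψ, he⟩
      exact (hζR ψ₁ ψ h₁ hψ).mp he.symm
    · intro hrel
      have hψ : ψ ≠ 1 := Helper82.excRel_ne_one h₁ hrel
      exact ⟨hψ, ((hζR ψ₁ ψ h₁ hψ).mpr hrel).symm⟩
  set L : Finset ((P : Subgroup G) →* ℂˣ) := Finset.univ.filter (fun ψ => ψ ≠ 1) with hL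
  set Y : Finset (IrrCharacter G) := L.image ζ with hY
  have hLcard : L.card = p - 1 := by
    rw [hL, Finset.filter_ne' Finset.univ (1 : (P : Subgroup G) →* ℂˣ),
      Finset.card_erase_of_mem (Finset.mem_univ _), Finset.card_univ, hcardHom]
  have hYcard : Y.card * 2 = p - 1 := by
    have h1 := Finset.card_eq_sum_card_image ζ L
    have h2 : ∀ η ∈ L.image ζ, (L.filter (fun ψ => ζ ψ = η)).card = 2 := by
      intro η hη
      obtain ⟨ψ₁, hψ₁, rfl⟩ := Finset.mem_image.mp hη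
      have h₁ : ψ₁ ≠ 1 := (Finset.mem_filter.mp hψ₁).2
      rw [← hSf ψ₁ h₁, hL, Finset.filter_filter]
    rw [Finset.sum_congr rfl h2, Finset.sum_const, smul_eq_mul, hLcard] at h1
    exact h1.symm
  have hY2 : 2 ≤ Y.card := by omega
  have hYT : Y ⊆ T := by
    intro η hη
    obtain ⟨ψ₁, hψ₁, rfl⟩ := Finset.mem_image.mp hη
    exact hζT ψ₁ (Finset.mem_filter.mp hψ₁).2
  have hYmem : ∀ η ∈ Y, ∃ ψ₁ : (P : Subgroup G) →* ℂˣ, ψ₁ ≠ 1 ∧ ζ ψ₁ = η := by
    intro η hη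
    obtain ⟨ψ₁, hψ₁, rfl⟩ := Finset.mem_image.mp hη
    exact ⟨ψ₁, (Finset.mem_filter.mp hψ₁).2, rfl⟩
  have hYa : ∀ η ∈ Y, a η = d := by
    intro η hη
    obtain ⟨ψ₁, h₁, rfl⟩ := hYmem η hη
    exact had ψ₁ h₁
  have hYval : ∀ η ∈ Y, ∀ g : G, ¬ p ∣ orderOf g → (η : G → ℂ) g = (ζ ψ₀ : G → ℂ) g := by
    intro η hη g hg
    obtain ⟨ψ₁, h₁, rfl⟩ := hYmem η hη
    exact hagree ψ₁ ψ₀ h₁ hψ₀ g hg
  have hYtriv : Helper81.trivIrr G ∉ Y := by
    intro hη
    obtain ⟨ψ₁, h₁, he⟩ := hYmem _ hη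
    exact hζtriv ψ₁ h₁ he
  have htrivT : Helper81.trivIrr G ∈ T := (hT _).mpr Helper81.trivIrr_mem_principalBlock
  have hSfX : ∀ χ, χ ∉ Y →
      Finset.univ.filter (fun ψ : (P : Subgroup G) →* ℂˣ => ψ ≠ 1 ∧ ζ ψ = χ) = ∅ := by
    intro χ hχY
    rw [Finset.filter_eq_empty_iff]
    rintro ψ - ⟨hψ, he⟩
    exact hχY (Finset.mem_image.mpr ⟨ψ, Finset.mem_filter.mpr ⟨Finset.mem_univ _, hψ⟩, he⟩)
  -- values at nontrivial elements of `P`, with finite sums
  have hval' : ∀ χ ∈ T, ∀ y : (P : Subgroup G), y ≠ 1 → (χ : G → ℂ) (y : G)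
      = (a χ : ℂ) + (δ : ℂ) * ∑ ψ ∈ Finset.univ.filter
        (fun ψ : (P : Subgroup G) →* ℂˣ => ψ ≠ 1 ∧ ζ ψ = χ), ((ψ y : ℂˣ) : ℂ) := by
    intro χ hχ y hy
    rw [hval χ hχ y hy]
    congr 2
    have hset : {ψ : (P : Subgroup G) →* ℂˣ | ψ ≠ 1 ∧ ζ ψ = χ}
        = ((Finset.univ.filter (fun ψ : (P : Subgroup G) →* ℂˣ => ψ ≠ 1 ∧ ζ ψ = χ)
          : Finset ((P : Subgroup G) →* ℂˣ)) : Set ((P : Subgroup G) →* ℂˣ)) := by
      ext ψ
      simp
    rw [hset, finsum_mem_coe_finset]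
  have hvalX : ∀ χ ∈ T, χ ∉ Y → ∀ y : (P : Subgroup G), y ≠ 1 →
      (χ : G → ℂ) (y : G) = (a χ : ℂ) := by
    intro χ hχ hχY y hy
    rw [hval' χ hχ y hy, hSfX χ hχY, Finset.sum_empty, mul_zero, add_zero]
  have hatriv : a (Helper81.trivIrr G) = 1 := by
    have h1 := hvalX _ htrivT hYtriv ⟨z, hz⟩ (fun h => hz1 (congrArg Subtype.val h))
    rw [Helper81.trivIrr_apply] at h1
    exact_mod_cast h1.symm
  -- the non-exceptional characters
  set W : Finset (IrrCharacter G) := (T \ Y).filter (fun χ => a χ ≠ 0) with hW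
  have htrivW : Helper81.trivIrr G ∈ W := by
    rw [hW, Finset.mem_filter, Finset.mem_sdiff]
    exact ⟨⟨htrivT, hYtriv⟩, by rw [hatriv]; norm_num⟩
  have hWmem : ∀ χ ∈ W.erase (Helper81.trivIrr G),
      χ ≠ Helper81.trivIrr G ∧ χ ∈ T ∧ χ ∉ Y ∧ a χ ≠ 0 := by
    intro χ hχ
    have h1 := Finset.mem_erase.mp hχ
    have h2 := Finset.mem_filter.mp h1.2
    have h3 := Finset.mem_sdiff.mp h2.1
    exact ⟨h1.1, h3.1, h3.2, h2.2⟩
  have hsplitZ : ∀ f : IrrCharacter G → ℤ, (∀ χ ∈ T, χ ∉ Y → a χ = 0 → f χ = 0) →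
      ∑ χ ∈ T, f χ = f (Helper81.trivIrr G) + ∑ χ ∈ W.erase (Helper81.trivIrr G), f χ
        + ∑ χ ∈ Y, f χ := by
    intro f hf
    rw [← Finset.sum_sdiff hYT, Finset.add_sum_erase W f htrivW, hW,
      Finset.sum_filter_of_ne]
    intro χ hχ hχ0 h0
    have h3 := Finset.mem_sdiff.mp hχ
    exact hχ0 (hf χ h3.1 h3.2 h0)
  have hsplitC : ∀ f : IrrCharacter G → ℂ, (∀ χ ∈ T, χ ∉ Y → a χ = 0 → f χ = 0) →
      ∑ χ ∈ T, f χ = f (Helper81.trivIrr G) + ∑ χ ∈ W.erase (Helper81.trivIrr G), f χ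
        + ∑ χ ∈ Y, f χ := by
    intro f hf
    rw [← Finset.sum_sdiff hYT, Finset.add_sum_erase W f htrivW, hW,
      Finset.sum_filter_of_ne]
    intro χ hχ hχ0 h0
    have h3 := Finset.mem_sdiff.mp hχ
    exact hχ0 (hf χ h3.1 h3.2 h0)
  -- the norm equation
  have hnorm' : (d - δ) ^ 2 + ((Y.card : ℤ) - 1) * d ^ 2
      + ∑ χ ∈ W.erase (Helper81.trivIrr G), a χ ^ 2 = 2 := by
    have h1 := hsplitZ (fun χ => a χ ^ 2) (fun χ _ _ h0 => by simp [h0])
    have h2 : ∑ χ ∈ Y, a χ ^ 2 = (Y.card : ℤ) * d ^ 2 := by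
      rw [Finset.sum_congr rfl (fun χ hχ => by rw [hYa χ hχ]), Finset.sum_const, nsmul_eq_mul]
    rw [h1, h2, hatriv, Nat.cast_ofNat] at hnorm
    linear_combination hnorm
  -- the relation on `p`-regular elements
  have hrel : ∀ g : G, ¬ p ∣ orderOf g → ((δ : ℂ) - (Y.card : ℂ) * (d : ℂ)) * (ζ ψ₀ : G → ℂ) g
      = 1 + ∑ χ ∈ W.erase (Helper81.trivIrr G), (a χ : ℂ) * (χ : G → ℂ) g := by
    intro g hg
    have h0 := hpreg ψ₀ hψ₀ g hg
    have h1 := hsplitC (fun χ => (a χ : ℂ) * (χ : G → ℂ) g) (fun χ _ _ h0 => by simp [h0])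
    have h2 : ∑ χ ∈ Y, (a χ : ℂ) * (χ : G → ℂ) g
        = (Y.card : ℂ) * ((d : ℂ) * (ζ ψ₀ : G → ℂ) g) := by
      rw [Finset.sum_congr rfl (fun χ hχ => by rw [hYa χ hχ, hYval χ hχ g hg]), Finset.sum_const,
        nsmul_eq_mul]
    rw [h1, h2, hatriv, Helper81.trivIrr_apply] at h0
    push_cast at h0
    linear_combination h0
  have hD2 : 2 ≤ charDegree (ζ ψ₀ : G → ℂ) := two_le_charDegree hna _ (hζtriv ψ₀ hψ₀)
  have hδ2 : δ ^ 2 = 1 := by rcases hδ with h | h <;> rw [h] <;> norm_num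
  have hY2' : (2 : ℤ) ≤ (Y.card : ℤ) := by exact_mod_cast hY2
  have hSnn : ∀ χ ∈ W.erase (Helper81.trivIrr G), (1 : ℤ) ≤ a χ ^ 2 := fun χ hχ =>
    one_le_sq_of_ne_zero (hWmem χ hχ).2.2.2
  have hcardle : ((W.erase (Helper81.trivIrr G)).card : ℤ)
      ≤ ∑ χ ∈ W.erase (Helper81.trivIrr G), a χ ^ 2 := by
    have := Finset.card_nsmul_le_sum (W.erase (Helper81.trivIrr G)) (fun χ => a χ ^ 2) 1 hSnn
    simpa using this
  have hS1 : ∑ χ ∈ W.erase (Helper81.trivIrr G), a χ ^ 2 = 1 := by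
    have hSnn' : (0 : ℤ) ≤ ∑ χ ∈ W.erase (Helper81.trivIrr G), a χ ^ 2 :=
      Finset.sum_nonneg (fun χ hχ => by positivity)
    have h1 : (0 : ℤ) ≤ (d - δ) ^ 2 := by positivity
    have h2 : (0 : ℤ) ≤ ((Y.card : ℤ) - 1) * d ^ 2 :=
      mul_nonneg (by linarith) (by positivity)
    have hle : ∑ χ ∈ W.erase (Helper81.trivIrr G), a χ ^ 2 ≤ 2 := by linarith
    have hne0 : ∑ χ ∈ W.erase (Helper81.trivIrr G), a χ ^ 2 ≠ 0 := by
      intro h0
      have hc0 : (W.erase (Helper81.trivIrr G)).card = 0 := by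
        rw [h0] at hcardle
        exact_mod_cast le_antisymm hcardle (by positivity)
      have hempty := Finset.card_eq_zero.mp hc0
      have h3 := hrel 1 hreg1
      rw [hempty, Finset.sum_empty, add_zero, Helper81.irr_one_eq_charDegree] at h3
      have h4 : (δ - (Y.card : ℤ) * d) * (charDegree (ζ ψ₀ : G → ℂ) : ℤ) = 1 := by
        exact_mod_cast h3
      have h5 : ((charDegree (ζ ψ₀ : G → ℂ) : ℕ) : ℤ) ∣ 1 := Dvd.intro_left _ h4
      have h6 := Int.le_of_dvd (by norm_num) h5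
      have h7 : (2 : ℤ) ≤ (charDegree (ζ ψ₀ : G → ℂ) : ℤ) := by exact_mod_cast hD2
      linarith
    have hne2 : ∑ χ ∈ W.erase (Helper81.trivIrr G), a χ ^ 2 ≠ 2 := by
      intro h2'
      have h3 : (d - δ) ^ 2 = 0 := by linarith
      have h4 : ((Y.card : ℤ) - 1) * d ^ 2 = 0 := by linarith
      have h5 : d = δ := by
        have := pow_eq_zero_iff (n := 2) (by norm_num) |>.mp h3
        linarith
      rw [h5, hδ2, mul_one] at h4
      linarith
    omega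
  obtain ⟨χ₂, hχ₂⟩ : ∃ χ₂, W.erase (Helper81.trivIrr G) = {χ₂} := by
    apply Finset.card_eq_one.mp
    have h1 : ((W.erase (Helper81.trivIrr G)).card : ℤ) ≤ 1 := by rw [← hS1]; exact hcardle
    have h2 : (W.erase (Helper81.trivIrr G)).card ≠ 0 := by
      intro h0
      rw [Finset.card_eq_zero.mp h0, Finset.sum_empty] at hS1
      norm_num at hS1
    omega
  obtain ⟨hχ₂triv, hχ₂T, hχ₂Y, hχ₂a⟩ := hWmem χ₂ (by rw [hχ₂]; exact Finset.mem_singleton_self _)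
  rw [hχ₂, Finset.sum_singleton] at hS1
  have hrel' : ∀ g : G, ¬ p ∣ orderOf g → ((δ : ℂ) - (Y.card : ℂ) * (d : ℂ)) * (ζ ψ₀ : G → ℂ) g
      = 1 + (a χ₂ : ℂ) * (χ₂ : G → ℂ) g := by
    intro g hg
    have := hrel g hg
    rwa [hχ₂, Finset.sum_singleton] at this
  -- characters outside the principal block vanish on `P ∖ 1`
  have hvanish : ∀ w : G, w ∈ (P : Subgroup G) → w ≠ 1 → ∀ χ : IrrCharacter G, χ ∉ T →
      (χ : G → ℂ) w = 0 := by
    intro w hw hw1 χ hχ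
    have h1 := Helper80.irr_sum_mul_inv w w
    have hcardC : (Finset.univ.filter (fun x : G => x * w * x⁻¹ = w)).card = p := by
      rw [← hC, ← OrdTools.centralizer_singleton_eq (OrdTools.zpowers_eq_sylow P hP hw hw1),
        Nat.card_eq_fintype_card, Fintype.card_subtype]
      congr 1
      ext x
      simp only [Finset.mem_filter, Finset.mem_univ, true_and]
      rw [Subgroup.mem_centralizer_iff]
      constructor
      · intro hx y hy
        rw [Set.mem_singleton_iff] at hy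
        subst hy
        have : x * y * x⁻¹ * x = y * x := by rw [hx]
        rw [inv_mul_cancel_right] at this
        exact this.symm
      · intro hx
        rw [← hx w rfl, mul_inv_cancel_right]
    rw [hcardC] at h1
    have h2 := Helper82.excBlock_sum_self hM P hab hfrob w hw hw1
    have hset : Cfsg.principalBlock M G = ((T : Finset (IrrCharacter G)) : Set (IrrCharacter G)) := by
      ext χ'
      exact (hT χ').symm
    rw [hset, finsum_mem_coe_finset, hP] at h2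
    have h3 : ∑ χ' : IrrCharacter G, ((Complex.normSq ((χ' : G → ℂ) w) : ℝ) : ℂ) = (p : ℂ) := by
      rw [← h1]
      exact Finset.sum_congr rfl (fun χ' _ => by rw [Helper77.irr_inv, Complex.mul_conj])
    have h4 : ∑ χ' ∈ T, ((Complex.normSq ((χ' : G → ℂ) w) : ℝ) : ℂ) = (p : ℂ) := by
      rw [← h2]
      exact Finset.sum_congr rfl (fun χ' _ => by rw [Complex.mul_conj])
    have h5 : ∑ χ' ∈ Finset.univ \ T, Complex.normSq ((χ' : G → ℂ) w) = 0 := by
      have h6 := Finset.sum_sdiff (Finset.subset_univ T)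
        (f := fun χ' : IrrCharacter G => ((Complex.normSq ((χ' : G → ℂ) w) : ℝ) : ℂ))
      rw [h3, h4] at h6
      have h7 : ((∑ χ' ∈ Finset.univ \ T, Complex.normSq ((χ' : G → ℂ) w) : ℝ) : ℂ) = 0 := by
        push_cast
        linear_combination h6
      exact_mod_cast h7
    have h8 := (Finset.sum_eq_zero_iff_of_nonneg (fun χ' _ => Complex.normSq_nonneg _)).mp h5 χ
      (Finset.mem_sdiff.mpr ⟨Finset.mem_univ _, hχ⟩)
    exact Complex.normSq_eq_zero.mp h8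
  -- sums over the exceptional characters
  have hsumY : ∀ w : G, w ∈ (P : Subgroup G) → w ≠ 1 →
      ∑ η ∈ Y, (η : G → ℂ) w = (Y.card : ℂ) * (d : ℂ) - (δ : ℂ) := by
    intro w hw hw1
    have hsumL : ∑ ψ ∈ L, ((ψ (⟨w, hw⟩ : (P : Subgroup G)) : ℂˣ) : ℂ) = -1 := by
      have h1 := Helper82.excHom_sum_dual hcommA (⟨w, hw⟩ : (P : Subgroup G))
      rw [if_neg (fun h => hw1 (congrArg Subtype.val h))] at h1
      have h2 := Finset.add_sum_erase (Finset.univ : Finset ((P : Subgroup G) →* ℂˣ))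
        (fun ψ => ((ψ (⟨w, hw⟩ : (P : Subgroup G)) : ℂˣ) : ℂ)) (Finset.mem_univ 1)
      rw [h1, ← Finset.filter_ne' Finset.univ (1 : (P : Subgroup G) →* ℂˣ)] at h2
      simp only [MonoidHom.one_apply, Units.val_one] at h2
      linear_combination h2
    have h1 : ∀ η ∈ Y, (η : G → ℂ) w = (d : ℂ) + (δ : ℂ) *
        ∑ ψ ∈ L.filter (fun ψ => ζ ψ = η), ((ψ (⟨w, hw⟩ : (P : Subgroup G)) : ℂˣ) : ℂ) := by
      intro η hη
      have := hval' η (hYT hη) ⟨w, hw⟩ (fun h => hw1 (congrArg Subtype.val h))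
      rw [hYa η hη] at this
      rw [this, hL, Finset.filter_filter]
    rw [Finset.sum_congr rfl h1, Finset.sum_add_distrib, Finset.sum_const, ← Finset.mul_sum,
      Finset.sum_fiberwise_of_maps_to (fun ψ hψ => Finset.mem_image_of_mem ζ hψ), hsumL,
      nsmul_eq_mul]
    ring
  have hnorm2 : (d - δ) ^ 2 + ((Y.card : ℤ) - 1) * d ^ 2 = 1 := by
    rw [hχ₂, Finset.sum_singleton] at hnorm'
    linarith
  have hv : δ - (Y.card : ℤ) * d = 1 ∨ δ - (Y.card : ℤ) * d = -1 := by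
    by_cases hd0 : d = 0
    · rw [hd0, mul_zero, sub_zero]
      exact hδ
    · have hd1 : (1 : ℤ) ≤ d ^ 2 := one_le_sq_of_ne_zero hd0
      have h1 : (0 : ℤ) ≤ (d - δ) ^ 2 := by positivity
      have h2 : d ^ 2 ≤ ((Y.card : ℤ) - 1) * d ^ 2 := by nlinarith
      have h3 : (d - δ) ^ 2 = 0 := by linarith
      have h4 : d = δ := by
        have := pow_eq_zero_iff (n := 2) (by norm_num) |>.mp h3
        linarith
      have h5 : ((Y.card : ℤ) - 1) * d ^ 2 = 1 := by linarith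
      rw [h4, hδ2, mul_one] at h5
      have h6 : (Y.card : ℤ) = 2 := by linarith
      rw [h6, h4]
      rcases hδ with h | h <;> rw [h] <;> norm_num
  have hε : a χ₂ = 1 ∨ a χ₂ = -1 := by
    have h1 : (a χ₂ - 1) * (a χ₂ + 1) = 0 := by linear_combination hS1
    rcases mul_eq_zero.mp h1 with h | h
    · left; linarith
    · right; linarith
  refine ⟨χ₂, ζ ψ₀, Y, a χ₂, δ - (Y.card : ℤ) * d, ?_⟩
  refine ⟨hχ₂triv, hYtriv, hχ₂Y,
    Finset.mem_image.mpr ⟨ψ₀, Finset.mem_filter.mpr ⟨Finset.mem_univ _, hψ₀⟩, rfl⟩,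
    hYcard, hε, hv, ?_, ?_, ?_, hYval, ?_⟩
  · intro w hw hw1
    exact hvalX χ₂ hχ₂T hχ₂Y ⟨w, hw⟩ (fun h => hw1 (congrArg Subtype.val h))
  · intro w hw hw1
    rw [hsumY w hw hw1]
    push_cast
    ring
  · intro w hw hw1 χ hχ1 hχ2 hχY
    by_cases hχT : χ ∈ T
    · rw [hvalX χ hχT hχY ⟨w, hw⟩ (fun h => hw1 (congrArg Subtype.val h))]
      by_contra ha
      have ha0 : a χ ≠ 0 := fun h0 => ha (by rw [h0]; norm_num)
      have hmemW : χ ∈ W.erase (Helper81.trivIrr G) := by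
        rw [Finset.mem_erase, hW, Finset.mem_filter, Finset.mem_sdiff]
        exact ⟨hχ1, ⟨hχT, hχY⟩, ha0⟩
      rw [hχ₂, Finset.mem_singleton] at hmemW
      exact hχ2 hmemW
    · exact hvanish w hw hw1 χ hχT
  · intro g hg
    have := hrel' g hg
    push_cast
    exact this

/-- splitting a sum over all irreducible characters. -/
theorem sum_split {M : Type*} [AddCommMonoid M] [Fintype (IrrCharacter G)]
    [DecidableEq (IrrCharacter G)] {χ₁ χ₂ : IrrCharacter G}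
    {Y : Finset (IrrCharacter G)} (h12 : χ₂ ≠ χ₁) (h1 : χ₁ ∉ Y) (h2 : χ₂ ∉ Y)
    (f : IrrCharacter G → M) :
    ∑ χ, f χ = f χ₁ + (f χ₂ + (∑ χ ∈ ((Finset.univ.erase χ₁).erase χ₂) \ Y, f χ
      + ∑ η ∈ Y, f η)) := by
  have hY : Y ⊆ (Finset.univ.erase χ₁).erase χ₂ := by
    intro η hη
    rw [Finset.mem_erase, Finset.mem_erase]
    exact ⟨fun h => h2 (h ▸ hη), fun h => h1 (h ▸ hη), Finset.mem_univ _⟩
  rw [Finset.sum_sdiff hY, Finset.add_sum_erase _ f (Finset.mem_erase.mpr ⟨h12, Finset.mem_univ _⟩),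
    Finset.add_sum_erase _ f (Finset.mem_univ _)]

/-- **Decomposition** of a character vanishing on the `p`-singular elements. -/
theorem TwoData.decomp [Fintype G] {p : ℕ} [Fact p.Prime]
    {P : Sylow p G} {χ₂ η₀ : IrrCharacter G} {Y : Finset (IrrCharacter G)} {ε v : ℤ}
    (h : TwoData p P χ₂ η₀ Y ε v) (hP : Nat.card (P : Subgroup G) = p)
    {Φ : G → ℂ} (hΦ : IsCharacter G Φ) (hΦ0 : ∀ g : G, p ∣ orderOf g → Φ g = 0) :
    ∃ n₁ n₂ c R : ℕ, classInner Φ (Helper81.trivIrr G : G → ℂ) = (n₁ : ℂ) ∧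
      classInner Φ (χ₂ : G → ℂ) = (n₂ : ℂ) ∧ classInner Φ (η₀ : G → ℂ) = (c : ℂ) ∧
      (n₁ : ℤ) + ε * n₂ = c * v ∧
      charDegree Φ = n₁ + n₂ * charDegree (χ₂ : G → ℂ)
        + c * (Y.card * charDegree (η₀ : G → ℂ)) + R ∧
      (R = 0 → ∀ g : G, Φ g = (n₁ : ℂ) + (n₂ : ℂ) * (χ₂ : G → ℂ) g
        + (c : ℂ) * ∑ η ∈ Y, (η : G → ℂ) g) := by
  classical
  have hp : p.Prime := Fact.out
  haveI : Fintype (IrrCharacter G) := Fintype.ofFinite _
  obtain ⟨b, hb, hval, hdeg⟩ := Helper79.isCharacter_decomp hΦ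
  obtain ⟨w, hw, hw1⟩ : ∃ w : G, w ∈ (P : Subgroup G) ∧ w ≠ 1 := by
    have h1 : 1 < Nat.card (P : Subgroup G) := by rw [hP]; exact hp.one_lt
    haveI := Finite.one_lt_card_iff_nontrivial.mp h1
    obtain ⟨x, hx⟩ := exists_ne (1 : (P : Subgroup G))
    exact ⟨x.1, x.2, fun h => hx (Subtype.ext h)⟩
  have hwp : p ∣ orderOf w := by
    have h1 : orderOf (⟨w, hw⟩ : (P : Subgroup G)) ∣ Nat.card (P : Subgroup G) :=
      orderOf_dvd_natCard _
    rw [hP] at h1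
    rw [Subgroup.orderOf_mk] at h1
    rcases (Nat.dvd_prime hp).mp h1 with h2 | h2
    · exact absurd (orderOf_eq_one_iff.mp h2) hw1
    · rw [h2]
  have hreg1 : ¬ p ∣ orderOf (1 : G) := by
    rw [orderOf_one]
    exact hp.one_lt.ne' ∘ Nat.dvd_one.mp
  have hbY : ∀ η ∈ Y, b η = b η₀ := by
    intro η hη
    have h1 : classInner Φ (η : G → ℂ) = classInner Φ (η₀ : G → ℂ) := by
      unfold classInner
      congr 1
      refine Finset.sum_congr rfl (fun g _ => ?_)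
      by_cases hg : p ∣ orderOf g
      · rw [hΦ0 g hg, zero_mul, zero_mul]
      · rw [h.agree η hη g hg]
    rw [hb, hb] at h1
    exact_mod_cast h1
  have hdY : ∀ η ∈ Y, charDegree (η : G → ℂ) = charDegree (η₀ : G → ℂ) := by
    intro η hη
    have h1 := h.agree η hη 1 hreg1
    rw [Helper81.irr_one_eq_charDegree, Helper81.irr_one_eq_charDegree] at h1
    exact_mod_cast h1
  have hd1 : charDegree (Helper81.trivIrr G : G → ℂ) = 1 := by
    have h1 := Helper81.irr_one_eq_charDegree (Helper81.trivIrr G)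
    rw [Helper81.trivIrr_apply] at h1
    exact_mod_cast h1.symm
  set O : Finset (IrrCharacter G) :=
    ((Finset.univ.erase (Helper81.trivIrr G)).erase χ₂) \ Y with hO
  have hOmem : ∀ χ ∈ O, χ ≠ Helper81.trivIrr G ∧ χ ≠ χ₂ ∧ χ ∉ Y := by
    intro χ hχ
    rw [hO, Finset.mem_sdiff, Finset.mem_erase, Finset.mem_erase] at hχ
    exact ⟨hχ.1.2.1, hχ.1.1, hχ.2⟩
  refine ⟨b (Helper81.trivIrr G), b χ₂, b η₀, ∑ χ ∈ O, b χ * charDegree (χ : G → ℂ),
    hb _, hb _, hb _, ?_, ?_, ?_⟩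
  · have h1 := hval w
    rw [hΦ0 w hwp, sum_split h.ne_triv h.triv_nmem h.nmem] at h1
    have h2 : ∑ χ ∈ O, (b χ : ℂ) * (χ : G → ℂ) w = 0 := by
      apply Finset.sum_eq_zero
      intro χ hχ
      obtain ⟨hc1, hc2, hc3⟩ := hOmem χ hχ
      rw [h.vanish w hw hw1 χ hc1 hc2 hc3, mul_zero]
    have h3 : ∑ η ∈ Y, (b η : ℂ) * (η : G → ℂ) w = (b η₀ : ℂ) * (-(v : ℂ)) := by
      rw [← h.sumY w hw hw1, Finset.mul_sum]
      exact Finset.sum_congr rfl (fun η hη => by rw [hbY η hη])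
    rw [h2, h3, Helper81.trivIrr_apply, h.val₂ w hw hw1] at h1
    have h4 : ((b (Helper81.trivIrr G) : ℤ) : ℂ) + (ε : ℂ) * ((b χ₂ : ℤ) : ℂ)
        = ((b η₀ : ℤ) : ℂ) * (v : ℂ) := by
      push_cast
      linear_combination -h1
    exact_mod_cast h4
  · rw [hdeg, sum_split h.ne_triv h.triv_nmem h.nmem, hd1]
    have h3 : ∑ η ∈ Y, b η * charDegree (η : G → ℂ)
        = b η₀ * (Y.card * charDegree (η₀ : G → ℂ)) := by
      rw [Finset.sum_congr rfl (fun η hη => by rw [hbY η hη, hdY η hη]), Finset.sum_const,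
        smul_eq_mul]
      ring
    rw [h3]
    ring
  · intro hR g
    have hb0 : ∀ χ ∈ O, b χ = 0 := by
      intro χ hχ
      have h1 := (Finset.sum_eq_zero_iff.mp hR) χ hχ
      rcases Nat.mul_eq_zero.mp h1 with h2 | h2
      · exact h2
      · exact absurd h2 (Helper81.charDegree_pos χ).ne'
    rw [hval g, sum_split h.ne_triv h.triv_nmem h.nmem]
    have h2 : ∑ χ ∈ O, (b χ : ℂ) * (χ : G → ℂ) g = 0 := by
      apply Finset.sum_eq_zero
      intro χ hχ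
      rw [hb0 χ hχ, Nat.cast_zero, zero_mul]
    have h3 : ∑ η ∈ Y, (b η : ℂ) * (η : G → ℂ) g = (b η₀ : ℂ) * ∑ η ∈ Y, (η : G → ℂ) g := by
      rw [Finset.mul_sum]
      exact Finset.sum_congr rfl (fun η hη => by rw [hbY η hη])
    rw [h2, h3, Helper81.trivIrr_apply]
    ring

end BrauerP

end Cfsg.Agent.Helper9
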