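import Mathlib
import Cfsg.Agent.Helper1.Hall
import Cfsg.Agent.Helper9.CLT

set_option autoImplicit false

namespace Cfsg.Agent.Helper9

open Subgroup

universe u

theorem ss_of_comm_aux (n : ℕ) : ∀ (A : Type u) [CommGroup A] [Finite A], Nat.card A = n →
    IsSupersolvable A := by
  induction n using Nat.strong_induction_on with
  | _ n ih =>
    intro A _ _ hn
    by_cases htriv : Subsingleton A
    · rw [isSupersolvable_iff]
      have : (⊤ : Subgroup A) = ⊥ := Subsingleton.elim _ _
      rw [this]; exact SS.bot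
    · rw [not_subsingleton_iff_nontrivial] at htriv
      obtain ⟨g, hg⟩ := exists_ne (1 : A)
      have hN : (zpowers g) ≠ ⊥ := by
        intro h
        exact hg (Subgroup.mem_bot.mp (h ▸ Subgroup.mem_zpowers g))
      have hlt : Nat.card (A ⧸ zpowers g) < n := by
        rw [← hn, Subgroup.card_eq_card_quotient_mul_card_subgroup (zpowers g)]
        exact lt_mul_of_one_lt_right Nat.card_pos ((Subgroup.one_lt_card_iff_ne_bot _).mpr hN)
      exact ss_of_cyclic_of_quotient (zpowers g) (ih _ hlt (A ⧸ zpowers g) rfl)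

theorem clt_of_comm {A : Type u} [CommGroup A] [Finite A] : HasSubgroupOfEveryOrder A :=
  clt_of_ss (ss_of_comm_aux _ A rfl)

/-- Arithmetic: a coprime factorization `g = m * n` with `m ∣ d` and `d / m ∣ a`. -/
theorem exists_hall_factorization (g a d : ℕ) (hg0 : g ≠ 0) (ha0 : a ≠ 0)
    (hexp : ∀ p : ℕ, p.Prime → p ∣ g → a.factorization p + 1 = g.factorization p)
    (hd : d ∣ g * a) :
    ∃ m n : ℕ, g = m * n ∧ m.Coprime n ∧ m ∣ d ∧ d / m ∣ a := by
  classical
  have hd0 : d ≠ 0 := by
    rintro rfl
    exact (Nat.mul_ne_zero hg0 ha0) (Nat.eq_zero_of_zero_dvd hd)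
  obtain ⟨fm, hfm_apply⟩ : ∃ fm : ℕ →₀ ℕ, ∀ p, fm p =
      if g.factorization p ≤ d.factorization p then g.factorization p else 0 :=
    ⟨g.factorization.filter (fun p => g.factorization p ≤ d.factorization p),
      fun p => Finsupp.filter_apply _ _ _⟩
  obtain ⟨fn, hfn_apply⟩ : ∃ fn : ℕ →₀ ℕ, ∀ p, fn p =
      if ¬ g.factorization p ≤ d.factorization p then g.factorization p else 0 :=
    ⟨g.factorization.filter (fun p => ¬ g.factorization p ≤ d.factorization p),
      fun p => Finsupp.filter_apply _ _ _⟩
  have hprime_of_ne : ∀ p, g.factorization p ≠ 0 → p.Prime := by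
    intro p hp
    by_contra hnp
    exact hp (Nat.factorization_eq_zero_of_not_prime g hnp)
  have hfm_prime : ∀ p ∈ fm.support, p.Prime := by
    intro p hp
    rw [Finsupp.mem_support_iff, hfm_apply] at hp
    apply hprime_of_ne
    intro h0
    rw [h0] at hp
    simp at hp
  have hfn_prime : ∀ p ∈ fn.support, p.Prime := by
    intro p hp
    rw [Finsupp.mem_support_iff, hfn_apply] at hp
    apply hprime_of_ne
    intro h0
    rw [h0] at hp
    simp at hp
  have hm_fact : (fm.prod (· ^ ·)).factorization = fm := Nat.prod_pow_factorization_eq_self hfm_prime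
  have hn_fact : (fn.prod (· ^ ·)).factorization = fn := Nat.prod_pow_factorization_eq_self hfn_prime
  have hm0 : fm.prod (· ^ ·) ≠ 0 := by
    rw [Finsupp.prod, Finset.prod_ne_zero_iff]
    intro p hp
    exact pow_ne_zero _ (hfm_prime p hp).ne_zero
  have hn0 : fn.prod (· ^ ·) ≠ 0 := by
    rw [Finsupp.prod, Finset.prod_ne_zero_iff]
    intro p hp
    exact pow_ne_zero _ (hfn_prime p hp).ne_zero
  refine ⟨fm.prod (· ^ ·), fn.prod (· ^ ·), ?_, ?_, ?_, ?_⟩
  · apply Nat.eq_of_factorization_eq hg0 (Nat.mul_ne_zero hm0 hn0)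
    intro p
    rw [Nat.factorization_mul hm0 hn0, hm_fact, hn_fact, Finsupp.add_apply, hfm_apply, hfn_apply]
    by_cases hc : g.factorization p ≤ d.factorization p
    · rw [if_pos hc, if_neg (not_not.mpr hc), add_zero]
    · rw [if_neg hc, if_pos hc, zero_add]
  · apply Nat.coprime_of_dvd
    intro p hp hpm hpn
    have h1 : (fm.prod (· ^ ·)).factorization p ≠ 0 :=
      (Nat.Prime.factorization_pos_of_dvd hp hm0 hpm).ne'
    have h2 : (fn.prod (· ^ ·)).factorization p ≠ 0 :=
      (Nat.Prime.factorization_pos_of_dvd hp hn0 hpn).ne'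
    rw [hm_fact, hfm_apply] at h1
    rw [hn_fact, hfn_apply] at h2
    by_cases hc : g.factorization p ≤ d.factorization p
    · rw [if_neg (not_not.mpr hc)] at h2
      exact h2 rfl
    · rw [if_neg hc] at h1
      exact h1 rfl
  · rw [← Nat.factorization_le_iff_dvd hm0 hd0, hm_fact]
    intro p
    rw [hfm_apply]
    split_ifs with h
    · exact h
    · exact Nat.zero_le _
  · have hmd : fm.prod (· ^ ·) ∣ d := by
      rw [← Nat.factorization_le_iff_dvd hm0 hd0, hm_fact]
      intro p
      rw [hfm_apply]
      split_ifs with h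
      · exact h
      · exact Nat.zero_le _
    have he0 : d / fm.prod (· ^ ·) ≠ 0 := by
      intro h
      have := Nat.div_mul_cancel hmd
      rw [h, zero_mul] at this
      exact hd0 this.symm
    rw [← Nat.factorization_le_iff_dvd he0 ha0, Nat.factorization_div hmd, hm_fact]
    intro p
    have hdle : d.factorization p ≤ g.factorization p + a.factorization p := by
      have := (Nat.factorization_le_iff_dvd hd0 (Nat.mul_ne_zero hg0 ha0)).mpr hd p
      rwa [Nat.factorization_mul hg0 ha0, Finsupp.add_apply] at this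
    rw [Finsupp.coe_tsub, Pi.sub_apply, hfm_apply]
    split_ifs with h
    · omega
    · have hpos : g.factorization p ≠ 0 := by omega
      have hpp : p.Prime := by
        by_contra hnp
        exact hpos (Nat.factorization_eq_zero_of_not_prime g hnp)
      have hpg : p ∣ g := Nat.dvd_of_factorization_pos hpos
      have := hexp p hpp hpg
      omega

/-- If `G` is solvable and `|A|` is obtained from `|G|` by lowering every prime exponent by one
(for the primes dividing `|G|`), then `G × A` has subgroups of all possible orders. -/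
theorem clt_prod_of_solvable {G A : Type*} [Group G] [CommGroup A] [Finite G] [Finite A]
    [Group.IsSolvable G]
    (hexp : ∀ p : ℕ, p.Prime → p ∣ Nat.card G →
      (Nat.card A).factorization p + 1 = (Nat.card G).factorization p) :
    HasSubgroupOfEveryOrder (G × A) := by
  intro d hd
  rw [Nat.card_prod] at hd
  obtain ⟨m, n, hmn, hcop, hmd, hea⟩ := exists_hall_factorization (Nat.card G) (Nat.card A) d
    Nat.card_pos.ne' Nat.card_pos.ne' hexp hd
  obtain ⟨H, hH⟩ := Cfsg.Agent.Helper1.hall_exists_aux _ G m n rfl hmn hcop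
  obtain ⟨B, hB⟩ := clt_of_comm (A := A) (d / m) hea
  refine ⟨H.prod B, ?_⟩
  rw [Nat.card_congr (Subgroup.prodEquiv H B).toEquiv, Nat.card_prod, hH, hB, Nat.mul_div_cancel' hmd]

end Cfsg.Agent.Helper9
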