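import Cfsg.Agent.Helper79.FrobSchur
import Cfsg.Agent.Helper3.Induced

set_option autoImplicit false
set_option linter.style.haveILetI false
set_option maxHeartbeats 1000000

/-!
# The exterior and symmetric squares of a character (helper9)

* `ExtSq.isCharacter_extSq`: for a character `χ` of a finite group,
  `g ↦ (χ g * χ g - χ (g * g)) / 2` is a character.
* `ExtSq.isCharacter_symSq`: so is `g ↦ (χ g * χ g + χ (g * g)) / 2`.

The proof lets `G × ℤˣ` act on `V ⊗ V` (the unit `-1` acting by the swap) and takes the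
multiplicities of `ξ × sign` resp. `ξ × 1`.
-/

namespace Cfsg.Agent.Helper9

namespace ExtSq

open Cfsg Representation

open scoped TensorProduct ComplexConjugate

universe u

variable {G : Type u} [Group G]

section Swap

variable {V : Type*} [AddCommGroup V] [Module ℂ V]

/-- the swap of `V ⊗ V`. -/
noncomputable def swapT (V : Type*) [AddCommGroup V] [Module ℂ V] : Module.End ℂ (V ⊗[ℂ] V) :=
  (TensorProduct.comm ℂ V V).toLinearMap

theorem swapT_mul_self : swapT V * swapT V = 1 := by
  apply TensorProduct.ext'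
  intro x y
  simp [swapT]

theorem swapT_comm (f : Module.End ℂ V) :
    swapT V * TensorProduct.map f f = TensorProduct.map f f * swapT V := by
  apply TensorProduct.ext'
  intro x y
  simp [swapT]

/-- the action of a unit of `ℤ` on `V ⊗ V`. -/
noncomputable def unitAct (V : Type*) [AddCommGroup V] [Module ℂ V] (u : ℤˣ) :
    Module.End ℂ (V ⊗[ℂ] V) :=
  if u = 1 then 1 else swapT V

theorem unitAct_one : unitAct V 1 = 1 := by simp [unitAct]

theorem unitAct_neg_one : unitAct V (-1) = swapT V := by
  have h : (-1 : ℤˣ) ≠ 1 := by decide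
  simp [unitAct, h]

theorem unitAct_mul (u w : ℤˣ) : unitAct V (u * w) = unitAct V u * unitAct V w := by
  rcases Int.units_eq_one_or u with rfl | rfl <;> rcases Int.units_eq_one_or w with rfl | rfl
  · simp [unitAct_one]
  · simp [unitAct_one]
  · simp [unitAct_one]
  · rw [show (-1 : ℤˣ) * (-1) = 1 by decide, unitAct_one, unitAct_neg_one, swapT_mul_self]

theorem unitAct_comm (u : ℤˣ) (f : Module.End ℂ V) :
    unitAct V u * TensorProduct.map f f = TensorProduct.map f f * unitAct V u := by
  rcases Int.units_eq_one_or u with rfl | rfl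
  · simp [unitAct_one]
  · rw [unitAct_neg_one, swapT_comm]

/-- the representation of `G × ℤˣ` on `V ⊗ V`. -/
noncomputable def sqRep (ρ : Representation ℂ G V) : Representation ℂ (G × ℤˣ) (V ⊗[ℂ] V) where
  toFun x := TensorProduct.map (ρ x.1) (ρ x.1) * unitAct V x.2
  map_one' := by
    simp [unitAct_one]
  map_mul' x y := by
    have h1 : TensorProduct.map (ρ (x.1 * y.1)) (ρ (x.1 * y.1))
        = TensorProduct.map (ρ x.1) (ρ x.1) * TensorProduct.map (ρ y.1) (ρ y.1) := by
      rw [map_mul]
      exact TensorProduct.map_comp _ _ _ _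
    show TensorProduct.map (ρ (x.1 * y.1)) (ρ (x.1 * y.1)) * unitAct V (x.2 * y.2)
      = (TensorProduct.map (ρ x.1) (ρ x.1) * unitAct V x.2)
        * (TensorProduct.map (ρ y.1) (ρ y.1) * unitAct V y.2)
    rw [h1, unitAct_mul]
    rw [mul_assoc, mul_assoc, ← mul_assoc (unitAct V x.2), ← mul_assoc (TensorProduct.map _ _)
      (unitAct V x.2), unitAct_comm]

theorem sqRep_apply (ρ : Representation ℂ G V) (x : G × ℤˣ) :
    sqRep ρ x = TensorProduct.map (ρ x.1) (ρ x.1) * unitAct V x.2 := rfl

variable [FiniteDimensional ℂ V]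

theorem sqRep_character_one (ρ : Representation ℂ G V) (g : G) :
    (sqRep ρ).character (g, 1) = ρ.character g * ρ.character g := by
  have h := congrFun (char_tensor ρ ρ) g
  rw [Pi.mul_apply] at h
  rw [← h]
  show LinearMap.trace ℂ _ (sqRep ρ (g, 1)) = LinearMap.trace ℂ _ ((ρ.tprod ρ) g)
  rw [sqRep_apply, unitAct_one, mul_one]
  rfl

theorem sqRep_character_neg_one (ρ : Representation ℂ G V) (g : G) :
    (sqRep ρ).character (g, -1) = ρ.character (g * g) := by
  show LinearMap.trace ℂ _ (sqRep ρ (g, -1)) = LinearMap.trace ℂ _ (ρ (g * g))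
  rw [sqRep_apply, unitAct_neg_one, ← swapT_comm]
  have h2 : ρ (g * g) = ρ g * ρ g := map_mul ρ g g
  rw [h2]
  exact Helper79.trace_comm_comp_map (ρ g)

end Swap

/-- the sign character of `ℤˣ`. -/
theorem isCharacter_unit : IsCharacter ℤˣ (fun u : ℤˣ => (((u : ℤ) : ℂ))) := by
  have h := Helper79.isCharacter_of_irr
    (Helper79.isIrrCharacter_of_hom (Units.map (Int.castRingHom ℂ).toMonoidHom))
  exact h

/-- the two multiplicities. -/
theorem classInner_sq [Fintype G] {V : Type*} [AddCommGroup V] [Module ℂ V]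
    [FiniteDimensional ℂ V] (ρ : Representation ℂ G V) {ξ : G → ℂ} (hξ : IsCharacter G ξ) :
    (∃ n : ℕ, classInner (fun g => (ρ.character g * ρ.character g - ρ.character (g * g)) / 2) ξ
      = (n : ℂ)) ∧
    (∃ n : ℕ, classInner (fun g => (ρ.character g * ρ.character g + ρ.character (g * g)) / 2) ξ
      = (n : ℂ)) := by
  classical
  have hΦ : IsCharacter (G × ℤˣ) (sqRep ρ).character := Helper79.isCharacter_of_rep _
  have hfst : IsCharacter (G × ℤˣ) (fun x => ξ x.1) :=
    Helper79.isCharacter_comp hξ (MonoidHom.fst G ℤˣ)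
  have hsnd : IsCharacter (G × ℤˣ) (fun x => (((x.2 : ℤˣ) : ℤ) : ℂ)) :=
    Helper79.isCharacter_comp isCharacter_unit (MonoidHom.snd G ℤˣ)
  have hcard : (Nat.card (G × ℤˣ) : ℂ) = 2 * (Nat.card G : ℂ) := by
    rw [Nat.card_prod]
    have : Nat.card ℤˣ = 2 := by
      rw [Nat.card_eq_fintype_card]
      rfl
    rw [this]
    push_cast
    ring
  have hG : (Nat.card G : ℂ) ≠ 0 := by exact_mod_cast Nat.card_pos.ne'
  have huniv : (Finset.univ : Finset ℤˣ) = {1, -1} := by decide
  constructor
  · obtain ⟨n, hn⟩ := Helper3.classInner_isCharacter_nat hΦ (Helper79.isCharacter_mul hfst hsnd)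
    refine ⟨n, ?_⟩
    rw [← hn]
    unfold classInner
    rw [hcard, Fintype.sum_prod_type, Finset.mul_sum, Finset.mul_sum]
    refine Finset.sum_congr rfl fun g _ => ?_
    rw [huniv, Finset.sum_pair (by decide)]
    simp only [Pi.mul_apply, sqRep_character_one, sqRep_character_neg_one, Units.val_one,
      Units.val_neg, Int.cast_one, Int.cast_neg, mul_one, map_mul, map_neg, map_one]
    field_simp
    ring
  · obtain ⟨n, hn⟩ := Helper3.classInner_isCharacter_nat hΦ hfst
    refine ⟨n, ?_⟩
    rw [← hn]
    unfold classInner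
    rw [hcard, Fintype.sum_prod_type, Finset.mul_sum, Finset.mul_sum]
    refine Finset.sum_congr rfl fun g _ => ?_
    rw [huniv, Finset.sum_pair (by decide)]
    simp only [sqRep_character_one, sqRep_character_neg_one]
    field_simp

/-- **The exterior square** of a character is a character. -/
theorem isCharacter_extSq [Finite G] {χ : G → ℂ} (h : IsCharacter G χ) :
    IsCharacter G (fun g => (χ g * χ g - χ (g * g)) / 2) := by
  classical
  haveI : Fintype G := Fintype.ofFinite G
  have hcl := Helper79.isCharacter_isClassFunction h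
  obtain ⟨n, ρ, rfl⟩ := h
  apply Helper3.isCharacter_of_classInner_nat
  · intro g x
    show (ρ.character (x * g * x⁻¹) * ρ.character (x * g * x⁻¹)
      - ρ.character (x * g * x⁻¹ * (x * g * x⁻¹))) / 2 = _
    rw [hcl g x, show x * g * x⁻¹ * (x * g * x⁻¹) = x * (g * g) * x⁻¹ by group, hcl (g * g) x]
  · intro ξ
    exact (classInner_sq ρ (Helper79.irr_isCharacter ξ)).1

/-- **The symmetric square** of a character is a character. -/
theorem isCharacter_symSq [Finite G] {χ : G → ℂ} (h : IsCharacter G χ) :
    IsCharacter G (fun g => (χ g * χ g + χ (g * g)) / 2) := by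
  classical
  haveI : Fintype G := Fintype.ofFinite G
  have hcl := Helper79.isCharacter_isClassFunction h
  obtain ⟨n, ρ, rfl⟩ := h
  apply Helper3.isCharacter_of_classInner_nat
  · intro g x
    show (ρ.character (x * g * x⁻¹) * ρ.character (x * g * x⁻¹)
      + ρ.character (x * g * x⁻¹ * (x * g * x⁻¹))) / 2 = _
    rw [hcl g x, show x * g * x⁻¹ * (x * g * x⁻¹) = x * (g * g) * x⁻¹ by group, hcl (g * g) x]
  · intro ξ
    exact (classInner_sq ρ (Helper79.irr_isCharacter ξ)).2

end ExtSq

end Cfsg.Agent.Helper9
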