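import Mathlib
import Cfsg.Prelude.Def_Characters
import Cfsg.Prelude.Def_Blocks
import Cfsg.Prelude.Def_Local
import Cfsg.Agent.Helper15.FTLemmaD
import Cfsg.Agent.Helper15.BergerB1
import Cfsg.Agent.Helper76.ItoE
import Cfsg.Agent.Helper76.BlichC
import Cfsg.Agent.Helper79.Basic
import Cfsg.Agent.Helper79.Codegree
import Cfsg.Agent.Helper80.FTBTRANS
import Cfsg.Agent.Helper80.FTBMIN1
import Cfsg.Agent.Helper80.FTBMIN2
import Cfsg.Agent.Helper80.FTBF3
import Cfsg.Agent.Helper80.FTBF2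
import Cfsg.Agent.Helper51.FTBA1
import Cfsg.Agent.Helper70.FTBLIN
import Cfsg.Agent.Helper73.FTBTR
import Cfsg.Agent.Helper73.FTBB2b
import Cfsg.Agent.Helper73.FTBB2c
import Cfsg.Agent.Helper73.FTBB2d
import Cfsg.Agent.Helper73.FTBB2e

set_option autoImplicit false

namespace Cfsg.Agent.Helper9

open Cfsg
open scoped commutatorElement

universe u

variable {G : Type u} [Group G] [Finite G] {p : ℕ} [Fact p.Prime]

/-- ABEL: a faithful character of degree `< p` forces abelian Sylow `p`-subgroups. -/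
theorem ftb_ABEL (χ : G → ℂ) (hχ : IsCharacter G χ) (hfaith : ∀ g : G, χ g = χ 1 → g = 1)
    (hdeg : charDegree χ < p) (P : Sylow p G) :
    ∀ a ∈ (P : Subgroup G), ∀ b ∈ (P : Subgroup G), a * b = b * a := by
  have hp : p.Prime := Fact.out
  have hPab : ∀ a b : (P : Subgroup G), a * b = b * a := by
    apply Helper76.blich_pgroup_abelian p hp P.isPGroup' (fun y : (P : Subgroup G) => χ y)
      (Helper79.isCharacter_restrict hχ P)
    · intro g hg
      exact Subtype.ext (hfaith _ hg)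
    · show charDegree χ < p
      exact hdeg
  intro a ha b hb
  exact congrArg Subtype.val (hPab ⟨a, ha⟩ ⟨b, hb⟩)

/-- B2: under minimality, with abelian Sylows, a non-normal Sylow `p`-subgroup meeting the
centre nontrivially forces `G` to be `p`-solvable. -/
theorem ftb_B2
    (hmin : ∀ K : Subgroup G, K ≠ ⊤ → ∀ Q : Sylow p K, (Q : Subgroup K).Normal)
    (hab : ∀ P : Sylow p G, ∀ a ∈ (P : Subgroup G), ∀ b ∈ (P : Subgroup G), a * b = b * a)
    (P : Sylow p G) (hP : ¬ (P : Subgroup G).Normal)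
    (hZ : (P : Subgroup G) ⊓ Subgroup.center G ≠ ⊥) : IsPSolvable p G := by
  have hmin1 : ∀ K : Subgroup G, K ≠ ⊤ → ∀ P₁ P₂ : Sylow p G,
      (P₁ : Subgroup G) ≤ K → (P₂ : Subgroup G) ≤ K → P₁ = P₂ :=
    fun K hK P₁ P₂ h1 h2 => Helper80.ftb_MIN1 hmin K hK P₁ P₂ h1 h2
  have hmin2 : ∀ K : Subgroup G, K ≠ ⊤ → ∀ (P₁ P₂ : Sylow p G) (x y : G), x ∈ K → y ∈ K →
      x ∈ (P₁ : Subgroup G) → y ∈ (P₂ : Subgroup G) →
      ∃ P₀ : Sylow p G, x ∈ (P₀ : Subgroup G) ∧ y ∈ (P₀ : Subgroup G) :=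
    fun K hK P₁ P₂ x y hxK hyK hx hy => Helper80.ftb_MIN2 hmin K hK P₁ P₂ x y hxK hyK hx hy
  have hf2 : ∀ P₁ P₂ : Sylow p G, P₁ ≠ P₂ → ∀ x : G, x ∈ (P₁ : Subgroup G) →
      x ∈ (P₂ : Subgroup G) → x ∈ Subgroup.center G :=
    fun P₁ P₂ hne x h1 h2 => Helper80.ftb_F2 hmin1 hab P₁ P₂ hne x h1 h2
  have htr : ∀ z : G, z ∈ (P : Subgroup G) → z ∈ Subgroup.center G → z ∈ commutator G → z = 1 :=
    fun z hzP hzZ hzC => Helper73.ftb_TR P (hab P) z hzP hzZ hzC
  have hC : commutator G ≠ ⊤ := by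
    intro hC
    obtain ⟨z, hz⟩ := (Subgroup.ne_bot_iff_exists_ne_one).1 hZ
    apply hz
    have hz' := z.2
    rw [Subgroup.mem_inf] at hz'
    have := htr z hz'.1 hz'.2 (by rw [hC]; exact Subgroup.mem_top _)
    exact Subtype.ext this
  have hb : ∀ x : G, x ∈ (P : Subgroup G) → x ∈ commutator G → x = 1 :=
    fun x hxP hxC => Helper73.ftb_B2b hmin2 hf2 P htr hP hC x hxP hxC
  have hc := Helper73.ftb_B2c P hb
  have hsup : commutator G ⊔ (P : Subgroup G) = ⊤ := by
    apply Helper80.ftb_F3 hmin1 P hP _ ?_ le_sup_right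
    refine ⟨fun x hx g => ?_⟩
    have h1 : g * x * g⁻¹ = ⁅g, x⁆ * x := by
      rw [commutatorElement_def]; group
    rw [h1]
    refine mul_mem (le_sup_left (a := commutator G) ?_) hx
    rw [commutator_def]
    exact Subgroup.commutator_mem_commutator (Subgroup.mem_top g) (Subgroup.mem_top x)
  exact Helper73.ftb_B2e hc (Helper73.ftb_B2d P hsup)

/-- The core: a minimal counterexample does not exist. -/
theorem ftb_core (χ : G → ℂ) (hχ : IsCharacter G χ) (hfaith : ∀ g : G, χ g = χ 1 → g = 1)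
    (n : ℕ) (hn : charDegree χ = n) (hnp : n + 1 < p)
    (hmin : ∀ K : Subgroup G, K ≠ ⊤ → ∀ Q : Sylow p K, (Q : Subgroup K).Normal)
    (P : Sylow p G) (hbig : (n + 1) ^ 2 ≤ Nat.card (P : Subgroup G)) :
    (P : Subgroup G).Normal := by
  classical
  by_contra hP
  have hp : p.Prime := Fact.out
  have hab : ∀ P : Sylow p G, ∀ a ∈ (P : Subgroup G), ∀ b ∈ (P : Subgroup G), a * b = b * a :=
    fun P => ftb_ABEL χ hχ hfaith (by omega) P
  have hmin1 : ∀ K : Subgroup G, K ≠ ⊤ → ∀ P₁ P₂ : Sylow p G,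
      (P₁ : Subgroup G) ≤ K → (P₂ : Subgroup G) ≤ K → P₁ = P₂ :=
    fun K hK P₁ P₂ h1 h2 => Helper80.ftb_MIN1 hmin K hK P₁ P₂ h1 h2
  have hmin2 : ∀ K : Subgroup G, K ≠ ⊤ → ∀ (P₁ P₂ : Sylow p G) (x y : G), x ∈ K → y ∈ K →
      x ∈ (P₁ : Subgroup G) → y ∈ (P₂ : Subgroup G) →
      ∃ P₀ : Sylow p G, x ∈ (P₀ : Subgroup G) ∧ y ∈ (P₀ : Subgroup G) :=
    fun K hK P₁ P₂ x y hxK hyK hx hy => Helper80.ftb_MIN2 hmin K hK P₁ P₂ x y hxK hyK hx hy
  have hf2 : ∀ P₁ P₂ : Sylow p G, P₁ ≠ P₂ → ∀ x : G, x ∈ (P₁ : Subgroup G) →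
      x ∈ (P₂ : Subgroup G) → x ∈ Subgroup.center G :=
    fun P₁ P₂ hne x h1 h2 => Helper80.ftb_F2 hmin1 hab P₁ P₂ hne x h1 h2
  by_cases hZ : (P : Subgroup G) ⊓ Subgroup.center G = ⊥
  · let _ : Fintype G := Fintype.ofFinite G
    let _ : Fintype (P : Subgroup G) := Fintype.ofFinite _
    have hone := Helper51.ftb_A1 hmin2 hf2 P hZ
    have hnorm : ∀ M : Subgroup G, M.Normal → (P : Subgroup G) ≤ M → M = ⊤ :=
      fun M hM hPM => Helper80.ftb_F3 hmin1 P hP M hM hPM
    have hlin : ∀ ψ : G → ℂ, IsIrrCharacter G ψ → classInner χ ψ ≠ 0 → ψ 1 = 1 := by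
      intro ψ hψ hne
      by_contra h1
      have h2 := Helper15.ft_second (P : Subgroup G) (hab P) hZ hone ψ hψ h1 hnorm
      have h3 := Helper15.charDegree_le_of_constituent χ hχ ψ hψ hne
      have h4 : (ψ 1).re = (charDegree ψ : ℝ) := by
        rw [Helper80.isCharacter_one_eq (Helper15.isChar_of_irr hψ)]; simp
      rw [h4] at h2
      have h5 : (Nat.card (P : Subgroup G) : ℝ) < ((1 + charDegree ψ : ℕ) : ℝ) ^ 2 := by
        push_cast; exact h2
      have h6 : Nat.card (P : Subgroup G) < (1 + charDegree ψ) ^ 2 := by exact_mod_cast h5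
      have h7 : (1 + charDegree ψ) ^ 2 ≤ (n + 1) ^ 2 := Nat.pow_le_pow_left (by omega) 2
      omega
    have hcomm := Helper70.ftb_LIN χ hχ hfaith hlin
    exact hP ⟨fun x hx g => by rw [hcomm g x, mul_inv_cancel_right]; exact hx⟩
  · have hsolv := ftb_B2 hmin hab P hP hZ
    have := Helper76.ito_main χ hχ hfaith n hn p hp hsolv (by omega) P hP
    omega

/-- The induction. -/
theorem ftb_induct (p : ℕ) [Fact p.Prime] : ∀ (N : ℕ) (G : Type u) [Group G] [Finite G],
    Nat.card G = N → ∀ (χ : G → ℂ), IsCharacter G χ → (∀ g : G, χ g = χ 1 → g = 1) →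
    ∀ n : ℕ, charDegree χ = n →
    ((n + 1) ^ 2 ≤ p ∨ (n + 1 < p ∧ ∀ K : Subgroup G, ¬ p ^ 2 ∣ Nat.card K →
      ∀ Q : Sylow p K, (Q : Subgroup K).Normal)) →
    ∀ P : Sylow p G, (P : Subgroup G).Normal := by
  intro N
  induction N using Nat.strong_induction_on with
  | _ N ih =>
  intro G _ _ hN χ hχ hfaith n hn h P
  have hp : p.Prime := Fact.out
  have hnp : n + 1 < p := by
    rcases h with h | h
    · by_contra hc
      have h1 : p ≤ n + 1 := by omega
      have h2 : p * p ≤ (n + 1) ^ 2 := by rw [sq]; exact Nat.mul_le_mul h1 h1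
      have h3 : 2 ≤ p := hp.two_le
      nlinarith
    · exact h.1
  have hmin : ∀ K : Subgroup G, K ≠ ⊤ → ∀ Q : Sylow p K, (Q : Subgroup K).Normal := by
    intro K hK Q
    have hlt : Nat.card K < N := by
      rw [← hN]
      exact lt_of_le_of_ne (Subgroup.card_le_card_group K)
        (fun h => hK (Subgroup.eq_top_of_card_eq K h))
    refine ih (Nat.card K) hlt K rfl (fun k : K => χ k)
      (Helper79.isCharacter_restrict hχ K) ?_ n ?_ ?_ Q
    · intro k hk
      exact Subtype.ext (hfaith k (by simpa using hk))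
    · rw [← hn]; simp [charDegree]
    · rcases h with h | h
      · exact Or.inl h
      · refine Or.inr ⟨h.1, ?_⟩
        intro K' hK' Q'
        have e := Subgroup.equivMapOfInjective K' K.subtype (Subgroup.subtype_injective K)
        have hcard : Nat.card (K'.map K.subtype) = Nat.card K' := Nat.card_congr e.symm.toEquiv
        exact Helper80.ftb_TRANS e.symm p (h.2 (K'.map K.subtype) (by rw [hcard]; exact hK')) Q'
  by_cases hbot : (P : Subgroup G) = ⊥
  · rw [hbot]; infer_instance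
  rcases h with h | h
  · apply ftb_core χ hχ hfaith n hn hnp hmin P
    obtain ⟨k, hk⟩ := IsPGroup.iff_card.1 P.2
    have hk0 : k ≠ 0 := by
      rintro rfl
      exact hbot (Subgroup.eq_bot_of_card_eq _ (by simpa using hk))
    have : p ∣ Nat.card (P : Subgroup G) := by rw [hk]; exact dvd_pow_self p hk0
    exact h.trans (Nat.le_of_dvd Nat.card_pos this)
  · by_cases hp2 : p ^ 2 ∣ Nat.card G
    · apply ftb_core χ hχ hfaith n hn hnp hmin P
      have h1 : 2 ≤ (Nat.card G).factorization p :=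
        (Nat.Prime.pow_dvd_iff_le_factorization hp (Nat.card_pos.ne')).1 hp2
      have h2 : p ^ 2 ∣ Nat.card (P : Subgroup G) := by
        rw [Sylow.card_eq_multiplicity]; exact pow_dvd_pow p h1
      have h3 := Nat.le_of_dvd Nat.card_pos h2
      have h4 : (n + 1) ^ 2 ≤ p ^ 2 := Nat.pow_le_pow_left hnp.le 2
      omega
    · have h2 := h.2 ⊤ (by rwa [Subgroup.card_top])
      exact Helper80.ftb_TRANS Subgroup.topEquiv p h2 P

/-- From the representation to the character. -/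
theorem ftb_REP (n : ℕ) (ρ : Representation ℂ G (Fin n → ℂ)) (hρ : Function.Injective ρ) :
    IsCharacter G ρ.character ∧ (∀ g : G, ρ.character g = ρ.character 1 → g = 1) ∧
      charDegree ρ.character = n := by
  refine ⟨⟨n, ρ, rfl⟩, fun g hg => ?_, ?_⟩
  · have h1 := Helper79.rep_eq_one_of_char_eq ρ g hg
    exact hρ (by rw [h1, map_one])
  · unfold charDegree
    rw [Representation.char_one]
    simp

end Cfsg.Agent.Helper9
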