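import Cfsg.Agent.Helper9.BrauerP3
import Cfsg.Agent.Helper3.TwoTrans
import Cfsg.Agent.Helper3.ZassInd

set_option autoImplicit false
set_option linter.style.haveILetI false
set_option maxHeartbeats 1000000

/-!
# Transitive groups of prime degree `p` with `|N(P)| = 2p` (helper9), part 1

`G` a finite simple group acting transitively on `p` points, `p ≥ 5` a prime, with Brauer's data
`BrauerP.TwoData`.

* `PrimeDeg.isCharacter_perm`, `PrimeDeg.sum_perm`, `PrimeDeg.sum_perm_sq`: the permutation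
  character.
* `PrimeDeg.two_trans_data`: the permutation character is `1 + χ₂`; `χ₂` has degree `p - 1`, the
  exceptional characters have degree `p - 2`, and `ε = v = -1`.
-/

namespace Cfsg.Agent.Helper9

namespace PrimeDeg

open Subgroup Cfsg MulAction

open scoped ComplexConjugate

universe u

variable {G : Type u} [Group G] {α : Type*} [MulAction G α]

/-- the permutation character of a transitive action is a character. -/
theorem isCharacter_perm [Fintype G] [Finite α] [IsPretransitive G α] [Nonempty α] :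
    IsCharacter G (fun g => (Nat.card (fixedBy α g) : ℂ)) := by
  classical
  obtain ⟨x₀⟩ := ‹Nonempty α›
  have h := Helper3.isCharacter_indFun (stabilizer G x₀) (fun _ => (1 : ℂ))
    Helper79.isCharacter_one
  have e : (fun g => (Nat.card (fixedBy α g) : ℂ))
      = indFun (stabilizer G x₀) (fun _ => (1 : ℂ)) := by
    funext g
    rw [Helper15.indFun_stabilizer_one_apply]
    congr 1
    apply Nat.card_congr
    apply Equiv.subtypeEquivRight
    intro z
    simp [mem_fixedBy, orbit_eq_univ]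
  rw [e]
  exact h

/-- Burnside's lemma for a transitive action. -/
theorem sum_perm [Fintype G] [Finite α] [IsPretransitive G α] [Nonempty α] :
    ∑ g : G, (Nat.card (fixedBy α g) : ℂ) = (Nat.card G : ℂ) := by
  have h := Helper3.sum_natCard_fixedBy G α
  have h1 : Nat.card (orbitRel.Quotient G α) = 1 := by
    obtain ⟨x₀⟩ := ‹Nonempty α›
    have hsub : Subsingleton (orbitRel.Quotient G α) :=
      (MulAction.pretransitive_iff_subsingleton_quotient G α).mp inferInstance
    have hne : Nonempty (orbitRel.Quotient G α) := ⟨Quotient.mk'' x₀⟩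
    exact Nat.card_eq_one_iff_unique.mpr ⟨hsub, hne⟩
  rw [h1, one_mul] at h
  exact_mod_cast h

/-- Burnside's lemma for a doubly transitive action. -/
theorem sum_perm_sq [Fintype G] [Finite α] (h2 : IsMultiplyPretransitive G α 2)
    (hα : 2 ≤ Nat.card α) :
    ∑ g : G, (Nat.card (fixedBy α g) : ℂ) * (Nat.card (fixedBy α g) : ℂ)
      = 2 * (Nat.card G : ℂ) := by
  have h := Helper3.sum_natCard_fixedBy G (α × α)
  simp only [Helper3.card_fixedBy_prod] at h
  rw [Helper3.card_orbits_of_two_pretransitive hα h2] at h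
  exact_mod_cast h

/-- the permutation character is `1 + χ₂`, and the degrees of Brauer's characters. -/
theorem two_trans_data [Finite G] [IsSimpleGroup G] [Fintype α] [IsPretransitive G α]
    {p : ℕ} [Fact p.Prime] (hα : Fintype.card α = p) (hp5 : 5 ≤ p) (P : Sylow p G)
    (hP : Nat.card (P : Subgroup G) = p) (hlt : p < Nat.card G)
    (hfix0 : ∀ g : G, p ∣ orderOf g → Nat.card (fixedBy α g) = 0)
    {χ₂ η₀ : IrrCharacter G} {Y : Finset (IrrCharacter G)} {ε v : ℤ}
    (h : BrauerP.TwoData p P χ₂ η₀ Y ε v) :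
    ε = -1 ∧ v = -1 ∧ charDegree (χ₂ : G → ℂ) = p - 1 ∧ charDegree (η₀ : G → ℂ) = p - 2 ∧
      ∀ g : G, (χ₂ : G → ℂ) g = (Nat.card (fixedBy α g) : ℂ) - 1 := by
  classical
  have hp : p.Prime := Fact.out
  haveI : Fintype G := Fintype.ofFinite G
  haveI : Nonempty α := by
    rw [← Fintype.card_pos_iff, hα]
    exact hp.pos
  have hna := BrauerP.exists_not_comm P (by rw [hP]; exact hp.one_lt) (by rw [hP]; exact hlt)
  have hf2 : 2 ≤ charDegree (χ₂ : G → ℂ) := BrauerP.two_le_charDegree hna χ₂ h.ne_triv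
  have hπ : IsCharacter G (fun g => (Nat.card (fixedBy α g) : ℂ)) := isCharacter_perm
  obtain ⟨n₁, n₂, c, R, h1, h2, h3, hE1, hdeg, hR⟩ :=
    h.decomp hP hπ (fun g hg => by
      show ((Nat.card (fixedBy α g) : ℕ) : ℂ) = 0
      rw [hfix0 g hg, Nat.cast_zero])
  have hn1 : n₁ = 1 := by
    have h4 : classInner (fun g : G => (Nat.card (fixedBy α g) : ℂ))
        (Helper81.trivIrr G : G → ℂ)
        = 1 := by
      unfold classInner
      simp only [Helper81.trivIrr_apply, map_one, mul_one]
      rw [sum_perm (G := G) (α := α)]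
      exact inv_mul_cancel₀ (by exact_mod_cast Nat.card_pos.ne')
    rw [h4] at h1
    exact_mod_cast h1.symm
  have hdegπ : charDegree (fun g : G => (Nat.card (fixedBy α g) : ℂ)) = p := by
    have h4 := Helper79.isCharacter_one_eq_charDegree hπ
    have h5 : Nat.card (fixedBy α (1 : G)) = p := by
      rw [← hα, ← Nat.card_eq_fintype_card]
      apply Nat.card_congr
      exact (Equiv.subtypeUnivEquiv (fun a => by simp [mem_fixedBy]))
    simp only [h5] at h4
    exact_mod_cast h4.symm
  have hreg1 : ¬ p ∣ orderOf (1 : G) := by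
    rw [orderOf_one]
    exact hp.one_lt.ne' ∘ Nat.dvd_one.mp
  have hrel := h.rel 1 hreg1
  rw [Helper81.irr_one_eq_charDegree, Helper81.irr_one_eq_charDegree] at hrel
  have hrelZ : v * (charDegree (η₀ : G → ℂ) : ℤ) = 1 + ε * (charDegree (χ₂ : G → ℂ) : ℤ) := by
    exact_mod_cast hrel
  haveI : Fintype (P : Subgroup G) := Fintype.ofFinite _
  obtain ⟨n, hn⟩ := Helper81.exists_linMult χ₂ (P : Subgroup G).subtype
    (1 : (P : Subgroup G) →* ℂˣ)
  have hsumP : ∑ q : (P : Subgroup G), (χ₂ : G → ℂ) ((P : Subgroup G).subtype q)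
      * conj (((1 : (P : Subgroup G) →* ℂˣ) q : ℂˣ) : ℂ)
      = (charDegree (χ₂ : G → ℂ) : ℂ) + ((p : ℂ) - 1) * (ε : ℂ) := by
    simp only [MonoidHom.one_apply, Units.val_one, map_one, mul_one, Subgroup.coe_subtype]
    rw [← Finset.add_sum_erase Finset.univ _ (Finset.mem_univ (1 : (P : Subgroup G))),
      Subgroup.coe_one, Helper81.irr_one_eq_charDegree]
    congr 1
    rw [Finset.sum_congr rfl (fun q hq => h.val₂ q.1 q.2
      (fun h' => (Finset.mem_erase.mp hq).1 (Subtype.ext h'))),
      Finset.sum_const, Finset.card_erase_of_mem (Finset.mem_univ _), Finset.card_univ,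
      ← Nat.card_eq_fintype_card, hP, nsmul_eq_mul, Nat.cast_sub hp.one_lt.le, Nat.cast_one]
  rw [hsumP, ← Nat.card_eq_fintype_card, hP] at hn
  have hnZ : (charDegree (χ₂ : G → ℂ) : ℤ) + ((p : ℤ) - 1) * ε = (p : ℤ) * n := by
    exact_mod_cast hn
  have hcard := h.card
  rw [hdegπ, hn1] at hdeg
  rw [hn1] at hE1
  have hpn : (0 : ℤ) ≤ (p : ℤ) * n := by positivity
  obtain ⟨f, hf⟩ : ∃ f, f = charDegree (χ₂ : G → ℂ) := ⟨_, rfl⟩
  obtain ⟨D, hD⟩ : ∃ D, D = charDegree (η₀ : G → ℂ) := ⟨_, rfl⟩
  obtain ⟨r, hr⟩ : ∃ r, r = Y.card := ⟨_, rfl⟩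
  rw [← hf] at hf2 hnZ hrelZ hdeg
  rw [← hD] at hrelZ hdeg
  rw [← hr] at hcard hdeg
  have key : ε = -1 ∧ v = -1 ∧ f = p - 1 ∧ D = p - 2 ∧ n₂ = 1 ∧ c = 0 ∧ R = 0 := by
    rcases h.eps with he | he <;> rcases h.sgn with hv | hv
    · exfalso
      rw [he, hv] at hrelZ
      rw [he, hv] at hE1
      have hc1 : 1 ≤ c := by omega
      have hD3 : 3 ≤ D := by omega
      have h4 : r * 3 ≤ c * (r * D) :=
        calc r * 3 ≤ r * D := Nat.mul_le_mul_left r hD3
          _ = 1 * (r * D) := (one_mul _).symm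
          _ ≤ c * (r * D) := Nat.mul_le_mul_right _ hc1
      omega
    · exfalso
      rw [he, hv] at hE1
      omega
    · exfalso
      rw [he, hv] at hrelZ
      omega
    · rw [he, hv] at hrelZ
      rw [he, hv] at hE1
      rw [he] at hnZ
      have hn2 : n₂ = c + 1 := by omega
      have hfD : f = D + 1 := by omega
      have hfp : p - 1 ≤ f := by omega
      by_cases hc : c = 0
      · subst hc
        subst hn2
        rw [zero_mul, zero_add, one_mul, add_zero] at hdeg
        refine ⟨he, hv, ?_, ?_, rfl, rfl, ?_⟩ <;> omega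
      · exfalso
        have h4 : 2 * f ≤ n₂ * f := Nat.mul_le_mul_right f (by omega)
        omega
  obtain ⟨he, hv, hf1, hD1, hn2, hc, hR0⟩ := key
  refine ⟨he, hv, hf ▸ hf1, hD ▸ hD1, ?_⟩
  intro g
  have h4 := hR hR0 g
  rw [hn1, hn2, hc] at h4
  simp only [Nat.cast_one, one_mul, Nat.cast_zero, zero_mul, add_zero] at h4
  rw [h4]
  ring

end PrimeDeg

end Cfsg.Agent.Helper9
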