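import Cfsg.Agent.Helper3.TwoTrans
import Cfsg.Agent.Helper3.ZassInd
import Cfsg.Agent.Helper79.Induced

set_option autoImplicit false
set_option linter.style.haveILetI false
set_option maxHeartbeats 1000000

/-!
# The sign character of the stabilizer of a pair, induced (helper9)

For a doubly transitive action of `G` on `α`, let `S` be the setwise stabilizer of a pair
`{a, b}` and `ε : S → {±1}` the sign of the action on `{a, b}`.  The induced character
`Ψ = ε^G` (the character of the exterior square of the permutation module) is a character with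

* `⟨Ψ, 1⟩ = 0` and `⟨Ψ, π - 1⟩ ≥ 1`;
* `Ψ(1) ≤ n (n - 1) / 2`;
* `Ψ(g) = 0` if `g²` has no fixed point;
* `Ψ(g) ≤ k (k - 1) / 2` if `g` has `k` fixed points.

(`PrimeDeg.exists_sign_char`.)
-/

namespace Cfsg.Agent.Helper9

namespace PrimeDeg

open Subgroup Cfsg MulAction

open scoped ComplexConjugate

universe u

variable {G : Type u} [Group G] {α : Type*} [MulAction G α]

/-- the setwise stabilizer of the pair `{a, b}`. -/
def pairStab (a b : α) : Subgroup G where
  carrier := {g | (g • a = a ∧ g • b = b) ∨ (g • a = b ∧ g • b = a)}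
  mul_mem' := by
    rintro x y (⟨hx1, hx2⟩ | ⟨hx1, hx2⟩) (⟨hy1, hy2⟩ | ⟨hy1, hy2⟩)
    · left; rw [mul_smul, mul_smul, hy1, hy2]; exact ⟨hx1, hx2⟩
    · right; rw [mul_smul, mul_smul, hy1, hy2]; exact ⟨hx2, hx1⟩
    · right; rw [mul_smul, mul_smul, hy1, hy2]; exact ⟨hx1, hx2⟩
    · left; rw [mul_smul, mul_smul, hy1, hy2]; exact ⟨hx2, hx1⟩
  one_mem' := Or.inl ⟨one_smul _ _, one_smul _ _⟩
  inv_mem' := by
    rintro x (⟨hx1, hx2⟩ | ⟨hx1, hx2⟩)
    · left; exact ⟨by rw [inv_smul_eq_iff, hx1], by rw [inv_smul_eq_iff, hx2]⟩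
    · right; exact ⟨by rw [inv_smul_eq_iff, hx2], by rw [inv_smul_eq_iff, hx1]⟩

theorem mem_pairStab {a b : α} {g : G} :
    g ∈ pairStab (G := G) a b ↔ (g • a = a ∧ g • b = b) ∨ (g • a = b ∧ g • b = a) := Iff.rfl

/-- the sign of the action of the stabilizer of `{a, b}` on `{a, b}`. -/
noncomputable def pairSign [DecidableEq α] (a b : α) (hab : a ≠ b) :
    (pairStab (G := G) a b) →* ℂˣ :=
  MonoidHom.mk' (fun s => if (s : G) • a = a then 1 else -1) (by
    intro x y
    obtain ⟨hx1, hx2⟩ | ⟨hx1, hx2⟩ := mem_pairStab.mp x.2 <;>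
      obtain ⟨hy1, hy2⟩ | ⟨hy1, hy2⟩ := mem_pairStab.mp y.2
    · simp [mul_smul, hx1, hy1]
    · simp [mul_smul, hx1, hx2, hy1, hab.symm]
    · simp [mul_smul, hx1, hy1, hab.symm]
    · simp [mul_smul, hx1, hx2, hy1, hab.symm])

theorem pairSign_apply [DecidableEq α] (a b : α) (hab : a ≠ b) (s : pairStab (G := G) a b) :
    ((pairSign a b hab s : ℂˣ) : ℂ) = if (s : G) • a = a then 1 else -1 := by
  simp only [pairSign, MonoidHom.mk'_apply]
  split_ifs <;> simp

/-- the number of elements fixing a pair of fixed points. -/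
theorem card_fix_pair_le [Fintype G] [Fintype α] [DecidableEq α] (a b : α) (hab : a ≠ b)
    (g : G) :
    Nat.card {y : G // g • (y • ((a, b) : α × α)) = y • ((a, b) : α × α)}
      ≤ Nat.card (stabilizer G ((a, b) : α × α))
        * (Nat.card (fixedBy α g) * (Nat.card (fixedBy α g) - 1)) := by
  classical
  rw [Helper15.card_smul_fixed]
  apply Nat.mul_le_mul_left
  set F : Finset α := Finset.univ.filter (fun c => g • c = c) with hF
  have hk : Nat.card (fixedBy α g) = F.card := by
    rw [Nat.card_eq_fintype_card, Fintype.card_subtype, hF]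
    congr 1
  rw [hk, Nat.mul_sub_one, ← Finset.offDiag_card, Nat.card_eq_fintype_card,
    Fintype.card_subtype]
  apply Finset.card_le_card
  intro z hz
  rw [Finset.mem_filter] at hz
  obtain ⟨-, ⟨y, hy⟩, hgz⟩ := hz
  rw [Finset.mem_offDiag, hF, Finset.mem_filter, Finset.mem_filter]
  refine ⟨⟨Finset.mem_univ _, congrArg Prod.fst hgz⟩, ⟨Finset.mem_univ _, congrArg Prod.snd hgz⟩,
    ?_⟩
  have h1 : y • a = z.1 := congrArg Prod.fst hy
  have h2 : y • b = z.2 := congrArg Prod.snd hy
  rw [← h1, ← h2]
  exact fun h => hab (smul_left_cancel y h)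

section

variable [Fintype G] [Fintype α] [DecidableEq α] {a b : α}

omit [Fintype G] [Fintype α] in
theorem sum_pairSign (hab : a ≠ b) [Fintype (pairStab (G := G) a b)] {τ : G} (hτ1 : τ • a = b)
    (hτ2 : τ • b = a) :
    ∑ s : pairStab (G := G) a b, ((pairSign a b hab s : ℂˣ) : ℂ) = 0 := by
  apply Helper3.sum_hom_units_eq_zero
  refine ⟨⟨τ, Or.inr ⟨hτ1, hτ2⟩⟩, ?_⟩
  intro h
  have h1 := congrArg Units.val h
  rw [pairSign_apply, Units.val_one] at h1
  simp only [hτ1, hab.symm, if_false] at h1
  norm_num at h1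

omit [Fintype G] [Fintype α] in
theorem card_pairStab (hab : a ≠ b) [Fintype (pairStab (G := G) a b)] {τ : G}
    (hτ1 : τ • a = b) (hτ2 : τ • b = a) :
    Nat.card (pairStab (G := G) a b) = 2 * Nat.card (stabilizer G ((a, b) : α × α)) ∧
    (Finset.univ.filter (fun s : pairStab (G := G) a b => (s : G) • a = a)).card
      = Nat.card (stabilizer G ((a, b) : α × α)) := by
  classical
  have h0 := sum_pairSign hab hτ1 hτ2
  simp only [pairSign_apply] at h0
  rw [Finset.sum_ite, Finset.sum_const, Finset.sum_const, nsmul_eq_mul, nsmul_eq_mul,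
    mul_one] at h0
  have h1 := Finset.card_filter_add_card_filter_not
    (s := (Finset.univ : Finset (pairStab (G := G) a b))) (fun s => (s : G) • a = a)
  have h2 : (Finset.univ.filter (fun s : pairStab (G := G) a b => (s : G) • a = a)).card
      = (Finset.univ.filter (fun s : pairStab (G := G) a b => ¬ (s : G) • a = a)).card := by
    have : ((Finset.univ.filter (fun s : pairStab (G := G) a b => (s : G) • a = a)).card : ℂ)
        = ((Finset.univ.filter
          (fun s : pairStab (G := G) a b => ¬ (s : G) • a = a)).card : ℂ) := by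
      linear_combination h0
    exact_mod_cast this
  have h3 : (Finset.univ.filter (fun s : pairStab (G := G) a b => (s : G) • a = a)).card
      = Nat.card (stabilizer G ((a, b) : α × α)) := by
    rw [← Fintype.card_subtype, ← Nat.card_eq_fintype_card]
    apply Nat.card_congr
    exact {
      toFun := fun s => ⟨s.1.1, by
        rw [mem_stabilizer_iff, Prod.smul_mk, Prod.mk.injEq]
        refine ⟨s.2, ?_⟩
        rcases mem_pairStab.mp s.1.2 with ⟨_, h⟩ | ⟨h, _⟩
        · exact h
        · exact absurd (s.2.symm.trans h) hab⟩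
      invFun := fun x => ⟨⟨x.1, Or.inl (by
        have := mem_stabilizer_iff.mp x.2
        rw [Prod.smul_mk, Prod.mk.injEq] at this
        exact this)⟩, by
        have := mem_stabilizer_iff.mp x.2
        rw [Prod.smul_mk, Prod.mk.injEq] at this
        exact this.1⟩
      left_inv := fun s => rfl
      right_inv := fun x => rfl }
  refine ⟨?_, h3⟩
  rw [Nat.card_eq_fintype_card, ← Finset.card_univ, ← h1, ← h2, h3]
  ring

omit [Fintype G] [Fintype α] [DecidableEq α] in
theorem card_fixedBy_conj (g x : G) :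
    Nat.card (fixedBy α (x * g * x⁻¹)) = Nat.card (fixedBy α g) := by
  apply Nat.card_congr
  exact {
    toFun := fun c => ⟨x⁻¹ • c.1, by
      have h := c.2
      rw [mem_fixedBy, mul_smul, mul_smul] at h
      rw [mem_fixedBy]
      have h' := congrArg (fun z => x⁻¹ • z) h
      simp only [inv_smul_smul] at h'
      exact h'⟩
    invFun := fun c => ⟨x • c.1, by
      have h := c.2
      rw [mem_fixedBy] at h
      rw [mem_fixedBy, mul_smul, mul_smul, inv_smul_smul, h]⟩
    left_inv := fun c => Subtype.ext (smul_inv_smul x c.1)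
    right_inv := fun c => Subtype.ext (inv_smul_smul x c.1) }

/-- `∑_{s ∈ S} ε(s) π(s) ≥ |S|`. -/
theorem sum_pairSign_mul_fix (hab : a ≠ b) [Fintype (pairStab (G := G) a b)] {τ : G}
    (hτ1 : τ • a = b) (hτ2 : τ • b = a) :
    ∃ T : ℤ, (Nat.card (pairStab (G := G) a b) : ℤ) ≤ T ∧
      ∑ s : pairStab (G := G) a b, ((pairSign a b hab s : ℂˣ) : ℂ)
        * (Nat.card (fixedBy α (s : G)) : ℂ) = (T : ℂ) := by
  classical
  obtain ⟨hcard, hm⟩ := card_pairStab hab hτ1 hτ2
  let e : pairStab (G := G) a b → ℤ := fun s => if (s : G) • a = a then 1 else -1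
  have he : ∀ s : pairStab (G := G) a b, ((pairSign a b hab s : ℂˣ) : ℂ) = (e s : ℂ) := by
    intro s
    rw [pairSign_apply]
    simp only [e]
    split_ifs <;> simp
  let Ez : α → ℤ := fun c => ∑ s : pairStab (G := G) a b, if (s : G) • c = c then e s else 0
  have hk : ∀ s : pairStab (G := G) a b, (Nat.card (fixedBy α (s : G)) : ℂ)
      = ∑ c : α, if (s : G) • c = c then (1 : ℂ) else 0 := by
    intro s
    rw [Finset.sum_boole, Nat.card_eq_fintype_card, Fintype.card_subtype]
    congr 2
  refine ⟨∑ c : α, Ez c, ?_, ?_⟩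
  · have hnn : ∀ c : α, 0 ≤ Ez c := by
      intro c
      let K : Subgroup (pairStab (G := G) a b) := stabilizer (pairStab (G := G) a b) c
      haveI : Fintype K := Fintype.ofFinite _
      have h1 : (Ez c : ℂ) = ∑ k : K, ((pairSign a b hab (k : pairStab (G := G) a b) : ℂˣ) : ℂ) := by
        simp only [Ez]
        push_cast
        rw [← Finset.sum_subtype (Finset.univ.filter (fun s : pairStab (G := G) a b => s ∈ K))
          (by simp) (fun s : pairStab (G := G) a b => ((pairSign a b hab s : ℂˣ) : ℂ)),
          Finset.sum_filter]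
        refine Finset.sum_congr rfl (fun s _ => ?_)
        have hiff : s ∈ K ↔ (s : G) • c = c := by
          rw [mem_stabilizer_iff]
          rfl
        by_cases hs : (s : G) • c = c
        · rw [if_pos hs, if_pos (hiff.mpr hs), he]
        · rw [if_neg hs, if_neg (fun h => hs (hiff.mp h))]
      by_cases hφ : ∃ k : K, (pairSign a b hab).comp K.subtype k ≠ 1
      · have h2 := Helper3.sum_hom_units_eq_zero ((pairSign a b hab).comp K.subtype) hφ
        simp only [MonoidHom.comp_apply, Subgroup.coe_subtype] at h2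
        rw [h2] at h1
        have h3 : Ez c = 0 := by exact_mod_cast h1
        rw [h3]
      · push Not at hφ
        have h2 : ∑ k : K, ((pairSign a b hab (k : pairStab (G := G) a b) : ℂˣ) : ℂ)
            = (Fintype.card K : ℂ) := by
          rw [Finset.sum_congr rfl (fun k _ => by
            have := hφ k
            simp only [MonoidHom.comp_apply, Subgroup.coe_subtype] at this
            rw [this, Units.val_one]), Finset.sum_const, Finset.card_univ, nsmul_eq_mul, mul_one]
        rw [h2] at h1
        have h3 : Ez c = (Fintype.card K : ℤ) := by exact_mod_cast h1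
        rw [h3]
        positivity
    have hEa : Ez a = (Nat.card (stabilizer G ((a, b) : α × α)) : ℤ) := by
      rw [← hm, ← Finset.sum_boole]
      simp only [Ez, e]
      refine Finset.sum_congr rfl (fun s _ => ?_)
      split_ifs <;> rfl
    have hEb : Ez b = (Nat.card (stabilizer G ((a, b) : α × α)) : ℤ) := by
      rw [← hm, ← Finset.sum_boole]
      simp only [Ez, e]
      refine Finset.sum_congr rfl (fun s _ => ?_)
      rcases mem_pairStab.mp s.2 with ⟨h1, h2⟩ | ⟨h1, h2⟩
      · rw [if_pos h2, if_pos h1, if_pos h1]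
      · rw [if_neg (fun h => hab (h2.symm.trans h)), if_neg (fun h => hab (h.symm.trans h1))]
    rw [hcard]
    have hsplit : ∑ c : α, Ez c
        = Ez a + (Ez b + ∑ c ∈ (Finset.univ.erase a).erase b, Ez c) := by
      rw [Finset.add_sum_erase _ Ez (Finset.mem_erase.mpr ⟨hab.symm, Finset.mem_univ _⟩),
        Finset.add_sum_erase _ Ez (Finset.mem_univ _)]
    rw [hsplit, hEa, hEb]
    have h0 : 0 ≤ ∑ c ∈ (Finset.univ.erase a).erase b, Ez c :=
      Finset.sum_nonneg (fun c _ => hnn c)
    push_cast
    linarith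
  · simp only [Ez]
    push_cast
    rw [Finset.sum_comm]
    refine Finset.sum_congr rfl (fun s _ => ?_)
    rw [hk s, Finset.mul_sum, he s]
    refine Finset.sum_congr rfl (fun c _ => ?_)
    split_ifs <;> simp

/-- **The induced sign character** of the stabilizer of a pair, for a doubly transitive
action. -/
theorem exists_sign_char (h2 : IsMultiplyPretransitive G α 2) (hα : 2 ≤ Fintype.card α) :
    ∃ (Ψ : G → ℂ) (h : ℕ), IsCharacter G Ψ ∧ 0 < h ∧
      classInner Ψ (fun _ => (1 : ℂ)) = 0 ∧
      (∃ x : ℝ, 1 ≤ x ∧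
        classInner Ψ (fun g => (Nat.card (fixedBy α g) : ℂ) - 1) = (x : ℂ)) ∧
      2 * charDegree Ψ ≤ Fintype.card α * (Fintype.card α - 1) ∧
      (∀ g : G, (∀ c : α, (g * g) • c ≠ c) → Ψ g = 0) ∧
      (∀ g : G, ∃ t : ℤ, Ψ g * (2 * (h : ℂ)) = (t : ℂ) ∧
        t ≤ (h : ℤ) * ((Nat.card (fixedBy α g) : ℤ)
          * ((Nat.card (fixedBy α g) : ℤ) - 1))) := by
  classical
  haveI : Nontrivial α := Fintype.one_lt_card_iff_nontrivial.mp (by omega)
  obtain ⟨a, b, hab⟩ := exists_pair_ne α
  obtain ⟨τ, hτ1, hτ2⟩ := (MulAction.is_two_pretransitive_iff.mp h2) hab hab.symm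
  haveI : Fintype (pairStab (G := G) a b) := Fintype.ofFinite _
  obtain ⟨hcard, hm⟩ := card_pairStab hab hτ1 hτ2
  obtain ⟨S, hS⟩ : ∃ S : Subgroup G, S = pairStab (G := G) a b := ⟨_, rfl⟩
  obtain ⟨H, hH⟩ : ∃ H : Subgroup G, H = stabilizer G ((a, b) : α × α) := ⟨_, rfl⟩
  have hHpos : 0 < Nat.card H := Nat.card_pos
  let ε : pairStab (G := G) a b → ℂ := fun s => ((pairSign a b hab s : ℂˣ) : ℂ)
  have hεc : IsCharacter (pairStab (G := G) a b) ε :=
    Helper79.isCharacter_of_irr (Helper79.isIrrCharacter_of_hom (pairSign a b hab))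
  have hΨ : IsCharacter G (indFun (pairStab (G := G) a b) ε) :=
    Helper3.isCharacter_indFun _ ε hεc
  have hScard : (Nat.card (pairStab (G := G) a b) : ℂ) = 2 * (Nat.card H : ℂ) := by
    rw [hcard, hH]
    push_cast
    ring
  have hSne : (Nat.card (pairStab (G := G) a b) : ℂ) ≠ 0 := by
    exact_mod_cast Nat.card_pos.ne'
  have hsum0 : ∑ s : pairStab (G := G) a b, ε s = 0 := sum_pairSign hab hτ1 hτ2
  refine ⟨indFun (pairStab (G := G) a b) ε, Nat.card H, hΨ, hHpos, ?_, ?_, ?_, ?_, ?_⟩
  · rw [Helper3.frobenius_reciprocity _ ε (fun _ => (1 : ℂ)) (fun _ _ => rfl)]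
    unfold classInner
    simp only [map_one, mul_one]
    rw [hsum0, mul_zero]
  · obtain ⟨T, hT, hTsum⟩ := sum_pairSign_mul_fix hab hτ1 hτ2
    have hcl : IsClassFunction G (fun g => (Nat.card (fixedBy α g) : ℂ) - 1) := by
      intro g x
      show (Nat.card (fixedBy α (x * g * x⁻¹)) : ℂ) - 1 = (Nat.card (fixedBy α g) : ℂ) - 1
      rw [card_fixedBy_conj]
    refine ⟨(T : ℝ) / (Nat.card (pairStab (G := G) a b) : ℝ), ?_, ?_⟩
    · rw [le_div_iff₀ (by exact_mod_cast Nat.card_pos), one_mul]
      exact_mod_cast hT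
    · rw [Helper3.frobenius_reciprocity _ ε _ hcl]
      unfold classInner
      have h3 : ∀ s : pairStab (G := G) a b,
          ε s * conj ((Nat.card (fixedBy α (s : G)) : ℂ) - 1)
          = ε s * (Nat.card (fixedBy α (s : G)) : ℂ) - ε s := by
        intro s
        rw [map_sub, Complex.conj_natCast, map_one]
        ring
      rw [Finset.sum_congr rfl (fun s _ => h3 s), Finset.sum_sub_distrib, hsum0, sub_zero, hTsum]
      push_cast
      field_simp
  · have hd1 : charDegree ε = 1 := by
      have h1 := Helper79.isCharacter_one_eq_charDegree hεc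
      have h2 : ε 1 = 1 := by
        simp only [ε, map_one, Units.val_one]
      rw [h2] at h1
      exact_mod_cast h1.symm
    have hd : charDegree (indFun (pairStab (G := G) a b) ε) = (pairStab (G := G) a b).index := by
      rw [Helper79.charDegree_indFun _ hεc, hd1, mul_one]
    have hG : Nat.card G ≤ Nat.card H * (Fintype.card α * (Fintype.card α - 1)) := by
      have h1 := card_fix_pair_le a b hab (1 : G)
      have h2 : Nat.card {y : G // (1 : G) • (y • ((a, b) : α × α)) = y • ((a, b) : α × α)}
          = Nat.card G :=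
        Nat.card_congr (Equiv.subtypeUnivEquiv (fun y => one_smul _ _))
      have h3 : Nat.card (fixedBy α (1 : G)) = Fintype.card α := by
        rw [← Nat.card_eq_fintype_card]
        exact Nat.card_congr (Equiv.subtypeUnivEquiv (fun c => by simp))
      rw [h2, h3, ← hH] at h1
      exact h1
    have h4 := Subgroup.index_mul_card (pairStab (G := G) a b)
    rw [hcard, ← hH] at h4
    rw [hd]
    have h5 : Nat.card H * (2 * (pairStab (G := G) a b).index)
        ≤ Nat.card H * (Fintype.card α * (Fintype.card α - 1)) := by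
      calc Nat.card H * (2 * (pairStab (G := G) a b).index)
          = (pairStab (G := G) a b).index * (2 * Nat.card H) := by ring
        _ = Nat.card G := h4
        _ ≤ _ := hG
    exact Nat.le_of_mul_le_mul_left h5 hHpos
  · intro g hg
    show indFun (pairStab (G := G) a b) ε g = 0
    unfold indFun
    rw [Finset.sum_eq_zero, mul_zero]
    intro x _
    apply Helper3.extendByZero_of_not_mem
    intro hmem
    have h1 : (x⁻¹ * g * x * (x⁻¹ * g * x)) • a = a := by
      rcases mem_pairStab.mp hmem with ⟨h1, h2⟩ | ⟨h1, h2⟩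
      · rw [mul_smul, h1, h1]
      · rw [mul_smul, h1, h2]
    have h2 : x⁻¹ * g * x * (x⁻¹ * g * x) = x⁻¹ * (g * g) * x := by group
    rw [h2, mul_smul, mul_smul, inv_smul_eq_iff] at h1
    exact hg (x • a) h1
  · intro g
    let e : G → ℤ := fun y =>
      if y ∈ pairStab (G := G) a b then (if y • a = a then 1 else -1) else 0
    have he : ∀ y : G, extendByZero (pairStab (G := G) a b) ε y = (e y : ℂ) := by
      intro y
      by_cases hy : y ∈ pairStab (G := G) a b
      · rw [Helper3.extendByZero_of_mem _ ε hy]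
        simp only [e, ε, if_pos hy, pairSign_apply]
        split_ifs <;> simp
      · rw [Helper3.extendByZero_of_not_mem _ ε hy]
        simp only [e, if_neg hy]
        simp
    refine ⟨∑ x : G, e (x⁻¹ * g * x), ?_, ?_⟩
    · show indFun (pairStab (G := G) a b) ε g * (2 * (Nat.card H : ℂ)) = _
      unfold indFun
      rw [← hScard, mul_comm, ← mul_assoc, mul_inv_cancel₀ hSne, one_mul]
      push_cast
      exact Finset.sum_congr rfl (fun x _ => he _)
    · have h1 : ∀ y : G, e y ≤ if y ∈ H then 1 else 0 := by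
        intro y
        simp only [e]
        by_cases hy : y ∈ pairStab (G := G) a b
        · rw [if_pos hy]
          by_cases hya : y • a = a
          · rw [if_pos hya]
            have hyH : y ∈ H := by
              rw [hH, mem_stabilizer_iff, Prod.smul_mk, Prod.mk.injEq]
              refine ⟨hya, ?_⟩
              rcases mem_pairStab.mp hy with ⟨_, h⟩ | ⟨h, _⟩
              · exact h
              · exact absurd (hya.symm.trans h) hab
            rw [if_pos hyH]
          · rw [if_neg hya]
            split_ifs <;> norm_num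
        · rw [if_neg hy]
          split_ifs <;> norm_num
      have h2 : ∑ x : G, e (x⁻¹ * g * x)
          ≤ ∑ x : G, (if x⁻¹ * g * x ∈ H then (1 : ℤ) else 0) :=
        Finset.sum_le_sum (fun x _ => h1 _)
      have h3 : ∑ x : G, (if x⁻¹ * g * x ∈ H then (1 : ℤ) else 0)
          = (Nat.card {y : G // g • (y • ((a, b) : α × α)) = y • ((a, b) : α × α)} : ℤ) := by
        rw [Finset.sum_boole, Nat.card_eq_fintype_card, Fintype.card_subtype]
        congr 2
        ext y
        simp only [Finset.mem_filter, Finset.mem_univ, true_and]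
        rw [hH, mem_stabilizer_iff, mul_smul, mul_smul, inv_smul_eq_iff]
      have h4 := card_fix_pair_le a b hab g
      rw [← hH] at h4
      obtain ⟨k, hk⟩ : ∃ k, k = Nat.card (fixedBy α g) := ⟨_, rfl⟩
      rw [← hk] at h4 ⊢
      have h6 : ((k * (k - 1) : ℕ) : ℤ) = (k : ℤ) * ((k : ℤ) - 1) := by
        rcases Nat.eq_zero_or_pos k with h0 | h0
        · rw [h0]; simp
        · rw [Nat.cast_mul, Nat.cast_sub h0, Nat.cast_one]
      have h5 : (Nat.card {y : G // g • (y • ((a, b) : α × α)) = y • ((a, b) : α × α)} : ℤ)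
          ≤ (Nat.card H : ℤ) * ((k : ℤ) * ((k : ℤ) - 1)) := by
        rw [← h6]
        exact_mod_cast h4
      linarith

end

end PrimeDeg

end Cfsg.Agent.Helper9
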