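import Cfsg.Agent.Helper9.PrimeDeg
import Cfsg.Agent.Helper9.PrimeDegSign
import Cfsg.Agent.Helper9.OrdCount
import Cfsg.Agent.Helper9.OrdTools2

set_option autoImplicit false
set_option linter.style.haveILetI false
set_option maxHeartbeats 1000000

/-!
# Transitive groups of prime degree `p` with `|N(P)| = 2p` (helper9), part 2

* `PrimeDeg.sharp_three`: a finite simple group `G` acting faithfully and transitively on `p ≥ 5`
  points (`p` prime), with a Sylow `p`-subgroup `P` of order `p`, `|C(P)| = p`, `|N(P)| = 2p`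
  (and `p`-singular elements without fixed points) is sharply `3`-transitive: it is
  `3`-transitive and only the identity fixes three points.
-/

namespace Cfsg.Agent.Helper9

namespace PrimeDeg

open Subgroup Cfsg MulAction

open scoped ComplexConjugate

universe u

variable {G : Type u} [Group G] {α : Type*} [MulAction G α]

theorem sharp_three [Finite G] [IsSimpleGroup G] [Fintype α] [DecidableEq α]
    [IsPretransitive G α] [FaithfulSMul G α]
    {p : ℕ} [Fact p.Prime] (hα : Fintype.card α = p) (hp5 : 5 ≤ p) (P : Sylow p G)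
    (hP : Nat.card (P : Subgroup G) = p) (hlt : p < Nat.card G)
    (hC : Nat.card (centralizer ((P : Subgroup G) : Set G)) = p)
    (hN : Nat.card (normalizer ((P : Subgroup G) : Set G)) = 2 * p)
    (hfix0 : ∀ g : G, p ∣ orderOf g → Nat.card (fixedBy α g) = 0) :
    IsMultiplyPretransitive G α 3 ∧ ∀ g : G, 3 ≤ Nat.card (fixedBy α g) → g = 1 := by
  classical
  have hp : p.Prime := Fact.out
  haveI : Fintype G := Fintype.ofFinite G
  haveI : Nonempty α := by
    rw [← Fintype.card_pos_iff, hα]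
    exact hp.pos
  obtain ⟨χ₂, η₀, Y, ε, v, h⟩ := BrauerP.exists_twoData P hP hlt hp5 hC hN
  obtain ⟨hε, hv, hf, hD, hχ⟩ := two_trans_data hα hp5 P hP hlt hfix0 h
  have hreg1 : ¬ p ∣ orderOf (1 : G) := by
    rw [orderOf_one]
    exact hp.one_lt.ne' ∘ Nat.dvd_one.mp
  have hk1 : Nat.card (fixedBy α (1 : G)) = p := by
    rw [← hα, ← Nat.card_eq_fintype_card]
    exact Nat.card_congr (Equiv.subtypeUnivEquiv (fun c => by simp))
  -- double transitivity
  have h2 : IsMultiplyPretransitive G α 2 := by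
    rw [← Helper3.isIrrCharacter_perm_sub_one_iff (G := G) (X := α)
      (by rw [Nat.card_eq_fintype_card, hα]; omega)]
    have h1 : (fun g => (Nat.card (fixedBy α g) : ℂ) - 1) = (χ₂ : G → ℂ) := by
      funext g
      rw [hχ g]
    rw [h1]
    exact χ₂.2
  obtain ⟨Ψ, hh, hΨ, hhpos, hΨ1, ⟨x, hx1, hΨ2⟩, hΨdeg, hΨ0, hΨb⟩ :=
    exists_sign_char (G := G) (α := α) h2 (by rw [hα]; omega)
  have hΨsing : ∀ g : G, p ∣ orderOf g → Ψ g = 0 := by
    intro g hg
    apply hΨ0
    intro c hc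
    have h1 : p ∣ orderOf (g * g) := by
      have h3 : orderOf g ∣ 2 * orderOf (g * g) := by
        apply orderOf_dvd_of_pow_eq_one
        rw [pow_mul, pow_two, pow_orderOf_eq_one]
      rcases (Nat.Prime.dvd_mul hp).mp (hg.trans h3) with h4 | h4
      · have := Nat.le_of_dvd (by norm_num) h4
        omega
      · exact h4
    have h3 := hfix0 (g * g) h1
    have h4 : 0 < Nat.card (fixedBy α (g * g)) := Nat.card_pos_iff.mpr ⟨⟨⟨c, hc⟩⟩, inferInstance⟩
    omega
  obtain ⟨n₁, n₂, c, R, hn1, hn2, hn3, hE1, hdeg, hR⟩ := h.decomp hP hΨ hΨsing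
  have h10 : n₁ = 0 := by
    have h3 : (Helper81.trivIrr G : G → ℂ) = fun _ => (1 : ℂ) := rfl
    rw [h3, hΨ1] at hn1
    exact_mod_cast hn1.symm
  have h21 : 1 ≤ n₂ := by
    have h3 : (χ₂ : G → ℂ) = fun g => (Nat.card (fixedBy α g) : ℂ) - 1 := funext hχ
    rw [h3, hΨ2] at hn2
    have h4 : (x : ℝ) = (n₂ : ℝ) := by exact_mod_cast hn2
    have h5 : (1 : ℝ) ≤ (n₂ : ℝ) := by rw [← h4]; exact hx1
    exact_mod_cast h5
  rw [h10, hε, hv] at hE1
  have hn2c : n₂ = c := by omega
  obtain ⟨r, hr⟩ : ∃ r, r = Y.card := ⟨_, rfl⟩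
  have hcard := h.card
  rw [← hr] at hcard
  obtain ⟨q, hq⟩ : ∃ q, p = q + 2 := ⟨p - 2, by omega⟩
  have hc1R : c = 1 ∧ R = 0 := by
    rw [hf, hD, h10, hn2c, ← hr, show p - 1 = q + 1 by omega, show p - 2 = q by omega] at hdeg
    rw [hα, show p - 1 = q + 1 by omega, hq] at hΨdeg
    rw [show p - 1 = q + 1 by omega] at hcard
    have e1 : 2 * charDegree Ψ = c * ((q + 2) * (q + 1)) + 2 * R := by
      rw [hdeg]
      calc 2 * (0 + c * (q + 1) + c * (r * q) + R)
          = 2 * c * (q + 1) + c * ((r * 2) * q) + 2 * R := by ring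
        _ = 2 * c * (q + 1) + c * ((q + 1) * q) + 2 * R := by rw [hcard]
        _ = c * ((q + 2) * (q + 1)) + 2 * R := by ring
    rw [e1] at hΨdeg
    have hMpos : 0 < (q + 2) * (q + 1) := by positivity
    have hcle : c ≤ 1 := by
      have h3 : c * ((q + 2) * (q + 1)) ≤ 1 * ((q + 2) * (q + 1)) := by omega
      exact Nat.le_of_mul_le_mul_right h3 hMpos
    have hc1 : c = 1 := by omega
    rw [hc1, one_mul] at hΨdeg
    exact ⟨hc1, by omega⟩
  obtain ⟨hc1, hR0⟩ := hc1R
  have hΨval := hR hR0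
  rw [h10, hn2c, hc1] at hΨval
  -- only the identity fixes three points
  have hfix : ∀ g : G, 3 ≤ Nat.card (fixedBy α g) → g = 1 := by
    intro g hg3
    have hreg : ¬ p ∣ orderOf g := fun hdvd => by
      have := hfix0 g hdvd
      omega
    obtain ⟨t, ht, hle⟩ := hΨb g
    obtain ⟨k, hk⟩ : ∃ k, k = Nat.card (fixedBy α g) := ⟨_, rfl⟩
    rw [← hk] at hg3 hle
    have hval : Ψ g = ((k : ℂ) - 1) + (r : ℂ) * ((k : ℂ) - 2) := by
      rw [hΨval g, Finset.sum_congr rfl (fun η hη => h.agree η hη g hreg), Finset.sum_const,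
        nsmul_eq_mul, ← hr]
      have hrel := h.rel g hreg
      rw [hv, hε, hχ g, ← hk] at hrel
      push_cast at hrel
      have hη₀ : (η₀ : G → ℂ) g = (k : ℂ) - 2 := by linear_combination -hrel
      rw [hη₀, hχ g, ← hk]
      push_cast
      ring
    rw [hval] at ht
    have htZ : (((k : ℤ) - 1) + (r : ℤ) * ((k : ℤ) - 2)) * (2 * (hh : ℤ)) = t := by
      exact_mod_cast ht
    have h1 : (hh : ℤ) * (2 * ((k : ℤ) - 1) + (2 * (r : ℤ)) * ((k : ℤ) - 2))
        ≤ (hh : ℤ) * ((k : ℤ) * ((k : ℤ) - 1)) := by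
      calc (hh : ℤ) * (2 * ((k : ℤ) - 1) + (2 * (r : ℤ)) * ((k : ℤ) - 2))
          = (((k : ℤ) - 1) + (r : ℤ) * ((k : ℤ) - 2)) * (2 * (hh : ℤ)) := by ring
        _ = t := htZ
        _ ≤ _ := hle
    have h3 := le_of_mul_le_mul_left h1 (by exact_mod_cast hhpos : (0 : ℤ) < (hh : ℤ))
    have hr2 : 2 * (r : ℤ) = (p : ℤ) - 1 := by omega
    rw [hr2] at h3
    have hk3 : (3 : ℤ) ≤ (k : ℤ) := by exact_mod_cast hg3
    have hpk : (p : ℤ) ≤ (k : ℤ) := by
      by_contra hlt'
      push Not at hlt'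
      nlinarith
    have hall : ∀ c : α, g • c = c := by
      by_contra hne
      push Not at hne
      obtain ⟨c, hc⟩ := hne
      have h4 : Nat.card (fixedBy α g) < Fintype.card α := by
        rw [Nat.card_eq_fintype_card, Fintype.card_subtype]
        apply Finset.card_lt_univ_of_notMem (x := c)
        simp [mem_fixedBy, hc]
      rw [hα, ← hk] at h4
      omega
    exact FaithfulSMul.eq_of_smul_eq_smul (α := α) (fun c => by rw [hall c, one_smul])
  refine ⟨?_, hfix⟩
  -- counting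
  have hS1 := sum_perm (G := G) (α := α)
  have hS2 := sum_perm_sq (G := G) (α := α) h2 (by rw [Nat.card_eq_fintype_card, hα]; omega)
  have hsumZ : ∑ g : G, (((Nat.card (fixedBy α g) : ℤ) - 1)
      * ((Nat.card (fixedBy α g) : ℤ) - 2)) = (Nat.card G : ℤ) := by
    have hcx : ∑ g : G, (((Nat.card (fixedBy α g) : ℂ) - 1)
        * ((Nat.card (fixedBy α g) : ℂ) - 2)) = (Nat.card G : ℂ) := by
      have h3 : ∀ g : G, ((Nat.card (fixedBy α g) : ℂ) - 1) * ((Nat.card (fixedBy α g) : ℂ) - 2)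
          = (Nat.card (fixedBy α g) : ℂ) * (Nat.card (fixedBy α g) : ℂ)
            - 3 * (Nat.card (fixedBy α g) : ℂ) + 2 := fun g => by ring
      rw [Finset.sum_congr rfl (fun g _ => h3 g), Finset.sum_add_distrib, Finset.sum_sub_distrib,
        ← Finset.mul_sum, hS1, hS2, Finset.sum_const, Finset.card_univ,
        ← Nat.card_eq_fintype_card, nsmul_eq_mul]
      ring
    exact_mod_cast hcx
  have hlow : ((p : ℤ) - 1) * ((p : ℤ) - 2) + 2 * (Nat.card {g : G // p ∣ orderOf g} : ℤ)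
      ≤ ∑ g : G, (((Nat.card (fixedBy α g) : ℤ) - 1) * ((Nat.card (fixedBy α g) : ℤ) - 2)) := by
    have hw : ∀ g : G, (if g = 1 then ((p : ℤ) - 1) * ((p : ℤ) - 2) else 0)
        + 2 * (if p ∣ orderOf g then (1 : ℤ) else 0)
        ≤ ((Nat.card (fixedBy α g) : ℤ) - 1) * ((Nat.card (fixedBy α g) : ℤ) - 2) := by
      intro g
      by_cases hg1 : g = 1
      · subst hg1
        rw [if_pos rfl, if_neg hreg1, hk1]
        simp
      · rw [if_neg hg1, zero_add]
        by_cases hgp : p ∣ orderOf g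
        · rw [if_pos hgp, hfix0 g hgp]
          norm_num
        · rw [if_neg hgp]
          have hk2 : Nat.card (fixedBy α g) ≤ 2 := by
            by_contra hh'
            exact hg1 (hfix g (by omega))
          obtain ⟨k, hk⟩ : ∃ k, k = Nat.card (fixedBy α g) := ⟨_, rfl⟩
          rw [← hk] at hk2 ⊢
          interval_cases k <;> norm_num
    have hsumw : ∑ g : G, ((if g = 1 then ((p : ℤ) - 1) * ((p : ℤ) - 2) else 0)
        + 2 * (if p ∣ orderOf g then (1 : ℤ) else 0))
        = ((p : ℤ) - 1) * ((p : ℤ) - 2) + 2 * (Nat.card {g : G // p ∣ orderOf g} : ℤ) := by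
      rw [Finset.sum_add_distrib, Finset.sum_ite_eq' Finset.univ (1 : G), if_pos (Finset.mem_univ _),
        ← Finset.mul_sum, Finset.sum_boole, Nat.card_eq_fintype_card, Fintype.card_subtype]
    rw [← hsumw]
    exact Finset.sum_le_sum (fun g _ => hw g)
  have hS : ∀ Q : Sylow p G, Nat.card (Q : Subgroup G) = p := fun Q =>
    (Sylow.card_eq_multiplicity Q).trans ((Sylow.card_eq_multiplicity P).symm.trans hP)
  have hcS : ∀ Q : Sylow p G, Nat.card (centralizer ((Q : Subgroup G) : Set G)) = p := fun Q => by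
    rw [OrdTools.card_centralizer_sylow_eq Q P, hC]
  have hsing := OrdTools.card_psing_ge hS p hcS
  obtain ⟨-, -, -, hNn⟩ := OrdTools.sylow_num P (by rw [hP]; exact hp.one_lt)
    (by rw [hP]; exact hlt)
  rw [hN] at hNn
  rw [Nat.div_self hp.pos] at hsing
  have hGge : p * (p - 1) * (p - 2) ≤ Nat.card G := by
    have h1 : ((p : ℤ) - 1) * ((p : ℤ) - 2)
        + 2 * ((Nat.card (Sylow p G) : ℤ) * ((p : ℤ) - 1)) ≤ (Nat.card G : ℤ) := by
      have h3 : ((Nat.card (Sylow p G) * (p - 1) : ℕ) : ℤ)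
          ≤ (Nat.card {g : G // p ∣ orderOf g} : ℤ) := by exact_mod_cast hsing
      rw [Nat.cast_mul, Nat.cast_sub hp.one_lt.le, Nat.cast_one] at h3
      linarith [hlow, hsumZ]
    have h3 : (Nat.card G : ℤ) = 2 * (p : ℤ) * (Nat.card (Sylow p G) : ℤ) := by
      exact_mod_cast hNn.symm
    have h4 : ((p : ℤ) - 1) * ((p : ℤ) - 2) ≤ 2 * (Nat.card (Sylow p G) : ℤ) := by
      have h5 : 2 * (Nat.card (Sylow p G) : ℤ) = 2 * (p : ℤ) * (Nat.card (Sylow p G) : ℤ)
          - 2 * ((Nat.card (Sylow p G) : ℤ) * ((p : ℤ) - 1)) := by ring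
      rw [h5, ← h3]
      linarith
    have h5 : (p : ℤ) * (((p : ℤ) - 1) * ((p : ℤ) - 2)) ≤ (Nat.card G : ℤ) := by
      rw [h3]
      calc (p : ℤ) * (((p : ℤ) - 1) * ((p : ℤ) - 2))
          ≤ (p : ℤ) * (2 * (Nat.card (Sylow p G) : ℤ)) :=
            mul_le_mul_of_nonneg_left h4 (by positivity)
        _ = 2 * (p : ℤ) * (Nat.card (Sylow p G) : ℤ) := by ring
    have h6 : ((p * (p - 1) * (p - 2) : ℕ) : ℤ) = (p : ℤ) * (((p : ℤ) - 1) * ((p : ℤ) - 2)) := by
      rw [Nat.cast_mul, Nat.cast_mul, Nat.cast_sub (by omega : 1 ≤ p),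
        Nat.cast_sub (by omega : 2 ≤ p)]
      push_cast
      ring
    have h7 : ((p * (p - 1) * (p - 2) : ℕ) : ℤ) ≤ (Nat.card G : ℤ) := by
      rw [h6]
      exact h5
    exact_mod_cast h7
  -- triple transitivity
  have hcardE : Nat.card (Fin 3 ↪ α) = p * (p - 1) * (p - 2) := by
    rw [Nat.card_eq_fintype_card, Fintype.card_embedding_eq, Fintype.card_fin, hα]
    simp only [Nat.descFactorial]
    ring_nf
    rfl
  constructor
  intro e₁ e₂
  have hstab : stabilizer G e₁ = ⊥ := by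
    rw [eq_bot_iff]
    intro g hg
    rw [Subgroup.mem_bot]
    apply hfix
    rw [mem_stabilizer_iff] at hg
    have hmem : ∀ i, e₁ i ∈ fixedBy α g := by
      intro i
      rw [mem_fixedBy]
      have h' := congrArg (fun e : Fin 3 ↪ α => e i) hg
      exact h'
    have hinj : Function.Injective (fun i : Fin 3 => (⟨e₁ i, hmem i⟩ : fixedBy α g)) := by
      intro i j hij
      exact e₁.injective (congrArg Subtype.val hij)
    have h3' : Nat.card (Fin 3) = 3 := by simp
    have := Nat.card_le_card_of_injective _ hinj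
    rw [h3'] at this
    exact this
  have horb : (orbit G e₁).ncard = Nat.card G := by
    rw [← MulAction.index_stabilizer, hstab, Subgroup.index_bot]
  have huniv : orbit G e₁ = Set.univ := by
    rw [Set.eq_univ_iff_ncard]
    have h1 : (orbit G e₁).ncard ≤ Nat.card (Fin 3 ↪ α) := by
      rw [← Set.ncard_univ]
      exact Set.ncard_le_ncard (Set.subset_univ _)
    omega
  have hmem : e₂ ∈ orbit G e₁ := by
    rw [huniv]
    trivial
  exact hmem

end PrimeDeg

end Cfsg.Agent.Helper9
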