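import Mathlib
import Cfsg.Agent.Helper77.D1Defs2
import Cfsg.Agent.Helper92.B42PSING
import Cfsg.Agent.Helper76.CentralChar
import Cfsg.Agent.Helper15.CharInner

/-!
Tools for the pieces ONLY and COMPL of the sub-CALL S4504S (helper15; piece STRUCT of helper8's
CALL S4504): a character `ξ` agreeing on the `p`-singular elements with a combination of two
characters `φ₁, φ₂` that coincide on the `p`-regular elements.
-/

universe u
set_option autoImplicit false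
open Cfsg Cfsg.Agent.Helper77
open scoped ComplexConjugate

namespace Cfsg.Agent.Helper9

variable {G : Type u} [Group G] [Finite G]

/-- class functions agreeing on the `p`-singular elements have the same inner product with a
function vanishing on the `p`-regular elements. -/
theorem s4504t_singinner (p : ℕ) [Fact p.Prime] [Fintype G] (x : G) (K : Subgroup G)
    (h : D1Hyp p x K) (φ Θ Δ : G → ℂ)
    (hφ : ∀ g y : G, φ (y * g * y⁻¹) = φ g) (hΘ : ∀ g y : G, Θ (y * g * y⁻¹) = Θ g)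
    (hΔ : ∀ g : G, ¬ p ∣ orderOf g → Δ g = 0)
    (hval : ∀ b : ℕ, ¬ p ∣ b → ∀ k ∈ K, φ (x ^ b * k) = Θ (x ^ b * k)) :
    Cfsg.classInner φ Δ = Cfsg.classInner Θ Δ := by
  unfold Cfsg.classInner
  congr 1
  apply Finset.sum_congr rfl
  intro g _
  by_cases hg : p ∣ orderOf g
  · obtain ⟨y, b, k, hb, hk, hy⟩ := Helper92.b42_psing p x K h g hg
    have : φ g = Θ g := by
      rw [← hφ g y, ← hΘ g y, hy]
      exact hval b hb k hk
    rw [this]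
  · rw [hΔ g hg]
    simp

/-- a central element multiplies an irreducible character by a scalar. -/
theorem s4504t_central (ξ : Cfsg.IrrCharacter G) (z : G) (hz : z ∈ Subgroup.center G) (g : G) :
    (ξ : G → ℂ) (g * z) = (ξ : G → ℂ) z / (ξ : G → ℂ) 1 * (ξ : G → ℂ) g := by
  obtain ⟨c, hc⟩ := Helper76.exists_central_scalar (Subgroup.center G).subtype (fun z => z.2) ξ
  have h1 := hc ⟨z, hz⟩ 1
  have h2 := hc ⟨z, hz⟩ g
  simp only [Subgroup.coe_subtype, one_mul] at h1 h2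
  have hne := Helper76.irr_one_ne_zero ξ
  rw [h2, h1, mul_div_cancel_right₀ _ hne]

/-- the common core of ONLY and COMPL. -/
theorem s4504t_main (p : ℕ) [Fact p.Prime] [Fintype G] (x : G) (K : Subgroup G)
    (h : D1Hyp p x K) (hKc : ∀ k ∈ K, k ∈ Subgroup.center G) (v : (ZMod p)ˣ)
    (hcls : ∀ b : ℕ, ¬ p ∣ b → (∃ n : G, n * x * n⁻¹ = x ^ b) ∨
        (∃ n : G, n * x ^ (v : ZMod p).val * n⁻¹ = x ^ b))
    (φ₁ φ₂ ξ : Cfsg.IrrCharacter G) (hne : φ₁ ≠ φ₂)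
    (hreg : ∀ g : G, ¬ p ∣ orderOf g → (φ₂ : G → ℂ) g = (φ₁ : G → ℂ) g)
    (hs : ∀ k ∈ K, (φ₁ : G → ℂ) k / (φ₁ : G → ℂ) 1 = (ξ : G → ℂ) k / (ξ : G → ℂ) 1)
    (hw : (φ₂ : G → ℂ) x = (φ₁ : G → ℂ) (x ^ (v : ZMod p).val))
    (hw' : (φ₂ : G → ℂ) (x ^ (v : ZMod p).val) = (φ₁ : G → ℂ) x)
    (hdet : (φ₁ : G → ℂ) x ^ 2 ≠ (φ₁ : G → ℂ) (x ^ (v : ZMod p).val) ^ 2)
    (h1 : ξ ≠ φ₁) (h2 : ξ ≠ φ₂) :
    ∃ A : ℂ, (ξ : G → ℂ) x = A * ((φ₁ : G → ℂ) x + (φ₁ : G → ℂ) (x ^ (v : ZMod p).val)) ∧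
      (ξ : G → ℂ) (x ^ (v : ZMod p).val)
        = A * ((φ₁ : G → ℂ) x + (φ₁ : G → ℂ) (x ^ (v : ZMod p).val)) ∧
      (∀ b : ℕ, ¬ p ∣ b → ∀ k ∈ K, (ξ : G → ℂ) (x ^ b * k)
        = A * ((φ₁ : G → ℂ) (x ^ b * k) + (φ₂ : G → ℂ) (x ^ b * k))) ∧
      (∀ b : ℕ, ¬ p ∣ b → (ξ : G → ℂ) (x ^ b) = (ξ : G → ℂ) x) := by
  classical
  have hpp : p.Prime := Fact.out
  have hdet' : (φ₁ : G → ℂ) x ^ 2 - (φ₁ : G → ℂ) (x ^ (v : ZMod p).val) ^ 2 ≠ 0 :=
    sub_ne_zero.2 hdet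
  obtain ⟨a, ha⟩ : ∃ a : ℂ, (φ₁ : G → ℂ) x = a := ⟨_, rfl⟩
  obtain ⟨a', ha'⟩ : ∃ a' : ℂ, (φ₁ : G → ℂ) (x ^ (v : ZMod p).val) = a' := ⟨_, rfl⟩
  obtain ⟨u, hu⟩ : ∃ u : ℂ, (ξ : G → ℂ) x = u := ⟨_, rfl⟩
  obtain ⟨u', hu'⟩ : ∃ u' : ℂ, (ξ : G → ℂ) (x ^ (v : ZMod p).val) = u' := ⟨_, rfl⟩
  rw [ha, ha'] at hdet'
  rw [ha'] at hw
  rw [ha] at hw'
  rw [ha, ha', hu, hu']
  obtain ⟨A, hA⟩ : ∃ A : ℂ, A = (u * a - u' * a') / (a ^ 2 - a' ^ 2) := ⟨_, rfl⟩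
  obtain ⟨B, hB⟩ : ∃ B : ℂ, B = (u' * a - u * a') / (a ^ 2 - a' ^ 2) := ⟨_, rfl⟩
  have hA1 : u = A * a + B * a' := by
    rw [hA, hB]; field_simp; ring
  have hA2 : u' = A * a' + B * a := by
    rw [hA, hB]; field_simp; ring
  have h1reg : ¬ p ∣ orderOf (1 : G) := by
    rw [orderOf_one]
    exact hpp.one_lt.ne' ∘ Nat.dvd_one.1
  have hKreg : ∀ k ∈ K, ¬ p ∣ orderOf k := by
    intro k hk hdvd
    exact h.hK (hdvd.trans (Subgroup.orderOf_dvd_natCard K hk))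
  have hagree : ∀ b : ℕ, ¬ p ∣ b → ∀ k ∈ K, (ξ : G → ℂ) (x ^ b * k)
      = A * (φ₁ : G → ℂ) (x ^ b * k) + B * (φ₂ : G → ℂ) (x ^ b * k) := by
    intro b hb k hk
    rw [s4504t_central ξ k (hKc k hk), s4504t_central φ₁ k (hKc k hk),
      s4504t_central φ₂ k (hKc k hk)]
    have hsk := hs k hk
    have hs2 : (φ₂ : G → ℂ) k / (φ₂ : G → ℂ) 1 = (ξ : G → ℂ) k / (ξ : G → ℂ) 1 := by
      rw [hreg k (hKreg k hk), hreg 1 h1reg, hsk]
    rw [hsk, hs2]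
    have hb' : (ξ : G → ℂ) (x ^ b) = A * (φ₁ : G → ℂ) (x ^ b) + B * (φ₂ : G → ℂ) (x ^ b) := by
      rcases hcls b hb with ⟨n, hn⟩ | ⟨n, hn⟩
      · rw [← hn, Helper76.irr_conj, Helper76.irr_conj, Helper76.irr_conj, hw, ha, hu]
        exact hA1
      · rw [← hn, Helper76.irr_conj, Helper76.irr_conj, Helper76.irr_conj, hw', ha', hu']
        exact hA2
    rw [hb']
    ring
  -- the inner products with Δ = φ₁ - φ₂
  have hΔ : ∀ g : G, ¬ p ∣ orderOf g →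
      ((φ₁ : G → ℂ) + (-1 : ℂ) • (φ₂ : G → ℂ)) g = 0 := by
    intro g hg
    rw [Pi.add_apply, Pi.smul_apply, smul_eq_mul, hreg g hg]
    ring
  have hΘc : ∀ g y : G, (A • (φ₁ : G → ℂ) + B • (φ₂ : G → ℂ)) (y * g * y⁻¹)
      = (A • (φ₁ : G → ℂ) + B • (φ₂ : G → ℂ)) g := by
    intro g y
    simp only [Pi.add_apply, Pi.smul_apply, Helper76.irr_conj]
  have hsi := s4504t_singinner p x K h (ξ : G → ℂ) (A • (φ₁ : G → ℂ) + B • (φ₂ : G → ℂ))
    ((φ₁ : G → ℂ) + (-1 : ℂ) • (φ₂ : G → ℂ)) (fun g y => Helper76.irr_conj ξ g y) hΘc hΔ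
    (fun b hb k hk => by
      rw [hagree b hb k hk]
      simp only [Pi.add_apply, Pi.smul_apply, smul_eq_mul])
  rw [Helper15.classInner_add_right, Helper15.classInner_smul_right, Helper15.irr_inner,
    Helper15.irr_inner, if_neg h1, if_neg h2, Helper15.classInner_add_left,
    Helper15.classInner_smul_left, Helper15.classInner_smul_left,
    Helper15.classInner_add_right, Helper15.classInner_add_right,
    Helper15.classInner_smul_right, Helper15.classInner_smul_right,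
    Helper15.irr_inner, Helper15.irr_inner, Helper15.irr_inner, Helper15.irr_inner,
    if_pos rfl, if_pos rfl, if_neg hne, if_neg (Ne.symm hne)] at hsi
  have hAB : A = B := by
    have h3 : (0 : ℂ) = A - B := by
      rw [map_neg, map_one] at hsi
      linear_combination hsi
    exact sub_eq_zero.1 h3.symm
  have hu1 : u = A * (a + a') := by rw [hA1, ← hAB]; ring
  have hu2 : u' = A * (a + a') := by rw [hA2, ← hAB]; ring
  refine ⟨A, hu1, hu2, ?_, ?_⟩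
  · intro b hb k hk
    rw [hagree b hb k hk, ← hAB]
    ring
  · intro b hb
    rcases hcls b hb with ⟨n, hn⟩ | ⟨n, hn⟩
    · rw [← hn, Helper76.irr_conj]
      exact hu
    · rw [← hn, Helper76.irr_conj, hu']
      exact hu2.trans hu1.symm

end Cfsg.Agent.Helper9
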