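import Mathlib
import Cfsg.Agent.Helper9.S4504STools
import Cfsg.Agent.Helper81.Blocks

/-!
Piece COMPL of the sub-CALL S4504S (helper15; piece STRUCT of helper8's CALL S4504).
-/

universe u
set_option autoImplicit false
open Cfsg Cfsg.Agent.Helper77
open scoped ComplexConjugate

namespace Cfsg.Agent.Helper9

variable {G : Type u} [Group G] [Finite G]

/-- COMPL: an irreducible character trivial on `K`, outside the list, vanishes at `x`. -/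
theorem s4504s_compl (p : ℕ) [Fact p.Prime] [Fintype G] (x : G) (K : Subgroup G)
    (h : D1Hyp p x K) (hKc : ∀ k ∈ K, k ∈ Subgroup.center G) (v : (ZMod p)ˣ)
    (hcls : ∀ b : ℕ, ¬ p ∣ b → (∃ n : G, n * x * n⁻¹ = x ^ b) ∨
        (∃ n : G, n * x ^ (v : ZMod p).val * n⁻¹ = x ^ b))
    (ψ₁ ψ₂ : Cfsg.IrrCharacter G)
    (hψreg : ∀ g : G, ¬ p ∣ orderOf g → (ψ₂ : G → ℂ) g = (ψ₁ : G → ℂ) g)
    (hψK : ∀ k ∈ K, (ψ₁ : G → ℂ) k = (ψ₁ : G → ℂ) 1)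
    (hw : (ψ₂ : G → ℂ) x = (ψ₁ : G → ℂ) (x ^ (v : ZMod p).val))
    (hw' : (ψ₂ : G → ℂ) (x ^ (v : ZMod p).val) = (ψ₁ : G → ℂ) x)
    (hwne : (ψ₁ : G → ℂ) x ≠ (ψ₁ : G → ℂ) (x ^ (v : ZMod p).val))
    (hwsum : (ψ₁ : G → ℂ) x + (ψ₁ : G → ℂ) (x ^ (v : ZMod p).val) ≠ 0)
    (X1 X2 : Finset (Cfsg.IrrCharacter G)) (ε : ℂ) (hε : ε ≠ 0)
    (Γ : G → ℂ) (hΓreg : ∀ g : G, ¬ p ∣ orderOf g → Γ g = 0)
    (hΓ : ∀ g : G, Γ g = 1 + ∑ ζ ∈ X1, (ζ : G → ℂ) g - ∑ ζ ∈ X2, (ζ : G → ℂ) g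
      + ε * (ψ₁ : G → ℂ) g)
    (hψ₁1 : (ψ₁ : G → ℂ) ≠ fun _ => 1) (hψ₁X1 : ψ₁ ∉ X1) (hψ₁X2 : ψ₁ ∉ X2)
    (hψ₂1 : (ψ₂ : G → ℂ) ≠ fun _ => 1) (hψ₂X1 : ψ₂ ∉ X1) (hψ₂X2 : ψ₂ ∉ X2) (hψne : ψ₁ ≠ ψ₂)
    (ξ : Cfsg.IrrCharacter G) (hξK : ∀ k ∈ K, (ξ : G → ℂ) k = (ξ : G → ℂ) 1)
    (hξ1 : (ξ : G → ℂ) ≠ fun _ => 1) (hξX1 : ξ ∉ X1) (hξX2 : ξ ∉ X2)
    (hξψ₁ : ξ ≠ ψ₁) (hξψ₂ : ξ ≠ ψ₂) : (ξ : G → ℂ) x = 0 := by
  classical
  have hs : ∀ k ∈ K, (ψ₁ : G → ℂ) k / (ψ₁ : G → ℂ) 1 = (ξ : G → ℂ) k / (ξ : G → ℂ) 1 := by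
    intro k hk
    rw [hψK k hk, hξK k hk, div_self (Helper76.irr_one_ne_zero ψ₁),
      div_self (Helper76.irr_one_ne_zero ξ)]
  have hdet : (ψ₁ : G → ℂ) x ^ 2 ≠ (ψ₁ : G → ℂ) (x ^ (v : ZMod p).val) ^ 2 := by
    intro heq
    have h3 : ((ψ₁ : G → ℂ) x - (ψ₁ : G → ℂ) (x ^ (v : ZMod p).val))
        * ((ψ₁ : G → ℂ) x + (ψ₁ : G → ℂ) (x ^ (v : ZMod p).val)) = 0 := by
      linear_combination heq
    rcases mul_eq_zero.1 h3 with h0 | h0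
    · exact hwne (sub_eq_zero.1 h0)
    · exact hwsum h0
  obtain ⟨A, hA1, -, hagree, -⟩ := s4504t_main p x K h hKc v hcls ψ₁ ψ₂ ξ hψne hψreg hs hw hw'
    hdet hξψ₁ hξψ₂
  -- inner products with Γ
  have hΓfun : Γ = (Helper81.trivIrr G : G → ℂ) + ∑ ζ ∈ X1, (ζ : G → ℂ)
      + (-1 : ℂ) • ∑ ζ ∈ X2, (ζ : G → ℂ) + ε • (ψ₁ : G → ℂ) := by
    funext g
    rw [hΓ g]
    simp only [Pi.add_apply, Pi.smul_apply, Finset.sum_apply, smul_eq_mul,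
      Helper81.trivIrr_apply]
    ring
  have hinner : ∀ φ : Cfsg.IrrCharacter G, (φ : G → ℂ) ≠ (fun _ => 1) → φ ∉ X1 → φ ∉ X2 →
      Cfsg.classInner (φ : G → ℂ) Γ = conj ε * (if φ = ψ₁ then 1 else 0) := by
    intro φ hφ1 hφX1 hφX2
    have ht : φ ≠ Helper81.trivIrr G := fun he => hφ1 (by rw [he]; rfl)
    rw [hΓfun, Helper15.classInner_add_right, Helper15.classInner_add_right,
      Helper15.classInner_add_right, Helper15.classInner_smul_right,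
      Helper15.classInner_smul_right, Helper15.classInner_sum_right,
      Helper15.classInner_sum_right, Helper15.irr_inner, Helper15.irr_inner φ ψ₁, if_neg ht,
      Finset.sum_eq_zero (fun ζ hζ => by
        have hne' : φ ≠ ζ := fun he => hφX1 (by rw [he]; exact hζ)
        rw [Helper15.irr_inner, if_neg hne']),
      Finset.sum_eq_zero (fun ζ hζ => by
        have hne' : φ ≠ ζ := fun he => hφX2 (by rw [he]; exact hζ)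
        rw [Helper15.irr_inner, if_neg hne'])]
    simp
  have hΘc : ∀ g y : G, (A • ((ψ₁ : G → ℂ) + (ψ₂ : G → ℂ))) (y * g * y⁻¹)
      = (A • ((ψ₁ : G → ℂ) + (ψ₂ : G → ℂ))) g := by
    intro g y
    simp only [Pi.add_apply, Pi.smul_apply, Helper76.irr_conj]
  have hsi := s4504t_singinner p x K h (ξ : G → ℂ) (A • ((ψ₁ : G → ℂ) + (ψ₂ : G → ℂ))) Γ
    (fun g y => Helper76.irr_conj ξ g y) hΘc hΓreg
    (fun b hb k hk => by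
      rw [hagree b hb k hk]
      simp only [Pi.add_apply, Pi.smul_apply, smul_eq_mul])
  rw [hinner ξ hξ1 hξX1 hξX2, if_neg hξψ₁, mul_zero, Helper15.classInner_smul_left,
    Helper15.classInner_add_left, hinner ψ₁ hψ₁1 hψ₁X1 hψ₁X2, hinner ψ₂ hψ₂1 hψ₂X1 hψ₂X2,
    if_pos rfl, if_neg (Ne.symm hψne), mul_zero, add_zero, mul_one] at hsi
  have hA0 : A = 0 := by
    rcases mul_eq_zero.1 hsi.symm with h0 | h0
    · exact h0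
    · exfalso
      exact hε ((map_eq_zero _).1 h0)
  rw [hA1, hA0, zero_mul]

end Cfsg.Agent.Helper9
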