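import Mathlib
import Cfsg.Agent.Helper72.B42Core
import Cfsg.Agent.Helper81.Blocks

/-!
Piece DEC of the sub-CALL S4504S (helper15; piece STRUCT of helper8's CALL S4504):
tight counting of the constituents of a character `α`.
-/

universe u
set_option autoImplicit false
open Cfsg Cfsg.Agent.Helper77 Cfsg.Agent.Helper15
open scoped ComplexConjugate

namespace Cfsg.Agent.Helper9

theorem s4504dec_split {ι : Type*} [Fintype ι] [DecidableEq ι] {M : Type*} [AddCommMonoid M]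
    (S : Finset ι) (t : ι) (ht : t ∉ S) (f : ι → M) :
    ∑ φ, f φ = ∑ φ ∈ S, f φ + f t + ∑ φ ∈ (Finset.univ \ S).erase t, f φ := by
  rw [← Finset.sum_sdiff (Finset.subset_univ S),
    ← Finset.add_sum_erase (Finset.univ \ S) f (by simp [ht] : t ∈ Finset.univ \ S)]
  abel

variable {G : Type u} [Group G] [Finite G]

/-- DEC: tight counting of the constituents of `α`. -/
theorem s4504s_dec (p : ℕ) [Fact p.Prime] [Fintype G] (x : G) (hx : orderOf x = p)
    (α : G → ℂ) (hα : Cfsg.IsCharacter G α) (a : ℕ)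
    (ha : Cfsg.classInner α (fun _ => (1 : ℂ)) = (a : ℂ))
    (S : Finset (Cfsg.IrrCharacter G))
    (hS1 : ∀ ζ ∈ S, (ζ : G → ℂ) ≠ fun _ => 1)
    (hS : ∀ ζ ∈ S, Cfsg.classInner α (ζ : G → ℂ) ≠ 0)
    (hμ : ∀ ζ ∈ S, ∃ m : ℕ, 1 ≤ m ∧
      (ζ : G → ℂ) 1 - b42Fix p x (ζ : G → ℂ) = ((m * (p - 1) : ℕ) : ℂ))
    (D r : ℕ) (hD : α 1 - b42Fix p x α = (D : ℂ)) (hDr : D = S.card * (p - 1) + r)
    (hr : r < p - 1)
    (hnt : ∀ ξ : Cfsg.IrrCharacter G, (ξ : G → ℂ) ≠ (fun _ => 1) →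
      (ξ : G → ℂ) 1 - b42Fix p x (ξ : G → ℂ) ≠ 0) :
    (∀ ζ ∈ S, (ζ : G → ℂ) 1 - b42Fix p x (ζ : G → ℂ) = ((p - 1 : ℕ) : ℂ)) ∧
    (r = 0 → ∀ g : G, α g = (a : ℂ) + ∑ ζ ∈ S, (ζ : G → ℂ) g) ∧
    (0 < r → ∀ (q R dmin : ℕ), (∀ ζ ∈ S, (ζ : G → ℂ) 1 = (q : ℂ)) →
      α 1 = ((a + S.card * q + R : ℕ) : ℂ) → R < 2 * dmin →
      (∀ ξ : Cfsg.IrrCharacter G, (ξ : G → ℂ) ≠ (fun _ => 1) →
        dmin ≤ Cfsg.charDegree (ξ : G → ℂ)) →
      ∃ ψ : Cfsg.IrrCharacter G, ψ ∉ S ∧ (ψ : G → ℂ) ≠ (fun _ => 1) ∧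
        (ψ : G → ℂ) 1 = (R : ℂ) ∧
        (ψ : G → ℂ) 1 - b42Fix p x (ψ : G → ℂ) = (r : ℂ) ∧
        ∀ g : G, α g = (a : ℂ) + ∑ ζ ∈ S, (ζ : G → ℂ) g + (ψ : G → ℂ) g) := by
  classical
  have hpp : p.Prime := Fact.out
  have hp : p ≠ 0 := hpp.ne_zero
  have hp1 : 0 < p - 1 := by have := hpp.two_le; omega
  have hxp : x ^ p = 1 := by rw [← hx]; exact pow_orderOf_eq_one x
  have := Fintype.ofFinite (Cfsg.IrrCharacter G)
  obtain ⟨m, hm1, hm2⟩ := Cfsg.Agent.Helper15.char_decomp α hα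
  have hnat : ∀ φ : Cfsg.IrrCharacter G, ∃ d : ℕ,
      (φ : G → ℂ) 1 - b42Fix p x (φ : G → ℂ) = (d : ℂ) := fun φ =>
    Helper72.b42c_diff_nat p hp x hxp (φ : G → ℂ) (Cfsg.Agent.Helper79.isCharacter_of_irr φ.2)
  choose d hd using hnat
  have hlin : b42Fix p x α = ∑ φ : Cfsg.IrrCharacter G, (m φ : ℂ) * b42Fix p x (φ : G → ℂ) := by
    conv_lhs => rw [hm2]
    exact Helper72.b42c_fix_sum p x Finset.univ (fun φ => (m φ : ℂ)) (fun φ => (φ : G → ℂ))
  have hval : ∀ g : G, α g = ∑ φ : Cfsg.IrrCharacter G, (m φ : ℂ) * (φ : G → ℂ) g := by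
    intro g
    conv_lhs => rw [hm2]
    simp only [Finset.sum_apply, Pi.smul_apply, smul_eq_mul]
  have hone := hval 1
  have hsum : D = ∑ φ : Cfsg.IrrCharacter G, m φ * d φ := by
    have : (D : ℂ) = ((∑ φ : Cfsg.IrrCharacter G, m φ * d φ : ℕ) : ℂ) := by
      rw [← hD, hlin, hone, ← Finset.sum_sub_distrib]
      push_cast
      refine Finset.sum_congr rfl (fun φ _ => ?_)
      rw [← hd φ]; ring
    exact_mod_cast this
  -- the trivial character
  set triv : Cfsg.IrrCharacter G := Helper81.trivIrr G with htriv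
  have htrivf : (triv : G → ℂ) = fun _ => 1 := rfl
  have htS : triv ∉ S := fun hmem => hS1 triv hmem htrivf
  have hmt : m triv = a := by
    have h1 := hm1 triv
    rw [htrivf, ha] at h1
    exact_mod_cast h1.symm
  have hdt : d triv = 0 := by
    have h1 := hd triv
    have h2 : b42Fix p x (triv : G → ℂ) = 1 := by
      unfold b42Fix
      rw [htrivf]
      simp only [Finset.sum_const, Finset.card_range, nsmul_eq_mul, mul_one]
      exact inv_mul_cancel₀ (Nat.cast_ne_zero.mpr hp)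
    rw [h2, htrivf, sub_self] at h1
    exact_mod_cast h1.symm
  set rest : Finset (Cfsg.IrrCharacter G) := (Finset.univ \ S).erase triv with hrest
  have hrest_ne : ∀ φ ∈ rest, (φ : G → ℂ) ≠ fun _ => 1 := by
    intro φ hφ hf
    have h1 : φ ≠ triv := Finset.ne_of_mem_erase hφ
    exact h1 (Subtype.ext hf)
  have hrest_S : ∀ φ ∈ rest, φ ∉ S := by
    intro φ hφ
    have h1 := Finset.mem_of_mem_erase hφ
    exact (Finset.mem_sdiff.1 h1).2
  have hrest_d : ∀ φ ∈ rest, 1 ≤ d φ := by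
    intro φ hφ
    have h1 := hnt φ (hrest_ne φ hφ)
    rw [hd φ] at h1
    have h2 : d φ ≠ 0 := by
      intro h0; apply h1; rw [h0]; simp
    omega
  -- the S-part
  have hSm : ∀ ζ ∈ S, 1 ≤ m ζ := by
    intro ζ hζ
    have hmζ : m ζ ≠ 0 := by
      intro h; apply hS ζ hζ; rw [hm1 ζ, h]; simp
    omega
  have hSd : ∀ ζ ∈ S, ∃ m' : ℕ, 1 ≤ m' ∧ d ζ = m' * (p - 1) := by
    intro ζ hζ
    obtain ⟨m', hm', hq⟩ := hμ ζ hζ
    refine ⟨m', hm', ?_⟩
    have : (d ζ : ℂ) = ((m' * (p - 1) : ℕ) : ℂ) := by rw [← hd ζ, hq]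
    exact_mod_cast this
  have hSge : ∀ ζ ∈ S, p - 1 ≤ m ζ * d ζ := by
    intro ζ hζ
    obtain ⟨m', hm', hdz⟩ := hSd ζ hζ
    rw [hdz]
    calc p - 1 = 1 * (1 * (p - 1)) := by ring
      _ ≤ m ζ * (m' * (p - 1)) :=
        Nat.mul_le_mul (hSm ζ hζ) (Nat.mul_le_mul_right _ hm')
  have hsplitD : D = ∑ φ ∈ S, m φ * d φ + ∑ φ ∈ rest, m φ * d φ := by
    rw [hsum, s4504dec_split S triv htS (fun φ => m φ * d φ), hdt, mul_zero, add_zero]
  have hSeq : ∀ ζ ∈ S, m ζ = 1 ∧ d ζ = p - 1 := by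
    intro ζ hζ
    obtain ⟨m', hm', hdz⟩ := hSd ζ hζ
    have h1 : ∑ φ ∈ S, m φ * d φ = m ζ * d ζ + ∑ φ ∈ S.erase ζ, m φ * d φ :=
      (Finset.add_sum_erase S (fun φ => m φ * d φ) hζ).symm
    have h2 : (S.erase ζ).card * (p - 1) ≤ ∑ φ ∈ S.erase ζ, m φ * d φ := by
      rw [← smul_eq_mul, ← Finset.sum_const]
      exact Finset.sum_le_sum (fun φ hφ => hSge φ (Finset.mem_of_mem_erase hφ))
    rw [Finset.card_erase_of_mem hζ] at h2
    have hcard : 1 ≤ S.card := Finset.card_pos.2 ⟨ζ, hζ⟩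
    have h3 : m ζ * d ζ + (S.card - 1) * (p - 1) ≤ S.card * (p - 1) + r := by
      have h4 : ∑ φ ∈ S, m φ * d φ ≤ D := by rw [hsplitD]; exact Nat.le_add_right _ _
      rw [← hDr]
      calc m ζ * d ζ + (S.card - 1) * (p - 1) ≤ m ζ * d ζ + ∑ φ ∈ S.erase ζ, m φ * d φ :=
            Nat.add_le_add_left h2 _
        _ = ∑ φ ∈ S, m φ * d φ := h1.symm
        _ ≤ D := h4
    have h5 : S.card * (p - 1) = (S.card - 1) * (p - 1) + (p - 1) := by
      have : S.card = (S.card - 1) + 1 := by omega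
      conv_lhs => rw [this]
      ring
    have h6 : m ζ * d ζ < 2 * (p - 1) := by omega
    rw [hdz, ← mul_assoc] at h6
    have h7 : m ζ * m' < 2 := lt_of_mul_lt_mul_right h6 (Nat.zero_le _)
    have hmz := hSm ζ hζ
    have h8 : m ζ = 1 ∧ m' = 1 := by
      rcases Nat.lt_or_ge (m ζ) 2 with hlt | hge
      · have hm1' : m ζ = 1 := by omega
        rw [hm1', one_mul] at h7
        exact ⟨hm1', by omega⟩
      · exfalso
        have : 2 * 1 ≤ m ζ * m' := Nat.mul_le_mul hge hm'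
        omega
    refine ⟨h8.1, ?_⟩
    rw [hdz, h8.2, one_mul]
  have hSsum : ∑ φ ∈ S, m φ * d φ = S.card * (p - 1) := by
    rw [Finset.sum_congr rfl (fun ζ hζ => by rw [(hSeq ζ hζ).1, (hSeq ζ hζ).2, one_mul] :
      ∀ ζ ∈ S, m ζ * d ζ = p - 1), Finset.sum_const, smul_eq_mul]
  have hrestsum : ∑ φ ∈ rest, m φ * d φ = r := by
    have h1 := hsplitD
    rw [hSsum, hDr] at h1
    omega
  -- the values of α
  have hvalsplit : ∀ g : G, α g = ∑ ζ ∈ S, (ζ : G → ℂ) g + (a : ℂ)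
      + ∑ φ ∈ rest, (m φ : ℂ) * (φ : G → ℂ) g := by
    intro g
    rw [hval g, s4504dec_split S triv htS (fun φ => (m φ : ℂ) * (φ : G → ℂ) g), hmt, htrivf,
      mul_one]
    congr 2
    refine Finset.sum_congr rfl (fun ζ hζ => ?_)
    rw [(hSeq ζ hζ).1, Nat.cast_one, one_mul]
  refine ⟨?_, ?_, ?_⟩
  · intro ζ hζ
    rw [hd ζ, (hSeq ζ hζ).2]
  · intro hr0 g
    have hm0 : ∀ φ ∈ rest, m φ = 0 := by
      intro φ hφ
      rw [hr0] at hrestsum
      have h1 := (Finset.sum_eq_zero_iff.1 hrestsum) φ hφ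
      rcases Nat.mul_eq_zero.1 h1 with h2 | h2
      · exact h2
      · have := hrest_d φ hφ; omega
    have hz : ∑ φ ∈ rest, (m φ : ℂ) * (φ : G → ℂ) g = 0 :=
      Finset.sum_eq_zero (fun φ hφ => by rw [hm0 φ hφ]; simp)
    rw [hvalsplit g, hz, add_zero]
    ring
  · intro hr0 q R dmin hq hα1 hR hdmin
    -- degrees
    have hdegS : ∀ ζ ∈ S, Cfsg.charDegree (ζ : G → ℂ) = q := by
      intro ζ hζ
      have h1 := Helper81.irr_one_eq_charDegree ζ
      rw [hq ζ hζ] at h1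
      exact_mod_cast h1.symm
    have hRsum : ∑ φ ∈ rest, m φ * Cfsg.charDegree (φ : G → ℂ) = R := by
      have h1 : ((a + S.card * q + R : ℕ) : ℂ)
          = ((S.card * q + a + ∑ φ ∈ rest, m φ * Cfsg.charDegree (φ : G → ℂ) : ℕ) : ℂ) := by
        rw [← hα1, hvalsplit 1]
        push_cast
        congr 1
        · congr 1
          rw [Finset.sum_congr rfl (fun ζ hζ => hq ζ hζ), Finset.sum_const, nsmul_eq_mul]
        · refine Finset.sum_congr rfl (fun φ _ => ?_)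
          rw [Helper81.irr_one_eq_charDegree φ]
      have h2 : a + S.card * q + R
          = S.card * q + a + ∑ φ ∈ rest, m φ * Cfsg.charDegree (φ : G → ℂ) := by
        exact_mod_cast h1
      omega
    -- a constituent in `rest`
    have hex : ∃ ψ ∈ rest, m ψ * d ψ ≠ 0 := by
      by_contra hcon
      push Not at hcon
      have : ∑ φ ∈ rest, m φ * d φ = 0 := Finset.sum_eq_zero hcon
      omega
    obtain ⟨ψ, hψrest, hψne⟩ := hex
    have hmψ : 1 ≤ m ψ := by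
      rcases Nat.eq_zero_or_pos (m ψ) with h0 | h0
      · rw [h0, zero_mul] at hψne; exact absurd rfl hψne
      · exact h0
    have hdegψ : dmin ≤ Cfsg.charDegree (ψ : G → ℂ) := hdmin ψ (hrest_ne ψ hψrest)
    have hsplitR : ∑ φ ∈ rest, m φ * Cfsg.charDegree (φ : G → ℂ)
        = m ψ * Cfsg.charDegree (ψ : G → ℂ)
          + ∑ φ ∈ rest.erase ψ, m φ * Cfsg.charDegree (φ : G → ℂ) :=
      (Finset.add_sum_erase rest (fun φ => m φ * Cfsg.charDegree (φ : G → ℂ)) hψrest).symm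
    have hmψ1 : m ψ = 1 := by
      by_contra hne
      have h2 : 2 ≤ m ψ := by omega
      have h3 : 2 * dmin ≤ m ψ * Cfsg.charDegree (ψ : G → ℂ) := Nat.mul_le_mul h2 hdegψ
      have h4 : m ψ * Cfsg.charDegree (ψ : G → ℂ) ≤ R := by
        rw [← hRsum, hsplitR]; exact Nat.le_add_right _ _
      omega
    have hothers : ∀ φ ∈ rest.erase ψ, m φ = 0 := by
      intro φ hφ
      by_contra hne
      have h1 : 1 ≤ m φ := by omega
      have hφrest := Finset.mem_of_mem_erase hφ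
      have h2 : dmin ≤ m φ * Cfsg.charDegree (φ : G → ℂ) := by
        calc dmin ≤ Cfsg.charDegree (φ : G → ℂ) := hdmin φ (hrest_ne φ hφrest)
          _ = 1 * Cfsg.charDegree (φ : G → ℂ) := (one_mul _).symm
          _ ≤ m φ * Cfsg.charDegree (φ : G → ℂ) := Nat.mul_le_mul_right _ h1
      have h3 : m φ * Cfsg.charDegree (φ : G → ℂ)
          ≤ ∑ φ' ∈ rest.erase ψ, m φ' * Cfsg.charDegree (φ' : G → ℂ) :=
        Finset.single_le_sum (f := fun φ' => m φ' * Cfsg.charDegree (φ' : G → ℂ))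
          (fun _ _ => Nat.zero_le _) hφ
      have h4 := hRsum
      rw [hsplitR, hmψ1, one_mul] at h4
      omega
    refine ⟨ψ, hrest_S ψ hψrest, hrest_ne ψ hψrest, ?_, ?_, ?_⟩
    · have h4 := hRsum
      have hz : ∑ φ ∈ rest.erase ψ, m φ * Cfsg.charDegree (φ : G → ℂ) = 0 :=
        Finset.sum_eq_zero (fun φ hφ => by rw [hothers φ hφ, zero_mul])
      rw [hsplitR, hmψ1, one_mul, hz, add_zero] at h4
      rw [Helper81.irr_one_eq_charDegree ψ, h4]
    · have h4 := hrestsum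
      have hz : ∑ φ ∈ rest.erase ψ, m φ * d φ = 0 :=
        Finset.sum_eq_zero (fun φ hφ => by rw [hothers φ hφ, zero_mul])
      rw [← Finset.add_sum_erase rest (fun φ => m φ * d φ) hψrest, hmψ1, one_mul, hz,
        add_zero] at h4
      rw [hd ψ, h4]
    · intro g
      have hz : ∑ φ ∈ rest.erase ψ, (m φ : ℂ) * (φ : G → ℂ) g = 0 :=
        Finset.sum_eq_zero (fun φ hφ => by rw [hothers φ hφ]; simp)
      rw [hvalsplit g, ← Finset.add_sum_erase rest (fun φ => (m φ : ℂ) * (φ : G → ℂ) g) hψrest,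
        hz, hmψ1, add_zero]
      push_cast
      ring

end Cfsg.Agent.Helper9
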