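import Mathlib
import Cfsg.Agent.Helper9.S4504STools

/-!
Piece ONLY of the sub-CALL S4504S (helper15; piece STRUCT of helper8's CALL S4504).
-/

universe u
set_option autoImplicit false
open Cfsg Cfsg.Agent.Helper77
open scoped ComplexConjugate

namespace Cfsg.Agent.Helper9

variable {G : Type u} [Group G] [Finite G]

/-- ONLY: among the irreducible characters with the central character of `χ`, only `χ, χ₂` are
not constant on `⟨x⟩ \ 1`. -/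
theorem s4504s_only (p : ℕ) [Fact p.Prime] [Fintype G] (x : G) (K : Subgroup G)
    (h : D1Hyp p x K) (hKc : ∀ k ∈ K, k ∈ Subgroup.center G) (v : (ZMod p)ˣ)
    (hcls : ∀ b : ℕ, ¬ p ∣ b → (∃ n : G, n * x * n⁻¹ = x ^ b) ∨
        (∃ n : G, n * x ^ (v : ZMod p).val * n⁻¹ = x ^ b))
    (χ χ₂ : Cfsg.IrrCharacter G) (hne : χ ≠ χ₂)
    (hreg : ∀ g : G, ¬ p ∣ orderOf g → (χ₂ : G → ℂ) g = (χ : G → ℂ) g)
    (hsum : (χ : G → ℂ) x + (χ₂ : G → ℂ) x = -1)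
    (hvx : (χ : G → ℂ) (x ^ (v : ZMod p).val) = (χ₂ : G → ℂ) x)
    (hvx₂ : (χ₂ : G → ℂ) (x ^ (v : ZMod p).val) = (χ : G → ℂ) x)
    (hxne : (χ : G → ℂ) x ≠ (χ₂ : G → ℂ) x)
    (ξ : Cfsg.IrrCharacter G)
    (hcc : ∀ z ∈ Subgroup.center G,
      (ξ : G → ℂ) z * (χ : G → ℂ) 1 = (χ : G → ℂ) z * (ξ : G → ℂ) 1)
    (h1 : ξ ≠ χ) (h2 : ξ ≠ χ₂) :
    ∀ b : ℕ, ¬ p ∣ b → (ξ : G → ℂ) (x ^ b) = (ξ : G → ℂ) x := by
  classical
  have hdet : (χ : G → ℂ) x ^ 2 ≠ (χ : G → ℂ) (x ^ (v : ZMod p).val) ^ 2 := by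
    rw [hvx]
    intro heq
    have h3 : ((χ : G → ℂ) x - (χ₂ : G → ℂ) x) * ((χ : G → ℂ) x + (χ₂ : G → ℂ) x) = 0 := by
      linear_combination heq
    rw [hsum] at h3
    rcases mul_eq_zero.1 h3 with h0 | h0
    · exact hxne (sub_eq_zero.1 h0)
    · norm_num at h0
  have hs : ∀ k ∈ K, (χ : G → ℂ) k / (χ : G → ℂ) 1 = (ξ : G → ℂ) k / (ξ : G → ℂ) 1 := by
    intro k hk
    have h3 := hcc k (hKc k hk)
    rw [div_eq_div_iff (Helper76.irr_one_ne_zero χ) (Helper76.irr_one_ne_zero ξ)]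
    exact h3.symm
  obtain ⟨A, -, -, -, hall⟩ := s4504t_main p x K h hKc v hcls χ χ₂ ξ hne hreg hs hvx.symm hvx₂
    hdet h1 h2
  exact hall

end Cfsg.Agent.Helper9
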