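import Mathlib
import Cfsg.Agent.Helper79.S4705Defs
import Cfsg.Agent.Helper79.Basic
import Cfsg.Agent.Helper81.CharBasic
import Cfsg.Agent.Helper80.CharIrr
import Cfsg.Agent.Helper67.BRK1

/-!
Piece POS of the sub-CALL S4705O (stage ORDER of helper79's CALL S4705): `X₂` is non-negative on
the `p`-regular elements (class-algebra constant of `cl(x) cl(x⁻¹)`).
-/

set_option autoImplicit false
open Cfsg Cfsg.Agent.Helper79
open scoped ComplexConjugate

universe u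

namespace Cfsg.Agent.Helper9

variable {H : Type u} [Group H] [Finite H]

/-- POS: `X₂` is nonnegative on the `p`-regular elements. -/
theorem s4705o_pos (p : ℕ) [Fact p.Prime] (x : H) (ζ : H → ℂ) (h : S4705Wk p x ζ)
    (X₁ X₂ : Cfsg.IrrCharacter H) (Y : Finset (Cfsg.IrrCharacter H))
    (T : S4705TabL p x ζ 0 X₁ X₂ Y) (hZ : Subgroup.center H = ⊥)
    (hX₁ : ∀ g : H, (X₁ : H → ℂ) g = 1) (g : H) (hg : ¬ p ∣ orderOf g) (n : ℤ)
    (hn : (X₂ : H → ℂ) g = (n : ℂ)) : 0 ≤ n := by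
  classical
  let _ : Fintype H := Fintype.ofFinite H
  let _ : Fintype (Cfsg.IrrCharacter H) := Fintype.ofFinite _
  have hpp : p.Prime := Fact.out
  have hp5 := h.hp
  have hp1 : ¬ p ∣ 1 := fun hd => hpp.one_lt.ne' (Nat.dvd_one.1 hd)
  have h1reg : ¬ p ∣ orderOf (1 : H) := by
    rw [orderOf_one]; exact hp1
  obtain ⟨N, hNdef⟩ : ∃ N : ℕ,
      N = Nat.card {gh : H × H // gh.1 * x * gh.1⁻¹ * (gh.2 * x⁻¹ * gh.2⁻¹) = g} := ⟨_, rfl⟩
  have hN := Cfsg.Agent.Helper67.br_class_const x x⁻¹ g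
  rw [finsum_eq_sum_of_fintype, ← hNdef] at hN
  obtain ⟨f, hf⟩ : ∃ f : Cfsg.IrrCharacter H → ℂ, f = fun χ : Cfsg.IrrCharacter H =>
      (χ : H → ℂ) x * (χ : H → ℂ) x⁻¹ * conj ((χ : H → ℂ) g) / (χ : H → ℂ) 1 := ⟨_, rfl⟩
  have hNf : (N : ℂ) = (Nat.card H : ℂ) * ∑ χ : Cfsg.IrrCharacter H, f χ := by
    rw [hN, hf]
  have hover : ∀ ξ : Cfsg.IrrCharacter H, S4705Over ζ (ξ : H → ℂ) := by
    intro ξ z hz
    rw [hZ, Subgroup.mem_bot] at hz
    rw [hz]
    ring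
  have hsub : ∑ χ : Cfsg.IrrCharacter H, f χ = ∑ χ ∈ insert X₁ (insert X₂ Y), f χ := by
    symm
    apply Finset.sum_subset (Finset.subset_univ _)
    intro ξ _ hξ
    have h1 : ξ ≠ X₁ := fun he => hξ (by rw [he]; exact Finset.mem_insert_self _ _)
    have h2 : ξ ≠ X₂ := fun he =>
      hξ (by rw [he]; exact Finset.mem_insert_of_mem (Finset.mem_insert_self _ _))
    have h3 : ξ ∉ Y := fun hm => hξ (Finset.mem_insert_of_mem (Finset.mem_insert_of_mem hm))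
    have h0 := T.compl ξ (hover ξ) h1 h2 h3
    rw [hf]
    simp only
    rw [h0]
    simp
  have hX₁notin : X₁ ∉ insert X₂ Y := by
    rw [Finset.mem_insert]
    rintro (he | hm)
    · exact T.ne he
    · exact T.n₁ hm
  have hf1 : f X₁ = 1 := by
    rw [hf]
    simp only
    rw [hX₁, hX₁, hX₁, hX₁]
    simp
  have hXx : (X₂ : H → ℂ) x = -1 := by
    have h0 := T.val₂ 1 hp1
    rwa [pow_one] at h0
  have hXinv : (X₂ : H → ℂ) x⁻¹ = -1 := by
    rw [Cfsg.Agent.Helper80.isCharacter_inv (Cfsg.Agent.Helper79.isCharacter_of_irr X₂.2), hXx]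
    simp
  have hXdeg : (X₂ : H → ℂ) 1 = (p : ℂ) - 1 := by
    have h0 := T.deg₂
    rw [zero_add, one_mul] at h0
    linear_combination h0
  have hpC : (5 : ℝ) < (p : ℝ) := by exact_mod_cast hp5
  have hp1' : (p : ℂ) - 1 ≠ 0 := by
    intro h0
    have h2 : (p : ℂ) = 1 := by linear_combination h0
    have h3 : p = 1 := by exact_mod_cast h2
    omega
  have hp2' : (p : ℂ) - 2 ≠ 0 := by
    intro h0
    have h2 : (p : ℂ) = 2 := by linear_combination h0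
    have h3 : p = 2 := by exact_mod_cast h2
    omega
  have hf2 : f X₂ = (n : ℂ) / ((p : ℂ) - 1) := by
    rw [hf]
    simp only
    rw [hXx, hXinv, hn, hXdeg, map_intCast]
    ring
  have hζ1 : ζ 1 = (p : ℂ) - 2 := by
    have h0 := Cfsg.Agent.Helper81.irr_one_eq_charDegree (⟨ζ, h.hζ⟩ : Cfsg.IrrCharacter H)
    have h2 : ((Cfsg.charDegree ζ : ℕ) : ℂ) + 2 = (p : ℂ) := by exact_mod_cast h.hdeg
    have h3 : ζ 1 = ((Cfsg.charDegree ζ : ℕ) : ℂ) := h0
    rw [h3]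
    linear_combination h2
  have hζg : ζ g = (n : ℂ) - 1 := by
    have h0 := T.reg g hg
    rw [hX₁, hn] at h0
    exact h0.symm
  have hfY : ∑ ψ ∈ Y, f ψ = (n : ℂ) - 1 := by
    have hterm : ∀ ψ ∈ Y, f ψ = ((ψ : H → ℂ) x * conj ((ψ : H → ℂ) x))
        * (((n : ℂ) - 1) / ((p : ℂ) - 2)) := by
      intro ψ hψ
      rw [hf]
      simp only
      rw [Cfsg.Agent.Helper80.isCharacter_inv (Cfsg.Agent.Helper79.isCharacter_of_irr ψ.2),
        T.Yreg ψ hψ g hg, T.Yreg ψ hψ 1 h1reg, hζ1, hζg, map_sub, map_one, map_intCast]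
      ring
    rw [Finset.sum_congr rfl hterm, ← Finset.sum_mul, T.Ysq]
    field_simp
  rw [hsub, Finset.sum_insert hX₁notin, Finset.sum_insert T.n₂, hf1, hf2, hfY] at hNf
  have key : (N : ℂ) * ((p : ℂ) - 1) = (Nat.card H : ℂ) * (n : ℂ) * (p : ℂ) := by
    rw [hNf]
    field_simp
    ring
  have keyZ : (N : ℤ) * ((p : ℤ) - 1) = (Nat.card H : ℤ) * n * (p : ℤ) := by
    have h0 : (((N : ℤ) * ((p : ℤ) - 1) : ℤ) : ℂ) = (((Nat.card H : ℤ) * n * (p : ℤ) : ℤ) : ℂ) := by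
      push_cast
      exact key
    exact_mod_cast h0
  by_contra hneg
  have hn0 : n < 0 := not_le.1 hneg
  have hHpos : (0 : ℤ) < (Nat.card H : ℤ) := by exact_mod_cast Nat.card_pos
  have hppos : (0 : ℤ) < (p : ℤ) := by exact_mod_cast hpp.pos
  have hl : (0 : ℤ) ≤ (N : ℤ) * ((p : ℤ) - 1) := by
    apply mul_nonneg (by exact_mod_cast Nat.zero_le N)
    have : (1 : ℤ) ≤ (p : ℤ) := by exact_mod_cast hpp.one_lt.le
    linarith
  have hr : (Nat.card H : ℤ) * n * (p : ℤ) < 0 :=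
    mul_neg_of_neg_of_pos (mul_neg_of_pos_of_neg hHpos hn0) hppos
  rw [keyZ] at hl
  exact absurd hl (not_le.2 hr)

end Cfsg.Agent.Helper9
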