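import Mathlib
import Cfsg.Agent.Helper79.S4705Defs
import Cfsg.Agent.Helper79.Basic
import Cfsg.Agent.Helper81.CharBasic
import Cfsg.Agent.Helper88.S4705OZBOT
import Cfsg.Agent.Helper8.S4705ORAT
import Cfsg.Agent.Helper9.S4705OPOS
import Cfsg.Agent.Helper1.S4705OSING
import Cfsg.Agent.Helper39.S4705OSUMS
import Cfsg.Agent.Helper1.S4705OMOM

/-!
Stage ORDER of CALL S4705 (helper79; Brauer 1966, degree `p - 2`): assembly of the pieces of the
sub-CALL S4705O (ZBOT helper88, RAT helper8, POS helper9, SING + MOM helper1, SUMS helper39).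
-/

set_option autoImplicit false
open Cfsg Cfsg.Agent.Helper79
open scoped ComplexConjugate

universe u

namespace Cfsg.Agent.Helper9

variable {H : Type u} [Group H] [Finite H]

/-! ### Assembly -/

theorem s4705_order (p : ℕ) [Fact p.Prime] (x : H)
    (ζ : H → ℂ) (h : S4705Wk p x ζ) (hperf : commutator H = ⊤) (S : S4705Shape p x ζ)
    (X₁ X₂ : Cfsg.IrrCharacter H) (Y : Finset (Cfsg.IrrCharacter H))
    (T : S4705TabL p x ζ 0 X₁ X₂ Y) :
    Subgroup.center H = ⊥ ∧ Nat.card H = p * (p - 1) * (p - 2) := by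
  classical
  letI : Fintype H := Fintype.ofFinite H
  obtain ⟨hZ, hX₁⟩ := Cfsg.Agent.Helper88.s4705o_zbot p x ζ h hperf X₁ X₂ Y T
  refine ⟨hZ, ?_⟩
  have hrat := Cfsg.Agent.Helper8.s4705o_rat p x ζ h X₁ X₂ Y T hZ
  choose f hf using hrat
  have hpp : p.Prime := Fact.out
  have hp5 := h.hp
  have hnd1 : ¬ p ∣ 1 := fun hd => hpp.one_lt.ne' (Nat.dvd_one.mp hd)
  have hne : (X₂ : H → ℂ) ≠ fun _ => 1 := by
    intro hcon
    have e1 := T.val₂ 1 hnd1
    rw [hcon] at e1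
    norm_num at e1
  obtain ⟨hs1, hs2, ⟨y, hs3⟩, hle⟩ := Cfsg.Agent.Helper39.s4705o_sums X₂ hne f hf
  obtain ⟨hcount, hconj⟩ := Cfsg.Agent.Helper1.s4705o_sing p x ζ h S hZ
  have h1 : f 1 = (p : ℤ) - 1 := by
    have e1 := T.deg₂
    rw [hf 1] at e1
    have e2 : ((f 1 + 1 : ℤ) : ℂ) = (((p : ℤ)) : ℂ) := by
      push_cast
      rw [e1]
      push_cast
      ring
    have e3 := Int.cast_injective e2
    linarith
  have hsing : ∀ g : H, p ∣ orderOf g → f g = -1 := by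
    intro g hg
    obtain ⟨y', b, hb, hyb⟩ := hconj g hg
    have e1 : (X₂ : H → ℂ) g = -1 := by
      rw [← Cfsg.Agent.Helper81.irr_conj X₂ g y', hyb]
      exact T.val₂ b hb
    rw [hf g] at e1
    exact_mod_cast e1
  have hreg : ∀ g : H, ¬ p ∣ orderOf g → 0 ≤ f g := fun g hg =>
    Cfsg.Agent.Helper9.s4705o_pos p x ζ h X₁ X₂ Y T hZ hX₁ g hg (f g) (hf g)
  have hord1 : ¬ p ∣ orderOf (1 : H) := by rw [orderOf_one]; exact hnd1
  have hfaith' : ∀ g : H, ¬ p ∣ orderOf g → f g = (p : ℤ) - 1 → g = 1 := by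
    intro g hg hfg
    apply h.hfaith
    have e1 := T.reg g hg
    have e2 := T.reg 1 hord1
    rw [hX₁, hf] at e1 e2
    rw [← e1, ← e2, hfg, h1]
  exact Cfsg.Agent.Helper1.s4705o_mom p hp5 f hs1 hs2 y hs3 hle h1 hsing hreg hfaith' hcount

end Cfsg.Agent.Helper9
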