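import Mathlib
import Cfsg.Agent.Helper1.MinNormal

set_option autoImplicit false

namespace Cfsg.Agent.Helper9

open Subgroup MulAction

/-- Basic structure of a minimal normal subgroup `M` of a finite solvable primitive group:
transitive, commutative, of prime exponent, and a point-fixing element of `M` is trivial. -/
theorem solvPrim_basic {G : Type*} [Group G] [Finite G] [Group.IsSolvable G] {Ω : Type*}
    [Nonempty Ω] [MulAction G Ω] [FaithfulSMul G Ω] (hprim : MulAction.IsPreprimitive G Ω)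
    (M : Subgroup G) [M.Normal] (hM : M ≠ ⊥)
    (hmin : ∀ K : Subgroup G, K.Normal → K ≤ M → K = ⊥ ∨ K = M) :
    MulAction.IsPretransitive M Ω ∧ (∀ a ∈ M, ∀ b ∈ M, a * b = b * a) ∧
      (∃ p : ℕ, p.Prime ∧ ∀ x ∈ M, x ^ p = 1) ∧
      (∀ m ∈ M, ∀ ω : Ω, m • ω = ω → m = 1) := by
  have htrans : MulAction.IsPretransitive M Ω := by
    apply MulAction.IsQuasiPreprimitive.isPretransitive_of_normal (G := G)
    intro h
    apply hM
    rw [Subgroup.eq_bot_iff_forall]
    intro m hm
    apply FaithfulSMul.eq_of_smul_eq_smul (α := Ω)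
    intro a
    have ha : a ∈ fixedPoints M Ω := by rw [h]; exact Set.mem_univ a
    rw [one_smul]
    exact ha ⟨m, hm⟩
  obtain ⟨hcomm, hp⟩ := Cfsg.Agent.Helper1.minNormal_elemAbelian M hM hmin
  have hab : ∀ a ∈ M, ∀ b ∈ M, a * b = b * a := by
    intro a ha b hb
    have := hcomm.is_comm.comm (⟨a, ha⟩ : M) ⟨b, hb⟩
    exact congrArg Subtype.val this
  refine ⟨htrans, hab, hp, ?_⟩
  intro m hm ω hω
  apply FaithfulSMul.eq_of_smul_eq_smul (α := Ω)
  intro a
  obtain ⟨n, hn⟩ := MulAction.exists_smul_eq M ω a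
  have hn' : (n : G) • ω = a := hn
  rw [one_smul, ← hn', ← mul_smul, hab m hm n n.2, mul_smul, hω]

end Cfsg.Agent.Helper9
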