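import Mathlib
import Cfsg.Agent.Helper72.Subnormal

/-!
# Families of subnormal subgroups (helper9)

Relative forms of the lemmas of Kurzweil–Stellmacher §6.7: a conjugation-invariant family of
subnormal subgroups, a proper subfamily, and a member outside it normalizing the join; the
"unique maximal element" lemma; Matsuyama's lemma on weak closures in Sylow subgroups.
-/

set_option autoImplicit false

namespace Cfsg.Agent.Helper9

open Cfsg.Agent.Helper72
open scoped Pointwise

variable {X : Type*} [Group X]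

theorem conj_smul_eq_map (g : X) (H : Subgroup X) :
    MulAut.conj g • H = H.map (MulAut.conj g).toMonoidHom := rfl

/-- Relative subnormality restricts to intermediate subgroups. -/
theorem subnIn_of_le {T N : Subgroup X} (h : SubnIn T N) :
    ∀ K : Subgroup X, N ≤ K → K ≤ T → SubnIn K N := by
  induction h with
  | refl T =>
    intro K h1 h2
    rw [le_antisymm h2 h1]
    exact SubnIn.refl _
  | step T T₁ N h1 h2 h3 ih =>
    intro K hNK hKT
    have h4 : SubnIn (K ⊓ T₁) N := ih (K ⊓ T₁) (le_inf hNK h3.le) inf_le_right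
    refine SubnIn.step K (K ⊓ T₁) N inf_le_left ?_ h4
    intro k hk
    apply mem_normalizer_of_map_conj_eq
    rw [Subgroup.map_inf _ _ _ (MulAut.conj k).injective,
      map_conj_eq_of_mem_normalizer K k (Subgroup.le_normalizer hk),
      map_conj_eq_of_mem_normalizer T₁ k (h2 (hKT hk))]

theorem subnIn_bot (T : Subgroup X) : SubnIn T ⊥ :=
  (SubnIn.refl T).of_normal bot_le
    (le_normalizer_of_map_conj_le ⊥ T (fun s _ => by rw [Subgroup.map_bot]))

theorem subnIn_sSup [Finite X] {T : Subgroup X} (S : Set (Subgroup X))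
    (h : ∀ U ∈ S, SubnIn T U) : SubnIn T (sSup S) := by
  have hfin : S.Finite := Set.toFinite S
  induction S, hfin using Set.Finite.induction_on with
  | empty => rw [sSup_empty]; exact subnIn_bot T
  | @insert a s ha hs ih =>
    rw [sSup_insert]
    exact (h _ (Set.mem_insert _ _)).join (ih (fun U hU => h U (Set.mem_insert_of_mem _ hU)))

theorem subnIn_exists_normal_lt {T H : Subgroup X} (h : SubnIn T H) (hne : H ≠ T) :
    ∃ N, H ≤ N ∧ N < T ∧ T ≤ Subgroup.normalizer (N : Set X) := by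
  induction h with
  | refl T => exact absurd rfl hne
  | step T T₁ H h1 h2 h3 ih =>
    by_cases hT : T₁ = T
    · subst hT; exact ih hne
    · exact ⟨T₁, h3.le, lt_of_le_of_ne h1 hT, h2⟩

/-- A subgroup normalizes the join of a family invariant under conjugation by its elements. -/
theorem le_normalizer_sSup (T : Subgroup X) (S : Set (Subgroup X))
    (h : ∀ U ∈ S, ∀ t ∈ T, MulAut.conj t • U ∈ S) :
    T ≤ Subgroup.normalizer ((sSup S : Subgroup X) : Set X) := by
  apply le_normalizer_of_map_conj_le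
  intro t ht
  rw [Subgroup.map_le_iff_le_comap]
  apply sSup_le
  intro U hU
  rw [← Subgroup.map_le_iff_le_comap]
  exact le_sSup (h U hU t ht)

/-- Kurzweil–Stellmacher 6.7.2 in relative form: if `S` is a `T`-invariant family of subnormal
subgroups of `T` and `S₀` is a proper subfamily, then some member of `S` outside `S₀` normalizes
the join of `S₀`. -/
theorem subn_family_aux [Finite X] : ∀ (n : ℕ) (T : Subgroup X), Nat.card T ≤ n →
    ∀ (S S₀ : Set (Subgroup X)), (∀ U ∈ S, SubnIn T U) →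
    (∀ U ∈ S, ∀ g ∈ T, MulAut.conj g • U ∈ S) → S₀ ⊂ S →
    ∃ Y ∈ S, Y ∉ S₀ ∧ Y ≤ Subgroup.normalizer ((sSup S₀ : Subgroup X) : Set X) := by
  intro n
  induction n with
  | zero =>
    intro T hT
    have := Nat.card_pos (α := T)
    omega
  | succ n ih =>
    intro T hT S S₀ hS hconj h₀
    obtain ⟨hsub, hnot⟩ := h₀
    obtain ⟨Y₀, hY₀S, hY₀⟩ := Set.not_subset.mp hnot
    by_cases hcase : ∃ Y ∈ S, Y ∉ S₀ ∧ Y ≤ sSup S₀
    · obtain ⟨Y, hYS, hY, hle⟩ := hcase
      exact ⟨Y, hYS, hY, hle.trans Subgroup.le_normalizer⟩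
    · have hH : SubnIn T (sSup S₀) := subnIn_sSup S₀ (fun U hU => hS U (hsub hU))
      have hne : sSup S₀ ≠ T := by
        intro h
        apply hcase
        refine ⟨Y₀, hY₀S, hY₀, ?_⟩
        rw [h]
        exact (hS Y₀ hY₀S).le
      obtain ⟨N, hHN, hNT, hTN⟩ := subnIn_exists_normal_lt hH hne
      have hS₀N : S₀ ⊆ {U | U ∈ S ∧ U ≤ N} := fun U hU => ⟨hsub hU, (le_sSup hU).trans hHN⟩
      by_cases heq : {U | U ∈ S ∧ U ≤ N} ⊆ S₀
      · have hTH : T ≤ Subgroup.normalizer ((sSup S₀ : Subgroup X) : Set X) := by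
          apply le_normalizer_sSup
          intro U hU t ht
          apply heq
          refine ⟨hconj U (hsub hU) t ht, ?_⟩
          rw [conj_smul_eq_map]
          calc U.map (MulAut.conj t).toMonoidHom
              ≤ N.map (MulAut.conj t).toMonoidHom :=
                Subgroup.map_mono ((le_sSup hU).trans hHN)
            _ = N := map_conj_eq_of_mem_normalizer N t (hTN ht)
        exact ⟨Y₀, hY₀S, hY₀, (hS Y₀ hY₀S).le.trans hTH⟩
      · have hcard : Nat.card N ≤ n := by
          have := card_lt_of_lt hNT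
          omega
        obtain ⟨Y, hY1, hY2, hY3⟩ := ih N hcard {U | U ∈ S ∧ U ≤ N} S₀
          (fun U hU => subnIn_of_le (hS U hU.1) N hU.2 hNT.le)
          (fun U hU g hg => ⟨hconj U hU.1 g (hNT.le hg), map_conj_le_of_mem hU.2 hg⟩)
          ⟨hS₀N, heq⟩
        exact ⟨Y, hY1.1, hY2, hY3⟩

theorem isSubnormal_of_isPGroup_aux {P : Type*} [Group P] [Finite P] {p : ℕ} [Fact p.Prime]
    (hP : IsPGroup p P) : ∀ (n : ℕ) (H : Subgroup P), Nat.card P - Nat.card H ≤ n →
      H.IsSubnormal := by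
  have hnil : Group.IsNilpotent P := hP.isNilpotent
  have hnc : NormalizerCondition P := Group.normalizerCondition_of_isNilpotent
  intro n
  induction n with
  | zero =>
    intro H hH
    have : H = ⊤ := Subgroup.eq_top_of_le_card H (by omega)
    rw [this]; exact Subgroup.IsSubnormal.top
  | succ n ih =>
    intro H hH
    by_cases htop : H = ⊤
    · rw [htop]; exact Subgroup.IsSubnormal.top
    · have hlt : H < Subgroup.normalizer (H : Set P) := hnc H (lt_top_iff_ne_top.mpr htop)
      have hcard : Nat.card H < Nat.card (Subgroup.normalizer (H : Set P)) := by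
        by_contra hge
        exact hlt.ne (Subgroup.eq_of_le_of_card_ge hlt.le (by omega))
      have hle : Nat.card (Subgroup.normalizer (H : Set P)) ≤ Nat.card P :=
        Subgroup.card_le_card_group _
      exact Subgroup.IsSubnormal.step H _ hlt.le (ih _ (by omega))
        (Subgroup.normal_subgroupOf_of_le_normalizer le_rfl)

/-- Every subgroup of a finite `p`-subgroup is subnormal in it. -/
theorem subnIn_of_isPGroup [Finite X] {p : ℕ} [Fact p.Prime] {P : Subgroup X}
    (hP : IsPGroup p P) {H : Subgroup X} (hHP : H ≤ P) : SubnIn P H :=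
  subnIn_of_isSubnormal_subgroupOf hHP (isSubnormal_of_isPGroup_aux hP _ _ le_rfl)

/-- Kurzweil–Stellmacher 6.7.3: a family `U` of subgroups in which a fixed subgroup `A` is
subnormal, closed under the two conditions below, has a greatest element. -/
theorem zipper_family [Finite X] (A : Subgroup X) (U : Set (Subgroup X)) (hU : U.Nonempty)
    (S : Subgroup X → Set (Subgroup X))
    (hS : ∀ V B : Subgroup X, B ∈ S V ↔
      (∃ g : X, B = MulAut.conj g • A) ∧ B ≤ V ∧ (B.subgroupOf V).IsSubnormal)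
    (h2 : ∀ V ∈ U, ∀ W ∈ U, ∀ B ∈ S W, B ≤ V → B ∈ S V)
    (h3 : ∀ V ∈ U, ∀ W ∈ U, ∃ Y ∈ U,
      Subgroup.normalizer ((sSup (S V ∩ S W) : Subgroup X) : Set X) ≤ Y) :
    ∃ M ∈ U, ∀ V ∈ U, V ≤ M := by
  by_contra hcon
  push Not at hcon
  have hmaxex : ∀ V ∈ U, ∃ M, V ≤ M ∧ Maximal (· ∈ U) M :=
    fun V hV => Finite.exists_le_maximal (p := (· ∈ U)) hV
  -- invariance of `S V` under `V`
  have hinv : ∀ V : Subgroup X, ∀ B ∈ S V, ∀ v ∈ V, MulAut.conj v • B ∈ S V := by
    intro V B hB v hv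
    obtain ⟨⟨g, hg⟩, hBV, hsn⟩ := (hS V B).mp hB
    rw [hS]
    refine ⟨⟨v * g, ?_⟩, map_conj_le_of_mem hBV hv, ?_⟩
    · rw [hg, map_mul, mul_smul]
    · have h1 : SubnIn V B := subnIn_of_isSubnormal_subgroupOf hBV hsn
      have h2 := h1.map (MulAut.conj v)
      rw [map_conj_eq_of_mem_normalizer V v (Subgroup.le_normalizer hv)] at h2
      exact h2.isSubnormal_subgroupOf
  have hsubn : ∀ V : Subgroup X, ∀ B ∈ S V, SubnIn V B := by
    intro V B hB
    obtain ⟨-, hBV, hsn⟩ := (hS V B).mp hB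
    exact subnIn_of_isSubnormal_subgroupOf hBV hsn
  have key : ∀ V W M : Subgroup X, Maximal (· ∈ U) V → W ∈ U → Maximal (· ∈ U) M →
      Subgroup.normalizer ((sSup (S V ∩ S W) : Subgroup X) : Set X) ≤ M →
      (∀ V' : Subgroup X, Maximal (· ∈ U) V' → V ≠ V' →
        (S V ∩ S V').ncard ≤ (S V ∩ S W).ncard) → V = M := by
    intro V W M hV hW hM hNM hbest
    have hSigM : S V ∩ S W ⊆ S M := by
      intro B hB
      exact h2 M hM.prop V hV.prop B hB.1
        (((le_sSup hB).trans Subgroup.le_normalizer).trans hNM)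
    by_cases hcase : S V ⊆ S W
    · have hVn : V ≤ Subgroup.normalizer ((sSup (S V ∩ S W) : Subgroup X) : Set X) := by
        rw [Set.inter_eq_left.mpr hcase]
        exact le_normalizer_sSup V (S V) (hinv V)
      exact hV.eq_of_le hM.prop (hVn.trans hNM)
    · have hss : S V ∩ S W ⊂ S V :=
        ⟨Set.inter_subset_left, fun h => hcase (fun B hB => (h hB).2)⟩
      obtain ⟨B, hB1, hB2, hB3⟩ := subn_family_aux _ V le_rfl (S V) (S V ∩ S W) (hsubn V)
        (hinv V) hss
      by_contra hVM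
      have hBM : B ∈ S M := h2 M hM.prop V hV.prop B hB1 (hB3.trans hNM)
      have hlt : (S V ∩ S W).ncard < (S V ∩ S M).ncard := by
        apply Set.ncard_lt_ncard _ (Set.toFinite _)
        refine ⟨fun C hC => ⟨hC.1, hSigM hC⟩, fun h => hB2 (h ⟨hB1, hBM⟩)⟩
      have := hbest M hM hVM
      omega
  -- choose a pair of distinct maximal members with the largest common family
  have hPne : {q : Subgroup X × Subgroup X |
      Maximal (· ∈ U) q.1 ∧ Maximal (· ∈ U) q.2 ∧ q.1 ≠ q.2}.Nonempty := by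
    obtain ⟨V₀, hV₀⟩ := hU
    obtain ⟨V, -, hVmax⟩ := hmaxex V₀ hV₀
    obtain ⟨W₀, hW₀U, hW₀⟩ := hcon V hVmax.prop
    obtain ⟨W, hW₀W, hWmax⟩ := hmaxex W₀ hW₀U
    refine ⟨(V, W), hVmax, hWmax, ?_⟩
    intro h
    apply hW₀
    have h' : V = W := h
    rw [h']
    exact hW₀W
  obtain ⟨⟨V, W⟩, hVW, hbest⟩ := Set.exists_max_image _
    (fun q : Subgroup X × Subgroup X => (S q.1 ∩ S q.2).ncard) (Set.toFinite _) hPne
  obtain ⟨hVmax, hWmax, hne⟩ := hVW
  obtain ⟨Y, hYU, hY⟩ := h3 V hVmax.prop W hWmax.prop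
  obtain ⟨M, hYM, hMmax⟩ := hmaxex Y hYU
  have e1 : V = M := by
    apply key V W M hVmax hWmax.prop hMmax (hY.trans hYM)
    intro V' hV' hVV'
    exact hbest (V, V') ⟨hVmax, hV', hVV'⟩
  have e2 : W = M := by
    apply key W V M hWmax hVmax.prop hMmax
    · rw [Set.inter_comm]; exact hY.trans hYM
    · intro V' hV' hWV'
      have h1 := hbest (W, V') ⟨hWmax, hV', hWV'⟩
      have h2 : (S W ∩ S V).ncard = (S V ∩ S W).ncard := by rw [Set.inter_comm]
      simp only at h1
      omega
  exact hne (e1.trans e2.symm)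

/-- The families used in the proof of Matsuyama's lemma. -/
def MatsC (p : ℕ) (Z Y : Subgroup X) (S₀ : Set (Subgroup X)) : Prop :=
  S₀ ⊆ Set.range (fun g : X => MulAut.conj g • Z) ∧
    (∀ U ∈ S₀, ∀ y ∈ Y, MulAut.conj y • U ∈ S₀) ∧ IsPGroup p (sSup S₀ : Subgroup X)

/-- Matsuyama's lemma (Kurzweil–Stellmacher 6.7.8). -/
theorem matsuyama [Finite X] (p : ℕ) [Fact p.Prime] (Z Y : Subgroup X)
    (h : ∀ g : X, IsPGroup p ↥(⨆ y ∈ Y, MulAut.conj (y * g) • Z)) :
    ∃ P : Sylow p X, Y ≤ Subgroup.normalizer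
      ((⨆ g ∈ {g : X | MulAut.conj g • Z ≤ (P : Subgroup X)}, MulAut.conj g • Z : Subgroup X)
        : Set X) := by
  have hC0 : MatsC p Z Y ∅ := by
    refine ⟨Set.empty_subset _, fun U hU => absurd hU (Set.notMem_empty U), ?_⟩
    rw [sSup_empty]
    exact IsPGroup.of_bot
  obtain ⟨S₀, -, hmax⟩ := Finite.exists_le_maximal (p := MatsC p Z Y) hC0
  obtain ⟨hS₀R, hS₀Y, hS₀p⟩ := hmax.prop
  obtain ⟨P, hRP⟩ := hS₀p.exists_le_sylow
  have hYR : Y ≤ Subgroup.normalizer ((sSup S₀ : Subgroup X) : Set X) :=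
    le_normalizer_sSup Y S₀ hS₀Y
  have hsub : S₀ ⊆ {U | U ∈ Set.range (fun g : X => MulAut.conj g • Z) ∧ U ≤ (P : Subgroup X)} :=
    fun U hU => ⟨hS₀R hU, (le_sSup hU).trans hRP⟩
  have hSP : {U | U ∈ Set.range (fun g : X => MulAut.conj g • Z) ∧ U ≤ (P : Subgroup X)} ⊆ S₀ := by
    by_contra hne
    obtain ⟨B, hB1, hB2, hB3⟩ := subn_family_aux _ (P : Subgroup X) le_rfl
      {U | U ∈ Set.range (fun g : X => MulAut.conj g • Z) ∧ U ≤ (P : Subgroup X)} S₀
      (fun U hU => subnIn_of_isPGroup P.isPGroup' hU.2)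
      (fun U hU g hg => ⟨by
        obtain ⟨k, hk⟩ := hU.1
        refine ⟨g * k, ?_⟩
        simp only at hk ⊢
        rw [← hk, map_mul, mul_smul], map_conj_le_of_mem hU.2 hg⟩) ⟨hsub, hne⟩
    obtain ⟨g, hg⟩ := hB1.1
    simp only at hg
    have hC1 : MatsC p Z Y
        (S₀ ∪ Set.range (fun y : Y => MulAut.conj (y : X) • B)) := by
      refine ⟨?_, ?_, ?_⟩
      · apply Set.union_subset hS₀R
        rintro _ ⟨y, rfl⟩
        refine ⟨(y : X) * g, ?_⟩
        simp only
        rw [← hg, map_mul, mul_smul]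
      · rintro U (hU | ⟨y', rfl⟩) y hy
        · exact Or.inl (hS₀Y U hU y hy)
        · right
          refine ⟨⟨y, hy⟩ * y', ?_⟩
          simp only [Subgroup.coe_mul]
          rw [map_mul, mul_smul]
      · rw [sSup_union, sSup_range]
        have hQ : IsPGroup p ↥(⨆ y : Y, MulAut.conj (y : X) • B) := by
          apply (h g).to_le
          apply iSup_le
          intro y
          refine le_iSup₂_of_le (y : X) y.2 (le_of_eq ?_)
          rw [← hg, map_mul, mul_smul]
        have hQN : (⨆ y : Y, MulAut.conj (y : X) • B) ≤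
            Subgroup.normalizer ((sSup S₀ : Subgroup X) : Set X) := by
          apply iSup_le
          intro y
          calc MulAut.conj (y : X) • B
              ≤ MulAut.conj (y : X) • Subgroup.normalizer ((sSup S₀ : Subgroup X) : Set X) :=
                Subgroup.pointwise_smul_le_pointwise_smul_iff.mpr hB3
            _ = Subgroup.normalizer ((sSup S₀ : Subgroup X) : Set X) :=
                Subgroup.conj_smul_eq_self_of_mem (hYR y.2)
        exact IsPGroup.to_sup_of_normal_left' hS₀p hQ hQN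
    have heq : S₀ = S₀ ∪ Set.range (fun y : Y => MulAut.conj (y : X) • B) :=
      hmax.eq_of_le hC1 Set.subset_union_left
    apply hB2
    rw [heq]
    right
    exact ⟨1, by simp⟩
  have hfinal : (⨆ g ∈ {g : X | MulAut.conj g • Z ≤ (P : Subgroup X)}, MulAut.conj g • Z :
      Subgroup X) = sSup S₀ := by
    apply le_antisymm
    · apply iSup₂_le
      intro g hg
      exact le_sSup (hSP ⟨⟨g, rfl⟩, hg⟩)
    · apply sSup_le
      intro U hU
      obtain ⟨⟨g, hg⟩, hUP⟩ := hsub hU
      simp only at hg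
      subst hg
      exact le_iSup₂_of_le g hUP le_rfl
  refine ⟨P, ?_⟩
  rw [hfinal]
  exact hYR

end Cfsg.Agent.Helper9
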