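import Cfsg.Agent.Helper9.BrauerP3
import Cfsg.Agent.Helper9.ExtSq
import Cfsg.Agent.Helper75.Galois

set_option autoImplicit false
set_option linter.style.haveILetI false
set_option maxHeartbeats 1000000

/-!
# Groups with a self-centralizing Sylow subgroup of prime order, `|N(P)| = 2p`, and a character
of degree `p - 1` (helper9), part 1: general tools

* `TwoDeg.sum_mono`: the multiplicity of the trivial character grows under restriction.
* `TwoDeg.sing_conj`: `p`-singular elements are conjugate into `P ∖ 1`.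
* `TwoDeg.outer_sq`, `TwoDeg.outer_conj`, `TwoDeg.outer_card`: the elements of `N(P) ∖ P`.
-/

namespace Cfsg.Agent.Helper9

namespace TwoDeg

open Subgroup Cfsg

open scoped ComplexConjugate

universe u

variable {G : Type u} [Group G]

/-- sums over a subgroup as filtered sums. -/
theorem sum_subtype_filter [Fintype G] (H : Subgroup G) [Fintype H]
    [DecidablePred (fun g : G => g ∈ H)] {M : Type*} [AddCommMonoid M] (f : G → M) :
    ∑ s : H, f s = ∑ g ∈ Finset.univ.filter (fun g : G => g ∈ H), f g :=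
  (Finset.sum_subtype (Finset.univ.filter (fun g : G => g ∈ H)) (by simp) f).symm

/-- the cardinality of a subgroup as the cardinality of a filter. -/
theorem card_filter_mem [Fintype G] (H : Subgroup G) [DecidablePred (fun g : G => g ∈ H)] :
    (Finset.univ.filter (fun g : G => g ∈ H)).card = Nat.card H := by
  rw [Nat.card_eq_fintype_card, Fintype.card_subtype]

open Classical in
/-- **the multiplicity of the trivial character grows under restriction.** -/
theorem sum_mono [Fintype G] {χ : G → ℂ} (hχ : IsCharacter G χ) {K H : Subgroup G}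
    (hKH : K ≤ H) :
    ∃ a b : ℕ, a ≤ b ∧
      ∑ g ∈ Finset.univ.filter (fun g : G => g ∈ H), χ g = (Nat.card H : ℂ) * a ∧
      ∑ g ∈ Finset.univ.filter (fun g : G => g ∈ K), χ g = (Nat.card K : ℂ) * b := by
  obtain ⟨n, ρ, rfl⟩ := hχ
  let σH : Representation ℂ H (Fin n → ℂ) := ρ.comp H.subtype
  let σK : Representation ℂ K (Fin n → ℂ) := ρ.comp K.subtype
  have hH : (Nat.card H : ℂ) ≠ 0 := by exact_mod_cast Nat.card_pos.ne'
  have hK : (Nat.card K : ℂ) ≠ 0 := by exact_mod_cast Nat.card_pos.ne'
  letI : Invertible (Nat.card H : ℂ) := invertibleOfNonzero hH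
  letI : Invertible (Nat.card K : ℂ) := invertibleOfNonzero hK
  have h1 := Representation.card_inv_mul_sum_char_eq_finrank σH
  have h2 := Representation.card_inv_mul_sum_char_eq_finrank σK
  refine ⟨Module.finrank ℂ (Representation.invariants σH),
    Module.finrank ℂ (Representation.invariants σK), ?_, ?_, ?_⟩
  · apply Submodule.finrank_mono
    intro v hv
    rw [Representation.mem_invariants] at hv ⊢
    intro k
    exact hv ⟨k.1, hKH k.2⟩
  · rw [← sum_subtype_filter, ← h1, ← mul_assoc, mul_inv_cancel₀ hH, one_mul]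
    rfl
  · rw [← sum_subtype_filter, ← h2, ← mul_assoc, mul_inv_cancel₀ hK, one_mul]
    rfl

/-- `C(P) = P`. -/
theorem cent_eq [Finite G] {p : ℕ} [Fact p.Prime] (P : Sylow p G)
    (hP : Nat.card (P : Subgroup G) = p)
    (hC : Nat.card (centralizer ((P : Subgroup G) : Set G)) = p) :
    centralizer ((P : Subgroup G) : Set G) = (P : Subgroup G) :=
  (Subgroup.eq_of_le_of_card_ge (OrdTools.le_centralizer_of_prime P hP) (by rw [hP, hC])).symm

/-- an element commuting with a nontrivial element of `P` lies in `P`. -/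
theorem mem_of_commute [Finite G] {p : ℕ} [Fact p.Prime] (P : Sylow p G)
    (hP : Nat.card (P : Subgroup G) = p)
    (hC : Nat.card (centralizer ((P : Subgroup G) : Set G)) = p) {w g : G}
    (hw : w ∈ (P : Subgroup G)) (hw1 : w ≠ 1) (hc : g * w = w * g) : g ∈ (P : Subgroup G) := by
  rw [← cent_eq P hP hC, ← OrdTools.centralizer_singleton_eq (OrdTools.zpowers_eq_sylow P hP hw hw1),
    Subgroup.mem_centralizer_iff]
  intro x hx
  rw [Set.mem_singleton_iff] at hx
  rw [hx]
  exact hc.symm

/-- `p`-singular elements are conjugate into `P ∖ 1`. -/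
theorem sing_conj [Finite G] {p : ℕ} [Fact p.Prime] (P : Sylow p G)
    (hP : Nat.card (P : Subgroup G) = p)
    (hC : Nat.card (centralizer ((P : Subgroup G) : Set G)) = p) {g : G}
    (hg : p ∣ orderOf g) :
    ∃ x : G, x * g * x⁻¹ ∈ (P : Subgroup G) ∧ x * g * x⁻¹ ≠ 1 := by
  have hp : p.Prime := Fact.out
  have ho : orderOf g ≠ 0 := (orderOf_pos g).ne'
  have hg1 : g ≠ 1 := by
    rintro rfl
    rw [orderOf_one] at hg
    exact hp.one_lt.ne' (Nat.dvd_one.mp hg)
  set u := g ^ (orderOf g / p) with hu
  have huo : orderOf u = p := orderOf_pow_orderOf_div ho hg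
  have hS : ∀ Q : Sylow p G, Nat.card (Q : Subgroup G) = p := by
    intro Q
    rw [Sylow.card_eq_multiplicity, ← Sylow.card_eq_multiplicity P, hP]
  obtain ⟨Q, hQ⟩ := OrdTools.exists_sylow_of_orderOf hS huo
  obtain ⟨x, hx⟩ := MulAction.exists_smul_eq G Q P
  have huQ : u ∈ (Q : Subgroup G) := by
    rw [← hQ]
    exact Subgroup.mem_zpowers u
  have hmem : x * u * x⁻¹ ∈ (P : Subgroup G) := by
    rw [← hx, Sylow.coe_subgroup_smul]
    exact Subgroup.smul_mem_pointwise_smul u (MulAut.conj x) (Q : Subgroup G) huQ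
  have hu1 : x * u * x⁻¹ ≠ 1 := by
    intro h
    have : u = 1 := by
      have h2 : u = x⁻¹ * (x * u * x⁻¹) * x := by group
      rw [h2, h]
      group
    rw [this, orderOf_one] at huo
    exact hp.one_lt.ne huo
  have hcomm : (x * g * x⁻¹) * (x * u * x⁻¹) = (x * u * x⁻¹) * (x * g * x⁻¹) := by
    have h1 : g * u = u * g := by
      rw [hu, ← pow_succ', ← pow_succ]
    calc (x * g * x⁻¹) * (x * u * x⁻¹) = x * (g * u) * x⁻¹ := by group
      _ = x * (u * g) * x⁻¹ := by rw [h1]
      _ = (x * u * x⁻¹) * (x * g * x⁻¹) := by group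
  refine ⟨x, mem_of_commute P hP hC hmem hu1 hcomm, ?_⟩
  intro h
  apply hg1
  have h2 : g = x⁻¹ * (x * g * x⁻¹) * x := by group
  rw [h2, h]
  group

section Outer

variable [Fintype G] {p : ℕ} [Fact p.Prime] (P : Sylow p G)
  (hP : Nat.card (P : Subgroup G) = p)
  (hC : Nat.card (centralizer ((P : Subgroup G) : Set G)) = p)
  (hN : Nat.card (normalizer ((P : Subgroup G) : Set G)) = 2 * p)

include hP hC hN

/-- the elements of `N(P) ∖ P` are involutions. -/
theorem outer_sq {t : G} (ht : t ∈ normalizer ((P : Subgroup G) : Set G))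
    (htP : t ∉ (P : Subgroup G)) : t * t = 1 := by
  have hidx : (centralizer ((P : Subgroup G) : Set G)).relIndex
      (normalizer ((P : Subgroup G) : Set G)) = 2 :=
    BrauerP.relIndex_of_card _ (by rw [hN, hC])
  rw [cent_eq P hP hC] at hidx
  have h1 := Subgroup.mul_self_mem_of_index_two hidx
    (⟨t, ht⟩ : normalizer ((P : Subgroup G) : Set G))
  have h2 : t * t ∈ (P : Subgroup G) := h1
  by_contra h3
  exact htP (mem_of_commute P hP hC h2 h3 (by group))

omit [Fact p.Prime] in
open Classical in
/-- the number of elements of `N(P) ∖ P`. -/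
theorem outer_card :
    (Finset.univ.filter (fun g : G => g ∈ normalizer ((P : Subgroup G) : Set G)
      ∧ g ∉ (P : Subgroup G))).card = p := by
  have h1 : Finset.univ.filter (fun g : G => g ∈ normalizer ((P : Subgroup G) : Set G)
      ∧ g ∉ (P : Subgroup G))
      = Finset.univ.filter (fun g : G => g ∈ normalizer ((P : Subgroup G) : Set G))
        \ Finset.univ.filter (fun g : G => g ∈ (P : Subgroup G)) := by
    ext g
    simp
  have h2 : Finset.univ.filter (fun g : G => g ∈ (P : Subgroup G))
      ⊆ Finset.univ.filter (fun g : G => g ∈ normalizer ((P : Subgroup G) : Set G)) := by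
    intro g hg
    rw [Finset.mem_filter] at hg ⊢
    exact ⟨hg.1, Subgroup.le_normalizer hg.2⟩
  rw [h1, Finset.card_sdiff_of_subset h2, card_filter_mem, card_filter_mem, hN, hP]
  omega

open Classical in
/-- the elements of `N(P) ∖ P` are the `P`-conjugates of any one of them. -/
theorem outer_image {t : G} (ht : t ∈ normalizer ((P : Subgroup G) : Set G))
    (htP : t ∉ (P : Subgroup G)) :
    Set.InjOn (fun y : G => y * t * y⁻¹)
      (Finset.univ.filter (fun g : G => g ∈ (P : Subgroup G)) : Finset G) ∧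
    (Finset.univ.filter (fun g : G => g ∈ (P : Subgroup G))).image (fun y : G => y * t * y⁻¹)
      = Finset.univ.filter (fun g : G => g ∈ normalizer ((P : Subgroup G) : Set G)
        ∧ g ∉ (P : Subgroup G)) := by
  have hinj : Set.InjOn (fun y : G => y * t * y⁻¹)
      (Finset.univ.filter (fun g : G => g ∈ (P : Subgroup G)) : Finset G) := by
    intro y hy y' hy' hyy
    simp only [Finset.coe_filter, Finset.mem_univ, true_and, Set.mem_ofPred_eq] at hy hy'
    have hyy' : y * t * y⁻¹ = y' * t * y'⁻¹ := hyy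
    by_contra hne
    have hw : y'⁻¹ * y ∈ (P : Subgroup G) := mul_mem (inv_mem hy') hy
    have hw1 : y'⁻¹ * y ≠ 1 := by
      intro h
      apply hne
      have : y = y' * (y'⁻¹ * y) := by group
      rw [this, h, mul_one]
    apply htP
    apply mem_of_commute P hP hC hw hw1
    calc t * (y'⁻¹ * y) = (y'⁻¹ * y) * (y⁻¹ * (y' * t * y'⁻¹) * y) := by group
      _ = (y'⁻¹ * y) * (y⁻¹ * (y * t * y⁻¹) * y) := by rw [hyy']
      _ = (y'⁻¹ * y) * t := by group
  refine ⟨hinj, ?_⟩
  apply Finset.eq_of_subset_of_card_le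
  · intro s hs
    obtain ⟨y, hy, rfl⟩ := Finset.mem_image.mp hs
    rw [Finset.mem_filter] at hy ⊢
    have hyN : y ∈ normalizer ((P : Subgroup G) : Set G) := Subgroup.le_normalizer hy.2
    refine ⟨Finset.mem_univ _, mul_mem (mul_mem hyN ht) (inv_mem hyN), ?_⟩
    intro h
    apply htP
    have h3 : t = y⁻¹ * (y * t * y⁻¹) * y := by group
    rw [h3]
    exact mul_mem (mul_mem (inv_mem hy.2) h) hy.2
  · rw [Finset.card_image_of_injOn hinj, outer_card P hP hC hN, card_filter_mem, hP]

open Classical in
/-- the sum of a class function over `N(P) ∖ P`. -/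
theorem sum_outer {f : G → ℂ} (hf : IsClassFunction G f) {t : G}
    (ht : t ∈ normalizer ((P : Subgroup G) : Set G)) (htP : t ∉ (P : Subgroup G)) :
    ∑ g ∈ Finset.univ.filter (fun g : G => g ∈ normalizer ((P : Subgroup G) : Set G)
      ∧ g ∉ (P : Subgroup G)), f g = (p : ℂ) * f t := by
  obtain ⟨hinj, himg⟩ := outer_image P hP hC hN ht htP
  rw [← himg, Finset.sum_image hinj, Finset.sum_congr rfl (fun y _ => hf t y), Finset.sum_const,
    card_filter_mem, hP, nsmul_eq_mul]

omit [Fact p.Prime] hP hC hN in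
open Classical in
/-- splitting a sum over `N(P)`. -/
theorem sum_normalizer (f : G → ℂ) :
    ∑ g ∈ Finset.univ.filter (fun g : G => g ∈ normalizer ((P : Subgroup G) : Set G)), f g
      = ∑ g ∈ Finset.univ.filter (fun g : G => g ∈ (P : Subgroup G)), f g
        + ∑ g ∈ Finset.univ.filter (fun g : G => g ∈ normalizer ((P : Subgroup G) : Set G)
          ∧ g ∉ (P : Subgroup G)), f g := by
  have h1 : Finset.univ.filter (fun g : G => g ∈ normalizer ((P : Subgroup G) : Set G)
      ∧ g ∉ (P : Subgroup G))
      = Finset.univ.filter (fun g : G => g ∈ normalizer ((P : Subgroup G) : Set G))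
        \ Finset.univ.filter (fun g : G => g ∈ (P : Subgroup G)) := by
    ext g
    simp
  have h2 : Finset.univ.filter (fun g : G => g ∈ (P : Subgroup G))
      ⊆ Finset.univ.filter (fun g : G => g ∈ normalizer ((P : Subgroup G) : Set G)) := by
    intro g hg
    rw [Finset.mem_filter] at hg ⊢
    exact ⟨hg.1, Subgroup.le_normalizer hg.2⟩
  rw [h1, add_comm, Finset.sum_sdiff h2]

omit [Fact p.Prime] hC hN in
open Classical in
/-- splitting a sum over `P`. -/
theorem sum_sylow (f : G → ℂ) (c : ℂ) (hf : ∀ w ∈ (P : Subgroup G), w ≠ 1 → f w = c) :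
    ∑ g ∈ Finset.univ.filter (fun g : G => g ∈ (P : Subgroup G)), f g
      = f 1 + ((p : ℂ) - 1) * c := by
  have h1 : (1 : G) ∈ Finset.univ.filter (fun g : G => g ∈ (P : Subgroup G)) := by
    rw [Finset.mem_filter]
    exact ⟨Finset.mem_univ _, one_mem _⟩
  rw [← Finset.add_sum_erase _ f h1]
  congr 1
  have h2 : ∀ w ∈ (Finset.univ.filter (fun g : G => g ∈ (P : Subgroup G))).erase 1, f w = c := by
    intro w hw
    rw [Finset.mem_erase, Finset.mem_filter] at hw
    exact hf w hw.2.2 hw.1
  rw [Finset.sum_congr rfl h2, Finset.sum_const, Finset.card_erase_of_mem h1, card_filter_mem, hP,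
    nsmul_eq_mul]
  have hp : 1 ≤ p := by
    rw [← hP]
    exact Nat.card_pos
  rw [Nat.cast_sub hp, Nat.cast_one]

end Outer

end TwoDeg

end Cfsg.Agent.Helper9
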