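import Cfsg.Agent.Helper9.TwoDeg1

set_option autoImplicit false
set_option linter.style.haveILetI false
set_option maxHeartbeats 1000000
set_option linter.unusedSectionVars false

/-!
# Groups with a self-centralizing Sylow subgroup of prime order, `|N(P)| = 2p`, and a character
of degree `p - 1` (helper9), part 2: the values of `χ₂`

`TwoDeg.Setting p P χ₂ η₀ Y`: `G` simple, `|P| = |C(P)| = p ≥ 5`, `|N(P)| = 2p`, Brauer's data
with `ε = v = -1` and `χ₂(1) = p - 1`.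
-/

namespace Cfsg.Agent.Helper9

namespace TwoDeg

open Subgroup Cfsg

open scoped ComplexConjugate

universe u

variable {G : Type u} [Group G]

/-- the setting. -/
structure Setting (p : ℕ) (P : Sylow p G) (χ₂ η₀ : IrrCharacter G)
    (Y : Finset (IrrCharacter G)) : Prop where
  hp5 : 5 ≤ p
  hP : Nat.card (P : Subgroup G) = p
  hC : Nat.card (centralizer ((P : Subgroup G) : Set G)) = p
  hN : Nat.card (normalizer ((P : Subgroup G) : Set G)) = 2 * p
  data : BrauerP.TwoData p P χ₂ η₀ Y (-1) (-1)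
  deg : charDegree (χ₂ : G → ℂ) = p - 1

namespace Setting

variable [Fintype G] [IsSimpleGroup G] {p : ℕ} [Fact p.Prime] {P : Sylow p G}
  {χ₂ η₀ : IrrCharacter G} {Y : Finset (IrrCharacter G)} (S : Setting p P χ₂ η₀ Y)

include S

omit [Fintype G] [IsSimpleGroup G] [Fact p.Prime] in
theorem chi_one : (χ₂ : G → ℂ) 1 = (p : ℂ) - 1 := by
  have h5 := S.hp5
  rw [Helper81.irr_one_eq_charDegree, S.deg, Nat.cast_sub (by omega), Nat.cast_one]

omit [Fintype G] [IsSimpleGroup G] [Fact p.Prime] in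
theorem eta_reg {g : G} (hg : ¬ p ∣ orderOf g) :
    (η₀ : G → ℂ) g = (χ₂ : G → ℂ) g - 1 := by
  have h := S.data.rel g hg
  push_cast at h
  linear_combination -h

omit [Fintype G] [IsSimpleGroup G] in
theorem reg_one : ¬ p ∣ orderOf (1 : G) := by
  have hp : p.Prime := Fact.out
  rw [orderOf_one]
  exact hp.one_lt.ne' ∘ Nat.dvd_one.mp

omit [Fintype G] [IsSimpleGroup G] in
theorem eta_one : (η₀ : G → ℂ) 1 = (p : ℂ) - 2 := by
  rw [S.eta_reg S.reg_one, S.chi_one]
  ring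

omit [Fintype G] [IsSimpleGroup G] in
theorem eta_deg : charDegree (η₀ : G → ℂ) = p - 2 := by
  have h := S.eta_one
  have h5 := S.hp5
  rw [Helper81.irr_one_eq_charDegree] at h
  have h2 : ((charDegree (η₀ : G → ℂ) : ℕ) : ℂ) = ((p - 2 : ℕ) : ℂ) := by
    rw [h, Nat.cast_sub (by omega)]
    norm_num
  exact_mod_cast h2

omit [IsSimpleGroup G] in
theorem exists_w : ∃ w : G, w ∈ (P : Subgroup G) ∧ w ≠ 1 ∧ orderOf w = p := by
  have hp : p.Prime := Fact.out
  have h1 : 1 < Nat.card (P : Subgroup G) := by rw [S.hP]; exact hp.one_lt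
  haveI := Finite.one_lt_card_iff_nontrivial.mp h1
  obtain ⟨x, hx⟩ := exists_ne (1 : (P : Subgroup G))
  have hx1 : x.1 ≠ 1 := fun h => hx (Subtype.ext h)
  refine ⟨x.1, x.2, hx1, ?_⟩
  rw [← Nat.card_zpowers, OrdTools.zpowers_eq_sylow P S.hP x.2 hx1, S.hP]

omit [IsSimpleGroup G] in
theorem orderOf_w {w : G} (hw : w ∈ (P : Subgroup G)) (hw1 : w ≠ 1) : orderOf w = p := by
  rw [← Nat.card_zpowers, OrdTools.zpowers_eq_sylow P S.hP hw hw1, S.hP]

omit [IsSimpleGroup G] in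
theorem chi_sing {g : G} (hg : p ∣ orderOf g) : (χ₂ : G → ℂ) g = -1 := by
  obtain ⟨x, hx, hx1⟩ := sing_conj P S.hP S.hC hg
  rw [← Helper81.irr_conj χ₂ g x, S.data.val₂ _ hx hx1]
  norm_num

omit [IsSimpleGroup G] in
theorem sumY_sing {g : G} (hg : p ∣ orderOf g) : ∑ η ∈ Y, (η : G → ℂ) g = 1 := by
  obtain ⟨x, hx, hx1⟩ := sing_conj P S.hP S.hC hg
  rw [Finset.sum_congr rfl (fun η _ => (Helper81.irr_conj η g x).symm), S.data.sumY _ hx hx1]
  norm_num

omit [Fintype G] [IsSimpleGroup G] [Fact p.Prime] in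
theorem card_Y : (Y.card : ℂ) * 2 = (p : ℂ) - 1 := by
  have h := S.data.card
  have h5 := S.hp5
  have h2 : ((Y.card * 2 : ℕ) : ℂ) = ((p - 1 : ℕ) : ℂ) := by rw [h]
  rw [Nat.cast_sub (by omega)] at h2
  exact_mod_cast h2

omit [Fintype G] [IsSimpleGroup G] [Fact p.Prime] in
theorem sumY_reg {g : G} (hg : ¬ p ∣ orderOf g) :
    ∑ η ∈ Y, (η : G → ℂ) g = (Y.card : ℂ) * ((χ₂ : G → ℂ) g - 1) := by
  rw [Finset.sum_congr rfl (fun η hη => S.data.agree η hη g hg), Finset.sum_const, nsmul_eq_mul,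
    S.eta_reg hg]

/-- Galois stability of `χ₂`. -/
theorem pow_stable {k : ℕ} (hk : k.Coprime (Nat.card G)) (g : G) :
    (χ₂ : G → ℂ) (g ^ k) = (χ₂ : G → ℂ) g := by
  have hp : p.Prime := Fact.out
  have h5 := S.hp5
  obtain ⟨w, hw, hw1, hwo⟩ := S.exists_w
  let χ' : IrrCharacter G :=
    ⟨fun g => (χ₂ : G → ℂ) (g ^ k), Helper75.isIrrCharacter_pow k hk χ₂.2⟩
  have hpk : ¬ p ∣ k := by
    intro h
    have h1 : p ∣ Nat.card G := by
      rw [← S.hP]
      exact Subgroup.card_subgroup_dvd_card _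
    have h2 : p ∣ Nat.gcd k (Nat.card G) := Nat.dvd_gcd h h1
    rw [hk] at h2
    exact hp.one_lt.ne' (Nat.dvd_one.mp h2)
  have hwk : w ^ k ≠ 1 := by
    intro h
    have h1 := orderOf_dvd_of_pow_eq_one h
    rw [hwo] at h1
    exact hpk h1
  have hval : (χ' : G → ℂ) w = -1 := by
    show (χ₂ : G → ℂ) (w ^ k) = -1
    rw [S.data.val₂ (w ^ k) (pow_mem hw k) hwk]
    norm_num
  have hχ' : χ' = χ₂ := by
    by_contra hne
    have h1 : χ' ≠ Helper81.trivIrr G := by
      intro h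
      rw [h, Helper81.trivIrr_apply] at hval
      norm_num at hval
    have h2 : χ' ∉ Y := by
      intro hY
      have h3 := S.data.agree χ' hY 1 S.reg_one
      have h4 : (χ' : G → ℂ) 1 = (χ₂ : G → ℂ) 1 := by
        show (χ₂ : G → ℂ) (1 ^ k) = _
        rw [one_pow]
      rw [h4, S.chi_one, S.eta_one] at h3
      norm_num at h3
    have h3 := S.data.vanish w hw hw1 χ' h1 hne h2
    rw [hval] at h3
    norm_num at h3
  exact congrFun (congrArg Subtype.val hχ') g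

/-- `χ₂` is invariant under inversion. -/
theorem chi_inv (g : G) : (χ₂ : G → ℂ) g⁻¹ = (χ₂ : G → ℂ) g := by
  obtain ⟨m, hm⟩ : ∃ m, Nat.card G = m + 1 := ⟨Nat.card G - 1, by
    have := Nat.card_pos (α := G)
    omega⟩
  have hk : m.Coprime (Nat.card G) := by
    rw [hm]
    simp
  have h1 : g ^ m = g⁻¹ := by
    apply eq_inv_of_mul_eq_one_left
    rw [← pow_succ, ← hm]
    exact pow_card_eq_one'
  rw [← h1]
  exact S.pow_stable hk g

/-- `χ₂` is real. -/
theorem chi_real (g : G) : conj ((χ₂ : G → ℂ) g) = (χ₂ : G → ℂ) g := by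
  rw [← Helper79.isCharacter_inv_eq_conj (Helper79.irr_isCharacter χ₂) g]
  exact S.chi_inv g

/-- `χ₂ (g²) = χ₂ g` for `g` of odd order. -/
theorem chi_sq_odd {g : G} (hodd : Odd (orderOf g)) :
    (χ₂ : G → ℂ) (g * g) = (χ₂ : G → ℂ) g := by
  have hdvd : orderOf g ∣ Nat.card G := orderOf_dvd_natCard g
  haveI : NeZero (Nat.card G) := ⟨Nat.card_pos.ne'⟩
  haveI : NeZero (orderOf g) := ⟨(orderOf_pos g).ne'⟩
  have hc2 : Nat.Coprime 2 (orderOf g) := (Nat.coprime_two_left).mpr hodd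
  obtain ⟨u, hu⟩ := ZMod.unitsMap_surjective hdvd (ZMod.unitOfCoprime 2 hc2)
  have hk : ((u : ZMod (Nat.card G)).val).Coprime (Nat.card G) := ZMod.val_coe_unit_coprime u
  have h1 : (((u : ZMod (Nat.card G)).val : ℕ) : ZMod (orderOf g)) = ((2 : ℕ) : ZMod (orderOf g)) := by
    have h2 := congrArg (fun x : (ZMod (orderOf g))ˣ => (x : ZMod (orderOf g))) hu
    simp only [ZMod.unitsMap_def, Units.coe_map, MonoidHom.coe_coe, ZMod.castHom_apply,
      ZMod.coe_unitOfCoprime] at h2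
    rw [ZMod.natCast_val]
    exact h2
  have h2 : g ^ ((u : ZMod (Nat.card G)).val) = g ^ 2 :=
    pow_eq_pow_iff_modEq.mpr ((ZMod.natCast_eq_natCast_iff _ _ _).mp h1)
  rw [← pow_two, ← h2]
  exact S.pow_stable hk g

end Setting

end TwoDeg

end Cfsg.Agent.Helper9
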