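import Cfsg.Agent.Helper9.TwoDeg2

set_option autoImplicit false
set_option linter.style.haveILetI false
set_option maxHeartbeats 1000000
set_option linter.unusedSectionVars false

/-!
# Groups with a self-centralizing Sylow subgroup of prime order, `|N(P)| = 2p`, and a character
of degree `p - 1` (helper9), part 3: the exterior square of `χ₂`

* `TwoDeg.Setting.star`: `Λ² χ₂ = ∑_{η ∈ Y} η`.
* `TwoDeg.Setting.chi_invol`, `chi_odd`: `χ₂` is `0` on involutions and `1` on nontrivial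
  `p`-regular elements of odd order.
-/

namespace Cfsg.Agent.Helper9

namespace TwoDeg

open Subgroup Cfsg

open scoped ComplexConjugate

universe u

variable {G : Type u} [Group G]

/-- the exterior square of a class function. -/
noncomputable def ext2 (χ : G → ℂ) : G → ℂ := fun g => (χ g * χ g - χ (g * g)) / 2

namespace Setting

variable [Fintype G] [IsSimpleGroup G] {p : ℕ} [Fact p.Prime] {P : Sylow p G}
  {χ₂ η₀ : IrrCharacter G} {Y : Finset (IrrCharacter G)} (S : Setting p P χ₂ η₀ Y)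

include S

theorem exists_outer : ∃ t : G, t ∈ normalizer ((P : Subgroup G) : Set G)
    ∧ t ∉ (P : Subgroup G) := by
  classical
  have hp : p.Prime := Fact.out
  have h := outer_card P S.hP S.hC S.hN
  have h1 : (Finset.univ.filter (fun g : G => g ∈ normalizer ((P : Subgroup G) : Set G)
      ∧ g ∉ (P : Subgroup G))).Nonempty := by
    rw [← Finset.card_pos, h]
    exact hp.pos
  obtain ⟨t, ht⟩ := h1
  exact ⟨t, (Finset.mem_filter.mp ht).2⟩

theorem chi_sum : ∑ g : G, (χ₂ : G → ℂ) g = 0 := by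
  have h := Helper81.irr_orthonormal χ₂ (Helper81.trivIrr G)
  rw [if_neg S.data.ne_triv] at h
  simp only [Helper81.trivIrr_apply, mul_one] at h
  have hG : (Nat.card G : ℂ) ≠ 0 := by exact_mod_cast Nat.card_pos.ne'
  rcases mul_eq_zero.mp h with h1 | h1
  · exact absurd (inv_eq_zero.mp h1) hG
  · exact h1

open Classical in
/-- `χ₂` vanishes on `N(P) ∖ P`. -/
theorem chi_outer {t : G} (ht : t ∈ normalizer ((P : Subgroup G) : Set G))
    (htP : t ∉ (P : Subgroup G)) : (χ₂ : G → ℂ) t = 0 := by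
  have hp : p.Prime := Fact.out
  have hp0 : (p : ℂ) ≠ 0 := by exact_mod_cast hp.ne_zero
  have hval : ∀ w ∈ (P : Subgroup G), w ≠ 1 → (χ₂ : G → ℂ) w = -1 := by
    intro w hw hw1
    rw [S.data.val₂ w hw hw1]
    norm_num
  obtain ⟨a, b, hab, hH, hK⟩ := sum_mono (Helper79.irr_isCharacter χ₂)
    (Subgroup.le_normalizer (H := (P : Subgroup G)))
  rw [sum_sylow P S.hP _ (-1) hval, S.chi_one, S.hP] at hK
  have hb : b = 0 := by
    have h1 : (p : ℂ) * (b : ℂ) = 0 := by
      rw [← hK]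
      ring
    have := (mul_eq_zero.mp h1).resolve_left hp0
    exact_mod_cast this
  have ha : a = 0 := by omega
  rw [ha, Nat.cast_zero, mul_zero, sum_normalizer, sum_sylow P S.hP _ (-1) hval, S.chi_one,
    sum_outer P S.hP S.hC S.hN (Helper81.irr_isClassFunction χ₂) ht htP] at hH
  have h1 : (p : ℂ) * (χ₂ : G → ℂ) t = 0 := by linear_combination hH
  exact (mul_eq_zero.mp h1).resolve_left hp0

theorem ext2_isCharacter : IsCharacter G (ext2 (χ₂ : G → ℂ)) :=
  ExtSq.isCharacter_extSq (Helper79.irr_isCharacter χ₂)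

open Classical in
/-- the exterior square of `χ₂` does not contain the trivial character. -/
theorem ext2_sum : ∑ g : G, ext2 (χ₂ : G → ℂ) g = 0 := by
  have hp : p.Prime := Fact.out
  have h5 := S.hp5
  have hΘ := S.ext2_isCharacter
  obtain ⟨t, ht, htP⟩ := S.exists_outer
  obtain ⟨a, b, hab, hH, hK⟩ := sum_mono hΘ
    (le_top : normalizer ((P : Subgroup G) : Set G) ≤ ⊤)
  have hw : ∀ w ∈ (P : Subgroup G), w ≠ 1 → ext2 (χ₂ : G → ℂ) w = 1 := by
    intro w hw hw1
    have hww : w * w ≠ 1 := by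
      intro h
      have h1 := orderOf_dvd_of_pow_eq_one (show w ^ 2 = 1 by rw [pow_two]; exact h)
      rw [S.orderOf_w hw hw1] at h1
      have := Nat.le_of_dvd (by norm_num) h1
      omega
    unfold ext2
    rw [S.data.val₂ w hw hw1, S.data.val₂ (w * w) (mul_mem hw hw) hww]
    norm_num
  have hcl : IsClassFunction G (ext2 (χ₂ : G → ℂ)) := Helper79.isCharacter_isClassFunction hΘ
  have ht1 : ext2 (χ₂ : G → ℂ) t = -((p : ℂ) - 1) / 2 := by
    unfold ext2
    rw [S.chi_outer ht htP, outer_sq P S.hP S.hC S.hN ht htP, S.chi_one]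
    ring
  have h1 : ext2 (χ₂ : G → ℂ) 1 = ((p : ℂ) - 1) * ((p : ℂ) - 2) / 2 := by
    unfold ext2
    rw [mul_one, S.chi_one]
    ring
  rw [sum_normalizer, sum_sylow P S.hP _ 1 hw, sum_outer P S.hP S.hC S.hN hcl ht htP, ht1, h1]
    at hK
  have hb : b = 0 := by
    have h2 : (Nat.card (normalizer ((P : Subgroup G) : Set G)) : ℂ) * (b : ℂ) = 0 := by
      rw [← hK]
      ring
    have h3 : (Nat.card (normalizer ((P : Subgroup G) : Set G)) : ℂ) ≠ 0 := by
      exact_mod_cast Nat.card_pos.ne'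
    exact_mod_cast (mul_eq_zero.mp h2).resolve_left h3
  have ha : a = 0 := by omega
  rw [ha, Nat.cast_zero, mul_zero] at hH
  rw [← hH]
  apply Finset.sum_congr _ (fun _ _ => rfl)
  ext g
  simp

/-- **`Λ² χ₂ = ∑_{η ∈ Y} η`.** -/
theorem star (g : G) : ext2 (χ₂ : G → ℂ) g = ∑ η ∈ Y, (η : G → ℂ) g := by
  have hp : p.Prime := Fact.out
  have h5 := S.hp5
  have hΘ := S.ext2_isCharacter
  have hχ := Helper79.irr_isCharacter χ₂
  have hΦ : IsCharacter G (ext2 (χ₂ : G → ℂ) + (χ₂ : G → ℂ)) := Helper79.isCharacter_add hΘ hχ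
  have hΦ0 : ∀ g : G, p ∣ orderOf g → (ext2 (χ₂ : G → ℂ) + (χ₂ : G → ℂ)) g = 0 := by
    intro g hg
    have hgg : p ∣ orderOf (g * g) := by
      rw [← pow_two, orderOf_pow' g (by norm_num : (2 : ℕ) ≠ 0)]
      have hd2 : Nat.gcd (orderOf g) 2 ∣ 2 := Nat.gcd_dvd_right _ _
      have hdg : Nat.gcd (orderOf g) 2 ∣ orderOf g := Nat.gcd_dvd_left _ _
      have hmul : Nat.gcd (orderOf g) 2 * (orderOf g / Nat.gcd (orderOf g) 2) = orderOf g :=
        Nat.mul_div_cancel' hdg
      have h3 : p ∣ Nat.gcd (orderOf g) 2 * (orderOf g / Nat.gcd (orderOf g) 2) := by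
        rw [hmul]
        exact hg
      rcases (Nat.Prime.dvd_mul hp).mp h3 with h4 | h4
      · have := Nat.le_of_dvd (by norm_num) (h4.trans hd2)
        omega
      · exact h4
    show ext2 (χ₂ : G → ℂ) g + (χ₂ : G → ℂ) g = 0
    unfold ext2
    rw [S.chi_sing hg, S.chi_sing hgg]
    norm_num
  obtain ⟨n₁, n₂, c, R, h1, h2, h3, h4, h5', h6⟩ := S.data.decomp S.hP hΦ hΦ0
  have hG : (Nat.card G : ℂ) ≠ 0 := by exact_mod_cast Nat.card_pos.ne'
  have hn1 : n₁ = 0 := by
    have : (n₁ : ℂ) = 0 := by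
      rw [← h1]
      unfold classInner
      have e : ∀ g : G, (ext2 (χ₂ : G → ℂ) + (χ₂ : G → ℂ)) g
          * conj ((Helper81.trivIrr G : G → ℂ) g) = ext2 (χ₂ : G → ℂ) g + (χ₂ : G → ℂ) g := by
        intro g
        rw [Helper81.trivIrr_apply, map_one, mul_one]
        rfl
      rw [Finset.sum_congr rfl (fun g _ => e g), Finset.sum_add_distrib, S.ext2_sum, S.chi_sum,
        add_zero, mul_zero]
    exact_mod_cast this
  obtain ⟨m, hm⟩ := Helper3.classInner_isCharacter_nat hΘ hχ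
  have hn2 : n₂ = m + 1 := by
    have : (n₂ : ℂ) = (m : ℂ) + 1 := by
      rw [← h2, ← hm, ← Helper79.irr_classInner_self χ₂]
      unfold classInner
      rw [← mul_add, ← Finset.sum_add_distrib]
      congr 1
      refine Finset.sum_congr rfl (fun g _ => ?_)
      rw [Pi.add_apply, add_mul]
    exact_mod_cast this
  have hc : c = n₂ := by
    rw [hn1] at h4
    push_cast at h4
    have : (c : ℤ) = (n₂ : ℤ) := by linarith
    exact_mod_cast this
  have hD : charDegree (ext2 (χ₂ : G → ℂ) + (χ₂ : G → ℂ)) * 2 = (p - 1) * p := by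
    have h7 := Helper79.isCharacter_one_eq_charDegree hΦ
    have h8 : (ext2 (χ₂ : G → ℂ) + (χ₂ : G → ℂ)) 1
        = ((p : ℂ) - 1) * ((p : ℂ) - 2) / 2 + ((p : ℂ) - 1) := by
      show ext2 (χ₂ : G → ℂ) 1 + (χ₂ : G → ℂ) 1 = _
      unfold ext2
      rw [mul_one, S.chi_one]
      ring
    rw [h8] at h7
    have h9 : ((charDegree (ext2 (χ₂ : G → ℂ) + (χ₂ : G → ℂ)) * 2 : ℕ) : ℂ)
        = (((p - 1) * p : ℕ) : ℂ) := by
      push_cast [Nat.cast_sub (show 1 ≤ p by omega)]
      rw [← h7]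
      ring
    exact_mod_cast h9
  rw [hn1, hc, S.deg, S.eta_deg] at h5'
  have hY := S.data.card
  obtain ⟨q, rfl⟩ : ∃ q, p = q + 2 := ⟨p - 2, by omega⟩
  have e1 : q + 2 - 1 = q + 1 := by omega
  have e2 : q + 2 - 2 = q := by omega
  rw [e1] at hD hY
  rw [e1, e2, hn2] at h5'
  have key : (m : ℤ) * ((q + 1) * (q + 2)) + 2 * R = 0 := by
    zify at hD hY h5'
    linear_combination hD - 2 * h5' - ((m : ℤ) + 1) * q * hY
  have hm0 : m = 0 := by
    by_contra hne
    have h1 : (1 : ℤ) ≤ m := by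
      have : 1 ≤ m := Nat.one_le_iff_ne_zero.mpr hne
      exact_mod_cast this
    have h2 : (0 : ℤ) ≤ R := by positivity
    have h3 : (0 : ℤ) ≤ q := by positivity
    nlinarith
  have hR0 : R = 0 := by
    rw [hm0] at key
    have : (2 : ℤ) * R = 0 := by simpa using key
    omega
  have h10 := h6 hR0 g
  rw [hn1, hc, hn2, hm0] at h10
  have h11 : (ext2 (χ₂ : G → ℂ) + (χ₂ : G → ℂ)) g = ext2 (χ₂ : G → ℂ) g + (χ₂ : G → ℂ) g := rfl
  rw [h11] at h10
  push_cast at h10
  linear_combination h10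

/-- the main relation on `p`-regular elements. -/
theorem star_reg {g : G} (hg : ¬ p ∣ orderOf g) :
    (χ₂ : G → ℂ) g * (χ₂ : G → ℂ) g - (χ₂ : G → ℂ) (g * g)
      = ((p : ℂ) - 1) * ((χ₂ : G → ℂ) g - 1) := by
  have h := S.star g
  rw [S.sumY_reg hg] at h
  unfold ext2 at h
  linear_combination 2 * h + ((χ₂ : G → ℂ) g - 1) * S.card_Y

/-- `χ₂` vanishes on involutions. -/
theorem chi_invol {t : G} (ht : orderOf t = 2) : (χ₂ : G → ℂ) t = 0 := by
  have h5 := S.hp5
  have hreg : ¬ p ∣ orderOf t := by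
    rw [ht]
    intro h
    have := Nat.le_of_dvd (by norm_num) h
    omega
  have ht1 : t ≠ 1 := by
    rintro rfl
    rw [orderOf_one] at ht
    omega
  have htt : t * t = 1 := by
    rw [← pow_two, ← ht]
    exact pow_orderOf_eq_one t
  have h := S.star_reg hreg
  rw [htt, S.chi_one] at h
  have h2 : (χ₂ : G → ℂ) t * ((χ₂ : G → ℂ) t - ((p : ℂ) - 1)) = 0 := by linear_combination h
  rcases mul_eq_zero.mp h2 with h3 | h3
  · exact h3
  · exfalso
    apply BrauerP.irr_apply_ne_degree χ₂ S.data.ne_triv ht1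
    rw [S.chi_one]
    linear_combination h3

/-- `χ₂` is `1` on nontrivial `p`-regular elements of odd order. -/
theorem chi_odd {g : G} (hodd : Odd (orderOf g)) (hreg : ¬ p ∣ orderOf g) (hg1 : g ≠ 1) :
    (χ₂ : G → ℂ) g = 1 := by
  have h := S.star_reg hreg
  rw [S.chi_sq_odd hodd] at h
  have h2 : ((χ₂ : G → ℂ) g - 1) * ((χ₂ : G → ℂ) g - ((p : ℂ) - 1)) = 0 := by
    linear_combination h
  rcases mul_eq_zero.mp h2 with h3 | h3
  · linear_combination h3
  · exfalso
    apply BrauerP.irr_apply_ne_degree χ₂ S.data.ne_triv hg1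
    rw [S.chi_one]
    linear_combination h3

open Classical in
/-- subgroups of order prime to `2p` have order dividing `p - 2`. -/
theorem card_dvd_of_coprime (R : Subgroup G) (hR : (Nat.card R).Coprime (2 * p)) :
    Nat.card R ∣ p - 2 := by
  have h5 := S.hp5
  obtain ⟨a, b, -, -, hK⟩ := sum_mono (Helper79.irr_isCharacter η₀) (le_top : R ≤ ⊤)
  have hval : ∀ g ∈ Finset.univ.filter (fun g : G => g ∈ R), g ≠ 1 → (η₀ : G → ℂ) g = 0 := by
    intro g hg hg1
    rw [Finset.mem_filter] at hg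
    have ho : orderOf g ∣ Nat.card R := by
      have := orderOf_dvd_natCard (⟨g, hg.2⟩ : R)
      rwa [Subgroup.orderOf_mk] at this
    have hco : (orderOf g).Coprime (2 * p) := Nat.Coprime.coprime_dvd_left ho hR
    have hodd : Odd (orderOf g) :=
      (Nat.coprime_two_right).mp (Nat.Coprime.coprime_dvd_right (Dvd.intro _ rfl) hco)
    have hreg : ¬ p ∣ orderOf g := by
      intro h
      have hp : p.Prime := Fact.out
      have h2 : p ∣ Nat.gcd (orderOf g) (2 * p) := Nat.dvd_gcd h (Dvd.intro_left _ rfl)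
      rw [hco] at h2
      exact hp.one_lt.ne' (Nat.dvd_one.mp h2)
    rw [S.eta_reg hreg, S.chi_odd hodd hreg hg1, sub_self]
  have h1 : (1 : G) ∈ Finset.univ.filter (fun g : G => g ∈ R) := by
    rw [Finset.mem_filter]
    exact ⟨Finset.mem_univ _, one_mem _⟩
  rw [← Finset.add_sum_erase _ _ h1, Finset.sum_eq_zero (fun g hg =>
    hval g (Finset.mem_of_mem_erase hg) (Finset.ne_of_mem_erase hg)), add_zero, S.eta_one] at hK
  have h2 : ((p - 2 : ℕ) : ℂ) = ((Nat.card R * b : ℕ) : ℂ) := by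
    push_cast [Nat.cast_sub (show 2 ≤ p by omega)]
    exact hK
  exact ⟨b, by exact_mod_cast h2⟩

end Setting

end TwoDeg

end Cfsg.Agent.Helper9
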