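import Cfsg.Agent.Helper9.TwoDeg3

set_option autoImplicit false
set_option linter.style.haveILetI false
set_option maxHeartbeats 1000000
set_option linter.unusedSectionVars false

/-!
# Groups with a self-centralizing Sylow subgroup of prime order, `|N(P)| = 2p`, and a character
of degree `p - 1` (helper9), part 4: products of two involutions

* `TwoDeg.invol_count`: the number of ways to write `w ∈ P ∖ 1` as a product of two conjugates
  of an involution `z`, in the form of the class-product formula.
* `TwoDeg.card_conj_outer`: the number of `x` with `x z x⁻¹ ∈ N(P) ∖ P`.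
-/

namespace Cfsg.Agent.Helper9

namespace TwoDeg

open Subgroup Cfsg

open scoped ComplexConjugate

universe u

variable {G : Type u} [Group G]

open Classical in
/-- the fibres of `x ↦ x z x⁻¹`. -/
theorem card_conj_fiber [Fintype G] (z y : G) :
    (Finset.univ.filter (fun x : G => x * z * x⁻¹ = y * z * y⁻¹)).card
      = Nat.card (centralizer ({z} : Set G)) := by
  rw [← card_filter_mem]
  apply Finset.card_nbij' (fun x => y⁻¹ * x) (fun c => y * c)
  · intro x hx
    simp only [Finset.coe_filter, Finset.mem_univ, true_and, Set.mem_ofPred_eq] at hx ⊢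
    rw [Subgroup.mem_centralizer_iff]
    intro h hh
    rw [Set.mem_singleton_iff] at hh
    rw [hh]
    calc z * (y⁻¹ * x) = y⁻¹ * (y * z * y⁻¹) * x := by group
      _ = y⁻¹ * (x * z * x⁻¹) * x := by rw [hx]
      _ = y⁻¹ * x * z := by group
  · intro c hc
    simp only [Finset.coe_filter, Finset.mem_univ, true_and, Set.mem_ofPred_eq] at hc ⊢
    rw [Subgroup.mem_centralizer_iff] at hc
    have h1 := hc z (Set.mem_singleton z)
    calc y * c * z * (y * c)⁻¹ = y * (c * z) * c⁻¹ * y⁻¹ := by group
      _ = y * (z * c) * c⁻¹ * y⁻¹ := by rw [h1]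
      _ = y * z * y⁻¹ := by group
  · intro x _
    show y * (y⁻¹ * x) = x
    group
  · intro c _
    show y⁻¹ * (y * c) = c
    group

section Outer

variable [Fintype G] {p : ℕ} [Fact p.Prime] (P : Sylow p G)
  (hP : Nat.card (P : Subgroup G) = p)
  (hC : Nat.card (centralizer ((P : Subgroup G) : Set G)) = p)
  (hN : Nat.card (normalizer ((P : Subgroup G) : Set G)) = 2 * p)

include hP hC hN

/-- an involution inverting a nontrivial element of `P` lies in `N(P) ∖ P`. -/
theorem outer_of_invert (hp2 : p ≠ 2) {w s : G} (hw : w ∈ (P : Subgroup G)) (hw1 : w ≠ 1)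
    (hs : s * s = 1) (hinv : s * w * s⁻¹ = w⁻¹) :
    s ∈ normalizer ((P : Subgroup G) : Set G) ∧ s ∉ (P : Subgroup G) := by
  have hp : p.Prime := Fact.out
  have hz := OrdTools.zpowers_eq_sylow P hP hw hw1
  have hF : ∀ h ∈ (P : Subgroup G), s * h * s⁻¹ ∈ (P : Subgroup G) := by
    intro h hh
    rw [← hz] at hh
    obtain ⟨k, rfl⟩ := Subgroup.mem_zpowers_iff.mp hh
    rw [← conj_zpow, hinv]
    exact zpow_mem (inv_mem hw) k
  constructor
  · rw [Subgroup.mem_normalizer_iff]
    intro h
    constructor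
    · exact hF h
    · intro hh
      have h2 := hF _ hh
      have h3 : s * (s * h * s⁻¹) * s⁻¹ = h := by
        calc s * (s * h * s⁻¹) * s⁻¹ = (s * s) * h * (s * s)⁻¹ := by group
          _ = h := by rw [hs]; group
      rwa [h3] at h2
  · intro hsP
    have hc := OrdTools.le_centralizer_of_prime P hP hsP
    rw [Subgroup.mem_centralizer_iff] at hc
    have h1 := hc w hw
    have h2 : w * w = 1 := by
      have h3 : s * w * s⁻¹ = w := by
        rw [← h1]
        group
      rw [h3] at hinv
      calc w * w = w * w⁻¹ := by rw [← hinv]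
        _ = 1 := mul_inv_cancel w
    have h4 := orderOf_dvd_of_pow_eq_one (show w ^ 2 = 1 by rw [pow_two]; exact h2)
    rw [← Nat.card_zpowers, hz, hP] at h4
    exact hp2 ((Nat.prime_dvd_prime_iff_eq hp Nat.prime_two).mp h4)

open Classical in
/-- **products of two involutions**, in the form of the class-product formula. -/
theorem invol_count (hp2 : p ≠ 2) {z w : G} (hz : z * z = 1) (hw : w ∈ (P : Subgroup G))
    (hw1 : w ≠ 1) :
    ∑ g : G, Helper81.classInd z g
        * ((Finset.univ.filter (fun x : G => x * (g * z) * x⁻¹ = w)).card : ℂ)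
      = ((Finset.univ.filter (fun x : G => x * z * x⁻¹ ∈ normalizer ((P : Subgroup G) : Set G)
          ∧ x * z * x⁻¹ ∉ (P : Subgroup G))).card : ℂ) := by
  have hzi : z⁻¹ = z := inv_eq_of_mul_eq_one_left hz
  have e1 : ∀ g : G, Helper81.classInd z g
      * ((Finset.univ.filter (fun x : G => x * (g * z) * x⁻¹ = w)).card : ℂ)
      = ∑ x : G, (if IsConj z g ∧ x * (g * z) * x⁻¹ = w then (1 : ℂ) else 0) := by
    intro g
    unfold Helper81.classInd
    by_cases hc : IsConj z g
    · rw [if_pos hc, one_mul, Finset.card_filter]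
      push_cast
      exact Finset.sum_congr rfl (fun x _ => by simp only [hc, true_and])
    · rw [if_neg hc, zero_mul]
      symm
      exact Finset.sum_eq_zero (fun x _ => by rw [if_neg]; exact fun h => hc h.1)
  rw [Finset.sum_congr rfl (fun g _ => e1 g), Finset.sum_comm]
  have e2 : ∀ x : G, ∑ g : G, (if IsConj z g ∧ x * (g * z) * x⁻¹ = w then (1 : ℂ) else 0)
      = if (x * z * x⁻¹ ∈ normalizer ((P : Subgroup G) : Set G)
          ∧ x * z * x⁻¹ ∉ (P : Subgroup G)) then 1 else 0 := by
    intro x
    rw [Finset.sum_eq_single (x⁻¹ * w * x * z⁻¹)]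
    · have hg0 : x * (x⁻¹ * w * x * z⁻¹ * z) * x⁻¹ = w := by group
      by_cases ho : (x * z * x⁻¹ ∈ normalizer ((P : Subgroup G) : Set G)
          ∧ x * z * x⁻¹ ∉ (P : Subgroup G))
      · rw [if_pos ho, if_pos]
        refine ⟨?_, hg0⟩
        -- `w * (x z x⁻¹)⁻¹` is conjugate to `x z x⁻¹` under `P`
        have hwN : w * (x * z * x⁻¹)⁻¹ ∈ normalizer ((P : Subgroup G) : Set G) :=
          mul_mem (Subgroup.le_normalizer hw) (inv_mem ho.1)
        have hwP : w * (x * z * x⁻¹)⁻¹ ∉ (P : Subgroup G) := by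
          intro h
          apply ho.2
          have h2 : x * z * x⁻¹ = (w⁻¹ * (w * (x * z * x⁻¹)⁻¹))⁻¹ := by group
          rw [h2]
          exact inv_mem (mul_mem (inv_mem hw) h)
        have himg := (outer_image P hP hC hN ho.1 ho.2).2
        have hmem : w * (x * z * x⁻¹)⁻¹ ∈ Finset.univ.filter
            (fun g : G => g ∈ normalizer ((P : Subgroup G) : Set G) ∧ g ∉ (P : Subgroup G)) := by
          rw [Finset.mem_filter]
          exact ⟨Finset.mem_univ _, hwN, hwP⟩
        rw [← himg] at hmem
        obtain ⟨y, -, hy⟩ := Finset.mem_image.mp hmem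
        rw [isConj_iff]
        refine ⟨x⁻¹ * y * x, ?_⟩
        calc x⁻¹ * y * x * z * (x⁻¹ * y * x)⁻¹ = x⁻¹ * (y * (x * z * x⁻¹) * y⁻¹) * x := by group
          _ = x⁻¹ * (w * (x * z * x⁻¹)⁻¹) * x := by rw [hy]
          _ = x⁻¹ * w * x * z⁻¹ := by group
      · rw [if_neg ho, if_neg]
        rintro ⟨hc, -⟩
        apply ho
        obtain ⟨c, hc⟩ := isConj_iff.mp hc
        -- `x z x⁻¹` inverts `w`
        have hs : (x * z * x⁻¹) * (x * z * x⁻¹) = 1 := by
          calc (x * z * x⁻¹) * (x * z * x⁻¹) = x * (z * z) * x⁻¹ := by group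
            _ = 1 := by rw [hz]; group
        have hgg : (x⁻¹ * w * x * z⁻¹) * (x⁻¹ * w * x * z⁻¹) = 1 := by
          rw [← hc]
          calc c * z * c⁻¹ * (c * z * c⁻¹) = c * (z * z) * c⁻¹ := by group
            _ = 1 := by rw [hz]; group
        apply outer_of_invert P hP hC hN hp2 hw hw1 hs
        -- `w = (x g x⁻¹) (x z x⁻¹)` with both factors involutions
        rw [hzi] at hgg
        have h1 : w * (x * z * x⁻¹) * w = x * z * x⁻¹ := by
          have h2 : w * (x * z * x⁻¹) * w
              = x * ((x⁻¹ * w * x * z) * (x⁻¹ * w * x * z)) * z⁻¹ * x⁻¹ := by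
            group
          rw [h2, hgg, hzi]
          group
        calc x * z * x⁻¹ * w * (x * z * x⁻¹)⁻¹
            = w⁻¹ * (w * (x * z * x⁻¹) * w) * (x * z * x⁻¹)⁻¹ := by group
          _ = w⁻¹ * (x * z * x⁻¹) * (x * z * x⁻¹)⁻¹ := by rw [h1]
          _ = w⁻¹ := by group
    · intro g _ hne
      rw [if_neg]
      rintro ⟨-, h⟩
      apply hne
      calc g = x⁻¹ * (x * (g * z) * x⁻¹) * x * z⁻¹ := by group
        _ = x⁻¹ * w * x * z⁻¹ := by rw [h]
    · intro h
      exact absurd (Finset.mem_univ _) h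
  rw [Finset.sum_congr rfl (fun x _ => e2 x), Finset.sum_boole]

open Classical in
/-- the number of `x` with `x z x⁻¹ ∈ N(P) ∖ P`. -/
theorem card_conj_outer {z x₀ : G}
    (h0 : x₀ * z * x₀⁻¹ ∈ normalizer ((P : Subgroup G) : Set G))
    (h0' : x₀ * z * x₀⁻¹ ∉ (P : Subgroup G)) :
    (Finset.univ.filter (fun x : G => x * z * x⁻¹ ∈ normalizer ((P : Subgroup G) : Set G)
      ∧ x * z * x⁻¹ ∉ (P : Subgroup G))).card
      = p * Nat.card (centralizer ({z} : Set G)) := by
  have himg := (outer_image P hP hC hN h0 h0').2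
  rw [Finset.card_eq_sum_card_fiberwise (f := fun x : G => x * z * x⁻¹)
    (t := Finset.univ.filter (fun g : G => g ∈ normalizer ((P : Subgroup G) : Set G)
      ∧ g ∉ (P : Subgroup G)))]
  · have hfib : ∀ b ∈ Finset.univ.filter (fun g : G => g ∈ normalizer ((P : Subgroup G) : Set G)
        ∧ g ∉ (P : Subgroup G)),
        ((Finset.univ.filter (fun x : G => x * z * x⁻¹ ∈ normalizer ((P : Subgroup G) : Set G)
          ∧ x * z * x⁻¹ ∉ (P : Subgroup G))).filter (fun a => a * z * a⁻¹ = b)).card
          = Nat.card (centralizer ({z} : Set G)) := by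
      intro b hb
      have hb' := hb
      rw [← himg] at hb
      obtain ⟨y, -, hy⟩ := Finset.mem_image.mp hb
      have hy' : b = (y * x₀) * z * (y * x₀)⁻¹ := by
        rw [← hy]
        group
      rw [← card_conj_fiber z (y * x₀), ← hy']
      congr 1
      ext a
      simp only [Finset.mem_filter, Finset.mem_univ, true_and]
      constructor
      · exact fun h => h.2
      · intro h
        rw [Finset.mem_filter] at hb'
        exact ⟨h ▸ hb'.2, h⟩
    rw [Finset.sum_congr rfl hfib, Finset.sum_const, outer_card P hP hC hN, smul_eq_mul]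
  · intro x hx
    rw [Finset.mem_coe, Finset.mem_filter] at hx ⊢
    exact ⟨Finset.mem_univ _, hx.2⟩

end Outer

end TwoDeg

end Cfsg.Agent.Helper9
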