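import Cfsg.Agent.Helper9.TwoDeg4

set_option autoImplicit false
set_option linter.style.haveILetI false
set_option maxHeartbeats 1000000
set_option linter.unusedSectionVars false

/-!
# Groups with a self-centralizing Sylow subgroup of prime order, `|N(P)| = 2p`, and a character
of degree `p - 1` (helper9), part 5: the order of `G`

* `TwoDeg.Setting.order_formula`: `|G| (p - 1) = p (p - 2) |C(z)|²` for every involution `z`.
* `TwoDeg.Setting.card_eq`: `|G| = p (p - 1) (p - 2)`, `p - 1` is a power of `2` and the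
  centralizers of involutions have order `p - 1`.
-/

namespace Cfsg.Agent.Helper9

namespace TwoDeg

open Subgroup Cfsg

open scoped ComplexConjugate

universe u

variable {G : Type u} [Group G]

namespace Setting

variable [Fintype G] [IsSimpleGroup G] {p : ℕ} [Fact p.Prime] {P : Sylow p G}
  {χ₂ η₀ : IrrCharacter G} {Y : Finset (IrrCharacter G)} (S : Setting p P χ₂ η₀ Y)

include S

open Classical in
/-- **the order formula**: every involution is conjugate into `N(P) ∖ P`, and
`|G| (p - 1) = p (p - 2) |C(z)|²`. -/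
theorem order_formula {z : G} (hz : orderOf z = 2) :
    (∃ x : G, x * z * x⁻¹ ∈ normalizer ((P : Subgroup G) : Set G)
      ∧ x * z * x⁻¹ ∉ (P : Subgroup G)) ∧
    Nat.card G * (p - 1) = p * (p - 2) * Nat.card (centralizer ({z} : Set G)) ^ 2 := by
  have hp : p.Prime := Fact.out
  have h5 := S.hp5
  haveI : Fintype (IrrCharacter G) := Fintype.ofFinite _
  obtain ⟨w, hw, hw1, hwo⟩ := S.exists_w
  have hzz : z * z = 1 := by
    rw [← pow_two, ← hz]
    exact pow_orderOf_eq_one z
  have hreg : ¬ p ∣ orderOf z := by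
    rw [hz]
    intro h
    have := Nat.le_of_dvd (by norm_num) h
    omega
  have hwi : w⁻¹ ∈ (P : Subgroup G) := inv_mem hw
  have hwi1 : w⁻¹ ≠ 1 := by simpa using hw1
  have hmain := Helper78.sum_irr_omega_mul_mul_inv (Helper81.classInd_isClassFunction z) z w
  simp only [Helper81.omega_classInd] at hmain
  rw [invol_count P S.hP S.hC S.hN (by omega) hzz hw hw1,
    BrauerP.sum_split S.data.ne_triv S.data.triv_nmem S.data.nmem] at hmain
  have hO : ∑ χ ∈ ((Finset.univ.erase (Helper81.trivIrr G)).erase χ₂) \ Y,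
      centralChar (χ : G → ℂ) z * (χ : G → ℂ) z * (χ : G → ℂ) w⁻¹ = 0 := by
    apply Finset.sum_eq_zero
    intro χ hχ
    rw [Finset.mem_sdiff, Finset.mem_erase, Finset.mem_erase] at hχ
    rw [S.data.vanish w⁻¹ hwi hwi1 χ hχ.1.2.1 hχ.1.1 hχ.2, mul_zero]
  have hp2 : (p : ℂ) - 2 ≠ 0 := by
    have : ((p - 2 : ℕ) : ℂ) ≠ 0 := by
      have : p - 2 ≠ 0 := by omega
      exact_mod_cast this
    rwa [Nat.cast_sub (by omega)] at this
  have hYs : ∑ η ∈ Y, centralChar (η : G → ℂ) z * (η : G → ℂ) z * (η : G → ℂ) w⁻¹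
      = ((centralizer ({z} : Set G)).index : ℂ) / ((p : ℂ) - 2) := by
    have e : ∀ η ∈ Y, centralChar (η : G → ℂ) z * (η : G → ℂ) z * (η : G → ℂ) w⁻¹
        = ((centralizer ({z} : Set G)).index : ℂ) / ((p : ℂ) - 2) * (η : G → ℂ) w⁻¹ := by
      intro η hη
      unfold centralChar
      rw [S.data.agree η hη z hreg, S.data.agree η hη 1 S.reg_one, S.eta_reg hreg,
        S.chi_invol hz, S.eta_one]
      ring
    rw [Finset.sum_congr rfl e, ← Finset.mul_sum, S.data.sumY w⁻¹ hwi hwi1]
    norm_num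
  have h2 : centralChar (χ₂ : G → ℂ) z * (χ₂ : G → ℂ) z * (χ₂ : G → ℂ) w⁻¹ = 0 := by
    unfold centralChar
    rw [S.chi_invol hz]
    ring
  have h1 : centralChar (Helper81.trivIrr G : G → ℂ) z * (Helper81.trivIrr G : G → ℂ) z
      * (Helper81.trivIrr G : G → ℂ) w⁻¹ = ((centralizer ({z} : Set G)).index : ℂ) := by
    unfold centralChar
    simp only [Helper81.trivIrr_apply]
    ring
  rw [hO, hYs, h1, h2] at hmain
  have hidx : ((centralizer ({z} : Set G)).index : ℂ) ≠ 0 := by
    exact_mod_cast Subgroup.index_ne_zero_of_finite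
  have hp1 : (p : ℂ) - 1 ≠ 0 := by
    have : ((p - 1 : ℕ) : ℂ) ≠ 0 := by
      have : p - 1 ≠ 0 := by omega
      exact_mod_cast this
    rwa [Nat.cast_sub (by omega), Nat.cast_one] at this
  have hmain' : ((centralizer ({z} : Set G)).index : ℂ) * ((p : ℂ) - 1)
      = ((Finset.univ.filter (fun x : G => x * z * x⁻¹ ∈ normalizer ((P : Subgroup G) : Set G)
          ∧ x * z * x⁻¹ ∉ (P : Subgroup G))).card : ℂ) * ((p : ℂ) - 2) := by
    rw [← hmain]
    field_simp
    ring
  have hM : (Finset.univ.filter (fun x : G => x * z * x⁻¹ ∈ normalizer ((P : Subgroup G) : Set G)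
      ∧ x * z * x⁻¹ ∉ (P : Subgroup G))).card ≠ 0 := by
    intro h
    rw [h, Nat.cast_zero, zero_mul] at hmain'
    exact mul_ne_zero hidx hp1 hmain'
  obtain ⟨x₀, hx₀⟩ := Finset.card_pos.mp (Nat.pos_of_ne_zero hM)
  rw [Finset.mem_filter] at hx₀
  refine ⟨⟨x₀, hx₀.2⟩, ?_⟩
  rw [card_conj_outer P S.hP S.hC S.hN hx₀.2.1 hx₀.2.2] at hmain'
  push_cast at hmain'
  have hci := Subgroup.card_mul_index (centralizer ({z} : Set G))
  have h3 : ((Nat.card G * (p - 1) : ℕ) : ℂ)
      = ((p * (p - 2) * Nat.card (centralizer ({z} : Set G)) ^ 2 : ℕ) : ℂ) := by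
    rw [← hci]
    push_cast [Nat.cast_sub (show 1 ≤ p by omega), Nat.cast_sub (show 2 ≤ p by omega)]
    linear_combination (Nat.card (centralizer ({z} : Set G)) : ℂ) * hmain'
  exact_mod_cast h3

theorem exists_invol : ∃ t : G, orderOf t = 2 := by
  obtain ⟨t, ht, htP⟩ := S.exists_outer
  have h1 := outer_sq P S.hP S.hC S.hN ht htP
  have ht1 : t ≠ 1 := by
    rintro rfl
    exact htP (one_mem _)
  haveI : Fact (Nat.Prime 2) := ⟨Nat.prime_two⟩
  exact ⟨t, orderOf_eq_prime (by rw [pow_two]; exact h1) ht1⟩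

/-- the centralizer of an involution has order prime to `p`. -/
theorem cent_invol_not_dvd {z : G} (hz : orderOf z = 2) :
    ¬ p ∣ Nat.card (centralizer ({z} : Set G)) := by
  have hp : p.Prime := Fact.out
  have h5 := S.hp5
  intro h
  obtain ⟨u, hu⟩ := exists_prime_orderOf_dvd_card' p h
  have hu' : orderOf (u : G) = p := by
    rw [Subgroup.orderOf_coe]
    exact hu
  obtain ⟨x, hx, hx1⟩ := sing_conj P S.hP S.hC (g := (u : G)) (by rw [hu'])
  have hcomm : (x * z * x⁻¹) * (x * u * x⁻¹) = (x * u * x⁻¹) * (x * z * x⁻¹) := by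
    have := Subgroup.mem_centralizer_iff.mp u.2 z (Set.mem_singleton z)
    calc (x * z * x⁻¹) * (x * u * x⁻¹) = x * (z * u) * x⁻¹ := by group
      _ = x * (u * z) * x⁻¹ := by rw [this]
      _ = (x * u * x⁻¹) * (x * z * x⁻¹) := by group
  have hmem := mem_of_commute P S.hP S.hC hx hx1 hcomm
  have hs : (x * z * x⁻¹) ^ 2 = 1 := by
    rw [pow_two]
    calc (x * z * x⁻¹) * (x * z * x⁻¹) = x * (z * z) * x⁻¹ := by group
      _ = 1 := by
        rw [← pow_two, ← hz, pow_orderOf_eq_one]
        group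
  have hd := orderOf_dvd_of_pow_eq_one hs
  have hd2 : orderOf (x * z * x⁻¹) ∣ p := by
    have := orderOf_dvd_natCard (⟨_, hmem⟩ : (P : Subgroup G))
    rwa [Subgroup.orderOf_mk, S.hP] at this
  have hd3 : orderOf (x * z * x⁻¹) ∣ Nat.gcd 2 p := Nat.dvd_gcd hd hd2
  have hg : Nat.gcd 2 p = 1 := by
    have : Nat.Coprime 2 p := (Nat.coprime_primes Nat.prime_two hp).mpr (by omega)
    exact this
  rw [hg, Nat.dvd_one, orderOf_eq_one_iff] at hd3
  have hz1 : z = 1 := by
    have h2 : z = x⁻¹ * (x * z * x⁻¹) * x := by group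
    rw [h2, hd3]
    group
  rw [hz1, orderOf_one] at hz
  omega

/-- **the order of `G`**. -/
theorem card_eq : Nat.card G = p * (p - 1) * (p - 2) ∧ (∃ k, p - 1 = 2 ^ k) ∧
    ∀ z : G, orderOf z = 2 → Nat.card (centralizer ({z} : Set G)) = p - 1 := by
  classical
  have hp : p.Prime := Fact.out
  have h5 := S.hp5
  haveI : Fact (Nat.Prime 2) := ⟨Nat.prime_two⟩
  have hG0 : Nat.card G ≠ 0 := Nat.card_pos.ne'
  obtain ⟨t, ht⟩ := S.exists_invol
  have h2G : 2 ∣ Nat.card G := by
    rw [← ht]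
    exact orderOf_dvd_natCard t
  -- a Sylow `2`-subgroup and a central involution
  let T : Sylow 2 G := default
  have hT2 : 2 ∣ Nat.card (T : Subgroup G) := T.dvd_card_of_dvd_card h2G
  haveI : Nontrivial (T : Subgroup G) := by
    apply Finite.one_lt_card_iff_nontrivial.mp
    have := Nat.le_of_dvd Nat.card_pos hT2
    omega
  have hcn : Nontrivial (Subgroup.center (T : Subgroup G)) := T.isPGroup'.center_nontrivial
  have hc2 : 2 ∣ Nat.card (Subgroup.center (T : Subgroup G)) := by
    obtain ⟨n, hn⟩ := IsPGroup.iff_card.mp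
      (T.isPGroup'.to_subgroup (Subgroup.center (T : Subgroup G)))
    have h1 : 1 < Nat.card (Subgroup.center (T : Subgroup G)) := Finite.one_lt_card
    rw [hn] at h1 ⊢
    have hn0 : n ≠ 0 := by
      rintro rfl
      simp at h1
    exact dvd_pow_self 2 hn0
  obtain ⟨c, hc⟩ := exists_prime_orderOf_dvd_card' 2 hc2
  set z₀ : G := ((c : (T : Subgroup G)) : G) with hz₀
  have hz₀o : orderOf z₀ = 2 := by
    rw [hz₀, Subgroup.orderOf_coe, Subgroup.orderOf_coe]
    exact hc
  have hTle : (T : Subgroup G) ≤ centralizer ({z₀} : Set G) := by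
    intro y hy
    rw [Subgroup.mem_centralizer_iff]
    intro h hh
    rw [Set.mem_singleton_iff] at hh
    rw [hh]
    have h1 := Subgroup.mem_center_iff.mp c.2 ⟨y, hy⟩
    have h2 := congrArg Subtype.val h1
    exact h2.symm
  set c₀ := Nat.card (centralizer ({z₀} : Set G)) with hc₀
  have hc₀0 : c₀ ≠ 0 := Nat.card_pos.ne'
  have hF := (S.order_formula hz₀o).2
  rw [← hc₀] at hF
  have hc₀G : c₀ ∣ Nat.card G := Subgroup.card_subgroup_dvd_card _
  -- `c₀` is a power of `2`
  have hpow : ∀ {d : ℕ}, d.Prime → d ∣ c₀ → d = 2 := by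
    intro r hr hrc
    by_contra hr2
    have hrp : r ≠ p := by
      rintro rfl
      exact S.cent_invol_not_dvd hz₀o hrc
    haveI : Fact r.Prime := ⟨hr⟩
    let R : Sylow r G := default
    have hRc : Nat.card (R : Subgroup G) = r ^ (Nat.card G).factorization r :=
      R.card_eq_multiplicity
    have hco : (Nat.card (R : Subgroup G)).Coprime (2 * p) := by
      rw [hRc]
      exact Nat.Coprime.pow_left _ (Nat.Coprime.mul_right
        ((Nat.coprime_primes hr Nat.prime_two).mpr hr2) ((Nat.coprime_primes hr hp).mpr hrp))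
    have hRd := S.card_dvd_of_coprime (R : Subgroup G) hco
    rw [hRc] at hRd
    have hv1 : 1 ≤ (Nat.card G).factorization r :=
      hr.factorization_pos_of_dvd hG0 (hrc.trans hc₀G)
    have hv2 : (Nat.card G).factorization r ≤ (p - 2).factorization r :=
      (hr.pow_dvd_iff_le_factorization (by omega)).mp hRd
    have hr2' : r ∣ p - 2 := (dvd_pow_self r (by omega)).trans hRd
    have hr1 : ¬ r ∣ p - 1 := by
      intro h
      have h3 : r ∣ (p - 1) - (p - 2) := Nat.dvd_sub h hr2'
      have h4 : (p - 1) - (p - 2) = 1 := by omega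
      rw [h4] at h3
      exact hr.one_lt.ne' (Nat.dvd_one.mp h3)
    have hrp' : ¬ r ∣ p := by
      intro h
      exact hrp ((Nat.prime_dvd_prime_iff_eq hr hp).mp h)
    have hfac := congrArg (fun n : ℕ => n.factorization r) hF
    rw [Nat.factorization_mul hG0 (by omega), Nat.factorization_mul
      (Nat.mul_ne_zero hp.ne_zero (by omega)) (pow_ne_zero _ hc₀0),
      Nat.factorization_mul hp.ne_zero (by omega), Nat.factorization_pow] at hfac
    simp only [Finsupp.coe_add, Finsupp.coe_smul, Pi.add_apply, Pi.smul_apply, smul_eq_mul,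
      Nat.factorization_eq_zero_of_not_dvd hr1, Nat.factorization_eq_zero_of_not_dvd hrp']
      at hfac
    have hv3 : 1 ≤ c₀.factorization r := hr.factorization_pos_of_dvd hc₀0 hrc
    omega
  have hc₀pow := Nat.eq_prime_pow_of_unique_prime_dvd hc₀0 hpow
  set b := c₀.primeFactorsList.length with hb
  set a := (Nat.card G).factorization 2 with ha
  have hTc : Nat.card (T : Subgroup G) = 2 ^ a := T.card_eq_multiplicity
  have hab : a = b := by
    have h1 : 2 ^ a ∣ 2 ^ b := by
      rw [← hTc, ← hc₀pow]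
      exact Subgroup.card_dvd_of_le hTle
    have h2 : 2 ^ b ∣ Nat.card G := by
      rw [← hc₀pow]
      exact hc₀G
    have h3 : a ≤ b := (Nat.pow_dvd_pow_iff_le_right (by norm_num)).mp h1
    have h4 : b ≤ a := (Nat.prime_two.pow_dvd_iff_le_factorization hG0).mp h2
    omega
  rw [← hab] at hc₀pow
  -- `p - 1` is a power of `2`
  obtain ⟨q, rfl⟩ : ∃ q, p = q + 2 := ⟨p - 2, by omega⟩
  have e1 : q + 2 - 1 = q + 1 := by omega
  have e2 : q + 2 - 2 = q := by omega
  rw [e1, e2] at hF
  simp only [e1, e2]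
  have hcop : Nat.Coprime (q + 1) ((q + 2) * q) := by
    apply Nat.Coprime.mul_right
    · have : Nat.Coprime (q + 1) (q + 1 + 1) := by simp
      exact this
    · exact Nat.coprime_self_add_left.mpr (Nat.coprime_one_left q)
  have hdvd : (q + 1) ∣ c₀ ^ 2 := by
    have h1 : (q + 1) ∣ (q + 2) * q * c₀ ^ 2 := ⟨Nat.card G, by rw [← hF]; ring⟩
    exact hcop.dvd_of_dvd_mul_left h1
  rw [hc₀pow, ← pow_mul] at hdvd
  obtain ⟨k, -, hk⟩ := (Nat.dvd_prime_pow Nat.prime_two).mp hdvd
  -- the order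
  have hidx := Subgroup.card_mul_index (T : Subgroup G)
  have hodd : ¬ 2 ∣ (T : Subgroup G).index := T.not_dvd_index
  set m := (T : Subgroup G).index with hm
  have hm0 : m ≠ 0 := Subgroup.index_ne_zero_of_finite
  rw [hTc] at hidx
  rw [← hidx, hk, hc₀pow] at hF
  have hF' : m * 2 ^ k = (q + 2) * q * 2 ^ a := by
    have h1 : 2 ^ a * (m * 2 ^ k) = 2 ^ a * ((q + 2) * q * 2 ^ a) := by
      rw [← mul_assoc, hF]
      ring
    exact Nat.eq_of_mul_eq_mul_left (by positivity) h1
  have hq2 : ¬ 2 ∣ (q + 2) * q := by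
    intro h
    rcases (Nat.Prime.dvd_mul Nat.prime_two).mp h with h1 | h1
    · have := (Nat.prime_dvd_prime_iff_eq Nat.prime_two hp).mp h1
      omega
    · have h2 : 2 ∣ q + 2 := (Nat.dvd_add_self_right).mpr h1
      have := (Nat.prime_dvd_prime_iff_eq Nat.prime_two hp).mp h2
      omega
  have hq0 : (q + 2) * q ≠ 0 := by
    intro h
    exact hq2 (h ▸ dvd_zero 2)
  have hka : k = a := by
    have hfac := congrArg (fun n : ℕ => n.factorization 2) hF'
    rw [Nat.factorization_mul hm0 (by positivity), Nat.factorization_mul hq0 (by positivity),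
      Nat.factorization_pow, Nat.factorization_pow] at hfac
    simp only [Finsupp.coe_add, Finsupp.coe_smul, Pi.add_apply, Pi.smul_apply, smul_eq_mul,
      Nat.factorization_eq_zero_of_not_dvd hodd, Nat.factorization_eq_zero_of_not_dvd hq2,
      Nat.prime_two.factorization_self, mul_one, zero_add] at hfac
    exact hfac
  have hmq : m = (q + 2) * q := by
    rw [hka] at hF'
    exact Nat.eq_of_mul_eq_mul_right (by positivity) hF'
  have hcard : Nat.card G = (q + 2) * (q + 1) * q := by
    rw [← hidx, hmq, hk, hka]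
    ring
  refine ⟨hcard, ⟨k, hk⟩, ?_⟩
  intro z hz
  have hFz := (S.order_formula hz).2
  rw [e1, e2, hcard] at hFz
  have h1 : (q + 2) * q * (q + 1) ^ 2
      = (q + 2) * q * Nat.card (centralizer ({z} : Set G)) ^ 2 := by
    rw [← hFz]
    ring
  have h2 := Nat.eq_of_mul_eq_mul_left (Nat.pos_of_ne_zero hq0) h1
  exact (Nat.pow_left_injective (by norm_num : (2 : ℕ) ≠ 0) h2).symm

end Setting

end TwoDeg

end Cfsg.Agent.Helper9
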