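import Cfsg.Agent.Helper9.TwoDeg5
import Cfsg.Agent.Helper29.InvolCount

set_option autoImplicit false
set_option linter.style.haveILetI false
set_option maxHeartbeats 1000000
set_option linter.unusedSectionVars false

/-!
# Groups with a self-centralizing Sylow subgroup of prime order, `|N(P)| = 2p`, and a character
of degree `p - 1` (helper9), part 6: the case `p > 5`

* `TwoDeg.Setting.no_four`: no elements of order `4` when `p > 5`.
* `TwoDeg.Setting.no_sub`: when `p > 5`, no subgroup `H` of index `2p` has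
  `∑_{h ∈ H} χ₂(h) = |H|`.
-/

namespace Cfsg.Agent.Helper9

namespace TwoDeg

open Subgroup Cfsg

open scoped ComplexConjugate

universe u

variable {G : Type u} [Group G]

namespace Setting

variable [Fintype G] [IsSimpleGroup G] {p : ℕ} [Fact p.Prime] {P : Sylow p G}
  {χ₂ η₀ : IrrCharacter G} {Y : Finset (IrrCharacter G)} (S : Setting p P χ₂ η₀ Y)

include S

open Classical in
/-- no elements of order `4` when `p > 5`. -/
theorem no_four (hp5' : 5 < p) (g : G) : orderOf g ≠ 4 := by
  intro hg
  have hp : p.Prime := Fact.out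
  have hp7 : 7 ≤ p := by
    rcases Nat.lt_or_ge 6 p with h | h
    · exact h
    · have h6 : p = 6 := by omega
      rw [h6] at hp
      exact absurd hp (by norm_num)
  have hreg : ¬ p ∣ orderOf g := by
    rw [hg]
    intro h
    have := Nat.le_of_dvd (by norm_num) h
    omega
  have hgg : orderOf (g * g) = 2 := by
    rw [← pow_two, orderOf_pow' g (by norm_num), hg]
    norm_num
  have hquad := S.star_reg hreg
  rw [S.chi_invol hgg] at hquad
  obtain ⟨a, b, -, -, hK⟩ := sum_mono (Helper79.irr_isCharacter χ₂) (le_top : zpowers g ≤ ⊤)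
  have hinj : Set.InjOn (fun i : ℕ => g ^ i) (Finset.range 4 : Finset ℕ) := by
    intro i hi j hj hij
    have hi' : i ∈ Set.Iio (orderOf g) := by
      rw [hg]
      simpa using hi
    have hj' : j ∈ Set.Iio (orderOf g) := by
      rw [hg]
      simpa using hj
    exact pow_injOn_Iio_orderOf hi' hj' hij
  have hset : Finset.univ.filter (fun x : G => x ∈ zpowers g)
      = (Finset.range 4).image (fun i => g ^ i) := by
    symm
    apply Finset.eq_of_subset_of_card_le
    · intro x hx
      obtain ⟨i, -, rfl⟩ := Finset.mem_image.mp hx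
      rw [Finset.mem_filter]
      exact ⟨Finset.mem_univ _, Subgroup.npow_mem_zpowers g i⟩
    · rw [card_filter_mem, Nat.card_zpowers, hg, Finset.card_image_of_injOn hinj,
        Finset.card_range]
  rw [hset, Finset.sum_image hinj, Nat.card_zpowers, hg] at hK
  simp only [Finset.sum_range_succ, Finset.sum_range_zero, pow_zero, pow_one, zero_add] at hK
  have h3 : g ^ 3 = g⁻¹ := by
    apply eq_inv_of_mul_eq_one_left
    rw [← pow_succ]
    have h4 : g ^ 4 = 1 := by
      rw [← hg]
      exact pow_orderOf_eq_one g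
    exact h4
  have h2 : (χ₂ : G → ℂ) (g ^ 2) = 0 := by
    rw [pow_two]
    exact S.chi_invol hgg
  rw [h3, S.chi_inv, h2, S.chi_one] at hK
  push_cast at hK
  have hA : ((4 * (b : ℤ) - 2 * ((p : ℤ) - 1)) ^ 2 : ℤ) = ((p : ℤ) - 3) ^ 2 - 4 := by
    have : ((4 * (b : ℂ) - 2 * ((p : ℂ) - 1)) ^ 2) = ((p : ℂ) - 3) ^ 2 - 4 := by
      linear_combination 4 * hquad - (4 * (b : ℂ) - 2 * ((p : ℂ) - 1) + 2 * (χ₂ : G → ℂ) g
        - ((p : ℂ) - 1)) * hK
    exact_mod_cast this
  have hB : (4 : ℤ) ≤ (p : ℤ) - 3 := by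
    have : (7 : ℤ) ≤ (p : ℤ) := by exact_mod_cast hp7
    linarith
  have h1 : |4 * (b : ℤ) - 2 * ((p : ℤ) - 1)| < |(p : ℤ) - 3| := by
    apply sq_lt_sq.mp
    rw [hA]
    linarith
  have h2 : |(p : ℤ) - 3 - 1| < |4 * (b : ℤ) - 2 * ((p : ℤ) - 1)| := by
    apply sq_lt_sq.mp
    rw [hA]
    nlinarith
  rw [abs_of_nonneg (by linarith : (0 : ℤ) ≤ (p : ℤ) - 3)] at h1
  rw [abs_of_nonneg (by linarith : (0 : ℤ) ≤ (p : ℤ) - 3 - 1)] at h2
  omega

/-- when `p > 5`, every element has order `2` or odd order. -/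
theorem order_cases (hp5' : 5 < p) (g : G) : orderOf g = 2 ∨ Odd (orderOf g) := by
  obtain ⟨hcard, ⟨k, hk⟩, hcent⟩ := S.card_eq
  by_contra hcon
  push Not at hcon
  obtain ⟨hne2, hnodd⟩ := hcon
  have heven : 2 ∣ orderOf g := even_iff_two_dvd.mp (Nat.not_odd_iff_even.mp hnodd)
  have hto : orderOf (g ^ (orderOf g / 2)) = 2 :=
    orderOf_pow_orderOf_div (orderOf_pos g).ne' heven
  have hgc : g ∈ centralizer ({g ^ (orderOf g / 2)} : Set G) := by
    rw [Subgroup.mem_centralizer_iff]
    intro h hh
    rw [Set.mem_singleton_iff] at hh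
    rw [hh, ← pow_succ, ← pow_succ']
  have hdvd : orderOf g ∣ 2 ^ k := by
    have := orderOf_dvd_natCard (⟨g, hgc⟩ : centralizer ({g ^ (orderOf g / 2)} : Set G))
    rwa [Subgroup.orderOf_mk, hcent _ hto, hk] at this
  obtain ⟨j, hj, hjo⟩ := (Nat.dvd_prime_pow Nat.prime_two).mp hdvd
  have hj2 : 2 ≤ j := by
    rcases j with _ | _ | j
    · rw [hjo] at heven
      norm_num at heven
    · rw [hjo] at hne2
      norm_num at hne2
    · omega
  apply S.no_four hp5' (g ^ (orderOf g / 4))
  exact orderOf_pow_orderOf_div (orderOf_pos g).ne' (by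
    rw [hjo]
    exact pow_dvd_pow 2 hj2)

/-- when `p > 5`, no subgroup `H` of index `2p` has `∑_{h ∈ H} χ₂(h) = |H|`. -/
theorem no_sub (hp5' : 5 < p) (H : Subgroup G) [Fintype H] (hidx : H.index = 2 * p)
    (hsum : ∑ h : H, (χ₂ : G → ℂ) (h : G) = (Nat.card H : ℂ)) : False := by
  classical
  have hp : p.Prime := Fact.out
  obtain ⟨hcard, ⟨k, hk⟩, hcent⟩ := S.card_eq
  haveI : Fact (Nat.Prime 2) := ⟨Nat.prime_two⟩
  have hk3 : 3 ≤ k := by
    by_contra hlt
    have h1 : k ≤ 2 := by omega
    have h2 : 2 ^ k ≤ 2 ^ 2 := Nat.pow_le_pow_right (by norm_num) h1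
    omega
  have hH : Nat.card H * 2 = (p - 1) * (p - 2) := by
    have h1 := H.card_mul_index
    rw [hidx, hcard] at h1
    have h2 : p * (Nat.card H * 2) = p * ((p - 1) * (p - 2)) := by
      rw [← mul_assoc p (p - 1), ← h1]
      ring
    exact Nat.eq_of_mul_eq_mul_left hp.pos h2
  have hodd : ¬ 2 ∣ p - 2 := by
    intro h
    have h1 : 2 ∣ p := by
      have : p = (p - 2) + 2 := by omega
      rw [this]
      exact (Nat.dvd_add_self_right).mpr h
    have := (Nat.prime_dvd_prime_iff_eq Nat.prime_two hp).mp h1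
    omega
  obtain ⟨k', rfl⟩ : ∃ k', k = k' + 1 := ⟨k - 1, by omega⟩
  have hH' : Nat.card H = 2 ^ k' * (p - 2) := by
    rw [hk, pow_succ] at hH
    have h1 : 2 * Nat.card H = 2 * (2 ^ k' * (p - 2)) := by
      rw [mul_comm 2 (Nat.card H), hH]
      ring
    exact Nat.eq_of_mul_eq_mul_left (by norm_num) h1
  apply Helper29.invol_count_false (H := H) hk3
  · intro h
    rw [← Subgroup.orderOf_coe]
    exact S.order_cases hp5' (h : G)
  · intro t ht x
    refine ⟨k' + 1, ?_⟩
    have hxc : ((x : H) : G) ∈ centralizer ({(t : G)} : Set G) := by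
      rw [Subgroup.mem_centralizer_iff]
      intro h hh
      rw [Set.mem_singleton_iff] at hh
      rw [hh]
      have := Subgroup.mem_centralizer_iff.mp x.2 t (Set.mem_singleton t)
      exact congrArg Subtype.val this
    have hto : orderOf (t : G) = 2 := by
      rw [Subgroup.orderOf_coe]
      exact ht
    have h1 : ((x : H) : G) ^ (2 ^ (k' + 1)) = 1 := by
      have := pow_card_eq_one' (G := centralizer ({(t : G)} : Set G)) (x := ⟨_, hxc⟩)
      rw [hcent _ hto, hk] at this
      exact congrArg Subtype.val this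
    apply Subtype.ext
    apply Subtype.ext
    simpa using h1
  · rw [hH']
    exact Dvd.intro _ rfl
  · intro h
    rw [hH', pow_succ] at h
    have h1 : 2 ∣ p - 2 := by
      have h2 : 2 ^ k' * 2 ∣ 2 ^ k' * (p - 2) := h
      exact Nat.dvd_of_mul_dvd_mul_left (by positivity) h2
    exact hodd h1
  · have hregH : ∀ h : H, ¬ p ∣ orderOf (h : G) := by
      intro h hdiv
      have h1 : orderOf (h : G) ∣ Nat.card H := by
        rw [Subgroup.orderOf_coe]
        exact orderOf_dvd_natCard h
      have h2 : p ∣ Nat.card H * 2 := Dvd.dvd.mul_right (hdiv.trans h1) 2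
      rw [hH] at h2
      rcases (Nat.Prime.dvd_mul hp).mp h2 with h3 | h3
      · have := Nat.le_of_dvd (by omega) h3
        omega
      · have := Nat.le_of_dvd (by omega) h3
        omega
    have e : ∀ h : H, (χ₂ : G → ℂ) (h : G)
        = 1 + ((if orderOf h = 2 then (-1 : ℂ) else 0)
          + (if h = 1 then ((p : ℂ) - 2) else 0)) := by
      intro h
      by_cases h1 : h = 1
      · have ho : orderOf h ≠ 2 := by
          rw [h1, orderOf_one]
          norm_num
        rw [if_neg ho, if_pos h1, h1, Subgroup.coe_one, S.chi_one]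
        ring
      · by_cases h2 : orderOf h = 2
        · rw [if_pos h2, if_neg h1, S.chi_invol (by rw [Subgroup.orderOf_coe]; exact h2)]
          ring
        · rw [if_neg h2, if_neg h1]
          have h3 : Odd (orderOf (h : G)) := by
            rcases S.order_cases hp5' (h : G) with h4 | h4
            · rw [Subgroup.orderOf_coe] at h4
              exact absurd h4 h2
            · exact h4
          have h5 : (h : G) ≠ 1 := fun h6 => h1 (Subtype.ext h6)
          rw [S.chi_odd h3 (hregH h) h5]
          ring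
    have hJ : ∑ h : H, (if orderOf h = 2 then (-1 : ℂ) else 0)
        = -((Finset.univ.filter (fun h : H => orderOf h = 2)).card : ℂ) := by
      rw [Finset.sum_ite, Finset.sum_const_zero, add_zero, Finset.sum_const, nsmul_eq_mul,
        mul_neg, mul_one]
    have h1 : ∑ h : H, (if h = 1 then ((p : ℂ) - 2) else 0) = (p : ℂ) - 2 := by
      rw [Finset.sum_ite_eq', if_pos (Finset.mem_univ _)]
    rw [Finset.sum_congr rfl (fun h _ => e h), Finset.sum_add_distrib, Finset.sum_add_distrib,
      hJ, h1, Finset.sum_const, Finset.card_univ, nsmul_eq_mul, mul_one,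
      ← Nat.card_eq_fintype_card] at hsum
    have h2 : (((Finset.univ.filter (fun h : H => orderOf h = 2)).card : ℕ) : ℂ)
        = ((p - 2 : ℕ) : ℂ) := by
      rw [Nat.cast_sub (by omega)]
      push_cast
      linear_combination -hsum
    have h3 : (Finset.univ.filter (fun h : H => orderOf h = 2)).card = p - 2 := by
      exact_mod_cast h2
    rw [h3]
    omega

end Setting

end TwoDeg

end Cfsg.Agent.Helper9
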