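import Cfsg.Agent.Helper9.TwoDeg6
import Cfsg.Agent.Helper9.PrimeDeg

set_option autoImplicit false
set_option linter.style.haveILetI false
set_option maxHeartbeats 1000000
set_option linter.unusedSectionVars false

/-!
# Simple transitive groups of degree `2p` with `|N(P)| = 2p` (helper9)

* `TwoDeg.two_p_data`: for a transitive, not `2`-transitive action of a simple group on `2p`
  points on which the `p`-singular elements are fixed-point-free, Brauer's data have
  `ε = v = -1`, `χ₂(1) = p - 1`, and `χ₂` occurs once in the permutation character.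
* `TwoDeg.main_two_p`: then `p = 5` and `|G| = 60`.
-/

namespace Cfsg.Agent.Helper9

namespace TwoDeg

open Subgroup Cfsg MulAction

open scoped ComplexConjugate

universe u

variable {G : Type u} [Group G] {α : Type*} [MulAction G α]

/-- the permutation character of a transitive action as an induced character. -/
theorem perm_eq_indFun [Fintype G] [Finite α] [IsPretransitive G α] (x₀ : α) :
    (fun g : G => (Nat.card (fixedBy α g) : ℂ))
      = indFun (stabilizer G x₀) (fun _ => (1 : ℂ)) := by
  classical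
  funext g
  rw [Helper15.indFun_stabilizer_one_apply]
  congr 1
  apply Nat.card_congr
  apply Equiv.subtypeEquivRight
  intro z
  simp [mem_fixedBy, orbit_eq_univ]

/-- Brauer's data for a transitive, not `2`-transitive action on `2p` points. -/
theorem two_p_data [Fintype G] [IsSimpleGroup G] [Fintype α] [IsPretransitive G α]
    {p : ℕ} [Fact p.Prime] (hα : Fintype.card α = 2 * p) (hp5 : 5 ≤ p) (P : Sylow p G)
    (hP : Nat.card (P : Subgroup G) = p) (hlt : p < Nat.card G)
    (hfix0 : ∀ g : G, p ∣ orderOf g → Nat.card (fixedBy α g) = 0)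
    (hnot2 : ¬ IsMultiplyPretransitive G α 2)
    {χ₂ η₀ : IrrCharacter G} {Y : Finset (IrrCharacter G)} {ε v : ℤ}
    (h : BrauerP.TwoData p P χ₂ η₀ Y ε v) :
    ε = -1 ∧ v = -1 ∧ charDegree (χ₂ : G → ℂ) = p - 1 ∧
      classInner (fun g : G => (Nat.card (fixedBy α g) : ℂ)) (χ₂ : G → ℂ) = 1 := by
  classical
  have hp : p.Prime := Fact.out
  haveI : Nonempty α := by
    rw [← Fintype.card_pos_iff, hα]
    have := hp.pos
    omega
  have hna := BrauerP.exists_not_comm P (by rw [hP]; exact hp.one_lt) (by rw [hP]; exact hlt)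
  have hf2 : 2 ≤ charDegree (χ₂ : G → ℂ) := BrauerP.two_le_charDegree hna χ₂ h.ne_triv
  have hπ : IsCharacter G (fun g => (Nat.card (fixedBy α g) : ℂ)) := PrimeDeg.isCharacter_perm
  obtain ⟨n₁, n₂, c, R, h1, h2, h3, hE1, hdeg, hR⟩ :=
    h.decomp hP hπ (fun g hg => by
      show ((Nat.card (fixedBy α g) : ℕ) : ℂ) = 0
      rw [hfix0 g hg, Nat.cast_zero])
  have hn1 : n₁ = 1 := by
    have h4 : classInner (fun g : G => (Nat.card (fixedBy α g) : ℂ))
        (Helper81.trivIrr G : G → ℂ)
        = 1 := by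
      unfold classInner
      simp only [Helper81.trivIrr_apply, map_one, mul_one]
      rw [PrimeDeg.sum_perm (G := G) (α := α)]
      exact inv_mul_cancel₀ (by exact_mod_cast Nat.card_pos.ne')
    rw [h4] at h1
    exact_mod_cast h1.symm
  have hcardα : Nat.card α = 2 * p := by rw [Nat.card_eq_fintype_card, hα]
  have hdegπ : charDegree (fun g : G => (Nat.card (fixedBy α g) : ℂ)) = 2 * p := by
    have h4 := Helper79.isCharacter_one_eq_charDegree hπ
    have h5 : Nat.card (fixedBy α (1 : G)) = 2 * p := by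
      rw [← hα, ← Nat.card_eq_fintype_card]
      apply Nat.card_congr
      exact (Equiv.subtypeUnivEquiv (fun a => by simp))
    simp only [h5] at h4
    exact_mod_cast h4.symm
  have hreg1 : ¬ p ∣ orderOf (1 : G) := by
    rw [orderOf_one]
    exact hp.one_lt.ne' ∘ Nat.dvd_one.mp
  have hrel := h.rel 1 hreg1
  rw [Helper81.irr_one_eq_charDegree, Helper81.irr_one_eq_charDegree] at hrel
  have hrelZ : v * (charDegree (η₀ : G → ℂ) : ℤ) = 1 + ε * (charDegree (χ₂ : G → ℂ) : ℤ) := by
    exact_mod_cast hrel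
  haveI : Fintype (P : Subgroup G) := Fintype.ofFinite _
  obtain ⟨n, hn⟩ := Helper81.exists_linMult χ₂ (P : Subgroup G).subtype
    (1 : (P : Subgroup G) →* ℂˣ)
  have hsumP : ∑ q : (P : Subgroup G), (χ₂ : G → ℂ) ((P : Subgroup G).subtype q)
      * conj (((1 : (P : Subgroup G) →* ℂˣ) q : ℂˣ) : ℂ)
      = (charDegree (χ₂ : G → ℂ) : ℂ) + ((p : ℂ) - 1) * (ε : ℂ) := by
    simp only [MonoidHom.one_apply, Units.val_one, map_one, mul_one, Subgroup.coe_subtype]
    rw [← Finset.add_sum_erase Finset.univ _ (Finset.mem_univ (1 : (P : Subgroup G))),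
      Subgroup.coe_one, Helper81.irr_one_eq_charDegree]
    congr 1
    rw [Finset.sum_congr rfl (fun q hq => h.val₂ q.1 q.2
      (fun h' => (Finset.mem_erase.mp hq).1 (Subtype.ext h'))),
      Finset.sum_const, Finset.card_erase_of_mem (Finset.mem_univ _), Finset.card_univ,
      ← Nat.card_eq_fintype_card, hP, nsmul_eq_mul, Nat.cast_sub hp.one_lt.le, Nat.cast_one]
  rw [hsumP, ← Nat.card_eq_fintype_card, hP] at hn
  have hnZ : (charDegree (χ₂ : G → ℂ) : ℤ) + ((p : ℤ) - 1) * ε = (p : ℤ) * n := by
    exact_mod_cast hn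
  have hcard := h.card
  rw [hdegπ, hn1] at hdeg
  rw [hn1] at hE1
  have hpn : (0 : ℤ) ≤ (p : ℤ) * n := by positivity
  have hpn2 : 2 ≤ n → 2 * (p : ℤ) ≤ (p : ℤ) * n := by
    intro h2n
    have : (2 : ℤ) ≤ (n : ℤ) := by exact_mod_cast h2n
    have hp0 : (0 : ℤ) ≤ (p : ℤ) := by positivity
    nlinarith
  obtain ⟨f, hf⟩ : ∃ f, f = charDegree (χ₂ : G → ℂ) := ⟨_, rfl⟩
  obtain ⟨D, hD⟩ : ∃ D, D = charDegree (η₀ : G → ℂ) := ⟨_, rfl⟩
  obtain ⟨r, hr⟩ : ∃ r, r = Y.card := ⟨_, rfl⟩
  rw [← hf] at hf2 hnZ hrelZ hdeg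
  rw [← hD] at hrelZ hdeg
  rw [← hr] at hcard hdeg
  have hr2 : 2 ≤ r := by omega
  have hncases : n = 0 ∨ n = 1 ∨ 2 ≤ n := by omega
  have key : ε = -1 ∧ v = -1 ∧ f = p - 1 ∧ n₂ = 1 := by
    rcases h.eps with he | he <;> rcases h.sgn with hv | hv
    · exfalso
      rw [he, hv] at hrelZ
      rw [he, hv] at hE1
      rw [he] at hnZ
      have hc1 : 1 ≤ c := by omega
      have h4 : 2 * D ≤ c * (r * D) :=
        calc 2 * D ≤ r * D := Nat.mul_le_mul_right D hr2
          _ = 1 * (r * D) := (one_mul _).symm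
          _ ≤ c * (r * D) := Nat.mul_le_mul_right _ hc1
      rcases hncases with h0 | h0 | h0
      · rw [h0] at hnZ
        simp only [Nat.cast_zero, mul_zero] at hnZ
        omega
      · rw [h0] at hnZ
        simp only [Nat.cast_one, mul_one] at hnZ
        omega
      · have := hpn2 h0
        omega
    · exfalso
      rw [he, hv] at hrelZ
      omega
    · exfalso
      rw [he, hv] at hrelZ
      omega
    · rw [he, hv] at hrelZ
      rw [he, hv] at hE1
      rw [he] at hnZ
      have hn2 : n₂ = c + 1 := by omega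
      have hfD : f = D + 1 := by omega
      have hfp : p - 1 ≤ f := by omega
      by_cases hc : c = 0
      · subst hc
        subst hn2
        rw [zero_mul, zero_add, one_mul, add_zero] at hdeg
        rcases hncases with h0 | h0 | h0
        · rw [h0] at hnZ
          simp only [Nat.cast_zero, mul_zero] at hnZ
          refine ⟨he, hv, ?_, rfl⟩
          omega
        · exfalso
          rw [h0] at hnZ
          simp only [Nat.cast_one, mul_one] at hnZ
          have hR0 : R = 0 := by omega
          have h4 := hR hR0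
          apply hnot2
          apply (Helper3.isIrrCharacter_perm_sub_one_iff (G := G) (X := α)
            (by rw [hcardα]; omega)).mp
          have e : (fun g : G => (Nat.card (fixedBy α g) : ℂ) - 1) = (χ₂ : G → ℂ) := by
            funext g
            rw [h4 g, hn1]
            simp
          rw [e]
          exact χ₂.2
        · exfalso
          have := hpn2 h0
          omega
      · exfalso
        have h4 : 2 * f ≤ n₂ * f := Nat.mul_le_mul_right f (by omega)
        have h5 : 2 * D ≤ c * (r * D) :=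
          calc 2 * D ≤ r * D := Nat.mul_le_mul_right D hr2
            _ = 1 * (r * D) := (one_mul _).symm
            _ ≤ c * (r * D) := Nat.mul_le_mul_right _ (by omega)
        omega
  obtain ⟨he, hv, hf1, hn2⟩ := key
  refine ⟨he, hv, hf ▸ hf1, ?_⟩
  rw [h2, hn2]
  simp

/-- **Simple transitive groups of degree `2p` with `|N(P)| = 2p`, not `2`-transitive.** -/
theorem main_two_p [Fintype G] [IsSimpleGroup G] [Fintype α] [IsPretransitive G α]
    {p : ℕ} [Fact p.Prime] (hα : Fintype.card α = 2 * p) (hp5 : 5 ≤ p) (P : Sylow p G)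
    (hP : Nat.card (P : Subgroup G) = p)
    (hC : Nat.card (centralizer ((P : Subgroup G) : Set G)) = p)
    (hN : Nat.card (normalizer ((P : Subgroup G) : Set G)) = 2 * p)
    (hfix0 : ∀ g : G, p ∣ orderOf g → Nat.card (fixedBy α g) = 0)
    (hnot2 : ¬ IsMultiplyPretransitive G α 2) :
    p = 5 ∧ Nat.card G = 60 := by
  classical
  have hp : p.Prime := Fact.out
  have hlt : p < Nat.card G := by
    have h1 : Nat.card (normalizer ((P : Subgroup G) : Set G)) ≤ Nat.card G :=
      Nat.le_of_dvd Nat.card_pos (Subgroup.card_subgroup_dvd_card _)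
    have := hp.pos
    omega
  obtain ⟨χ₂, η₀, Y, ε, v, h⟩ := BrauerP.exists_twoData P hP hlt hp5 hC hN
  obtain ⟨hε, hv, hdeg, hinner⟩ := two_p_data hα hp5 P hP hlt hfix0 hnot2 h
  subst hε
  subst hv
  have S : Setting p P χ₂ η₀ Y := ⟨hp5, hP, hC, hN, h, hdeg⟩
  obtain ⟨hcard, -, -⟩ := S.card_eq
  by_cases h5 : p = 5
  · subst h5
    exact ⟨rfl, by rw [hcard]⟩
  · exfalso
    haveI : Nonempty α := by
      rw [← Fintype.card_pos_iff, hα]
      have := hp.pos
      omega
    obtain ⟨x₀⟩ := ‹Nonempty α›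
    have hidx : (stabilizer G x₀).index = 2 * p := by
      rw [MulAction.index_stabilizer_of_transitive G x₀, Nat.card_eq_fintype_card, hα]
    rw [perm_eq_indFun x₀,
      Helper79.classInner_indFun_one _ (Helper81.irr_isClassFunction χ₂)] at hinner
    have hH : (Nat.card (stabilizer G x₀) : ℂ) ≠ 0 := by exact_mod_cast Nat.card_pos.ne'
    have h1 : conj (∑ h : stabilizer G x₀, (χ₂ : G → ℂ) (h : G))
        = (Nat.card (stabilizer G x₀) : ℂ) := by
      have h2 := congrArg (fun x => (Nat.card (stabilizer G x₀) : ℂ) * x) hinner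
      simp only [mul_one] at h2
      rw [← mul_assoc, mul_inv_cancel₀ hH, one_mul] at h2
      exact h2
    have h2 : ∑ h : stabilizer G x₀, (χ₂ : G → ℂ) (h : G)
        = (Nat.card (stabilizer G x₀) : ℂ) := by
      have h3 := congrArg conj h1
      rw [Complex.conj_conj] at h3
      rw [h3]
      simp
    exact S.no_sub (by omega) (stabilizer G x₀) hidx h2

end TwoDeg

end Cfsg.Agent.Helper9
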